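import Cfsg.Agent.H25.S4Defs2

/-! Maximal subgroups of `Sp₄(q)`: the sign lemma and the bridge to the abstract frame theorem. -/

set_option autoImplicit false

namespace Cfsg.Agent.H79.Sp

open Matrix Cfsg.Geo Cfsg.Agent.H25.S4

universe u

section Sign

variable {F : Type*} [Field F] {R : Set (V5 F)} {σ : F →+* F}

/-- the ratio `σ x / x` -/
def sg (σ : F →+* F) (x : F) : F := σ x / x

theorem sg_mul (x y : F) : sg σ (x * y) = sg σ x * sg σ y := by
  rw [sg, sg, sg, map_mul, div_mul_div_comm]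

theorem sg_neg (x : F) : sg σ (-x) = sg σ x := by rw [sg, sg, map_neg, neg_div_neg_eq]

theorem sg_mul_self (x : F) : sg σ x * x = σ x := by
  by_cases h : x = 0
  · simp [h]
  · rw [sg, div_mul_cancel₀ _ h]

theorem sg_eq_one {x : F} (h : x ≠ 0) (e : σ x = x) : sg σ x = 1 := by rw [sg, e, div_self h]

/-- the hypothesis -/
structure SH (R : Set (V5 F)) (σ : F →+* F) : Prop where
  rs : RS R
  fix : ∀ a ∈ R, ∀ b ∈ R, σ ((a ⬝ᵥ b) ^ 2) = (a ⬝ᵥ b) ^ 2

/-- a root with non-zero coordinates at `i` and `j` -/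
def Rel (R : Set (V5 F)) (σ : F →+* F) (i j : Fin 5) (e : F) : Prop :=
  ∃ a ∈ R, a i ≠ 0 ∧ a j ≠ 0 ∧ e = sg σ (a i) * sg σ (a j)

namespace SH

variable (h : SH R σ)
include h

theorem sq {a : V5 F} (ha : a ∈ R) (i : Fin 5) : σ (a i ^ 2) = a i ^ 2 := by
  have := h.fix _ (h.rs.frame i) a ha
  rwa [single_dotProduct, one_mul] at this

theorem sg_sq {a : V5 F} (ha : a ∈ R) {i : Fin 5} (hi : a i ≠ 0) :
    sg σ (a i) * sg σ (a i) = 1 := by
  rw [← sg_mul, ← pow_two]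
  exact sg_eq_one (pow_ne_zero 2 hi) (h.sq ha i)

theorem K1 {a b : V5 F} (ha : a ∈ R) (hb : b ∈ R) (i j : Fin 5) :
    σ (a i * b i * (a j * b j)) = a i * b i * (a j * b j) := by
  by_cases e : i = j
  · subst e
    rw [show a i * b i * (a i * b i) = a i ^ 2 * b i ^ 2 by ring, map_mul, h.sq ha, h.sq hb]
  have r := h.rs
  have f0 := h.fix a ha b hb
  have f1 := h.fix _ (r.refl _ (r.frame i) a ha) b hb
  have f2 := h.fix _ (r.refl _ (r.frame j) a ha) b hb
  have f3 := h.fix _ (r.refl _ (r.frame i) _ (r.refl _ (r.frame j) a ha)) b hb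
  simp only [rf_dot, dot_rf, single_dotProduct, one_mul, rf_apply, Pi.single_eq_of_ne e,
    mul_zero, sub_zero] at f1 f2 f3
  simp only [map_pow, map_sub, map_mul, map_ofNat] at f0 f1 f2 f3 ⊢
  have h8 : (8 : F) ≠ 0 := by
    rw [show (8 : F) = 2 * 2 * 2 by norm_num]
    exact mul_ne_zero (mul_ne_zero r.two r.two) r.two
  apply mul_left_cancel₀ h8
  linear_combination f0 - f1 - f2 + f3

theorem K1' {a b : V5 F} (ha : a ∈ R) (hb : b ∈ R) {i j : Fin 5} (h1 : a i ≠ 0) (h2 : b i ≠ 0)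
    (h3 : a j ≠ 0) (h4 : b j ≠ 0) : sg σ (a i) * sg σ (b i) = sg σ (a j) * sg σ (b j) := by
  have e := sg_eq_one (mul_ne_zero (mul_ne_zero h1 h2) (mul_ne_zero h3 h4)) (h.K1 ha hb i j)
  simp only [sg_mul] at e
  have e1 := h.sg_sq ha h3
  have e2 := h.sg_sq hb h4
  linear_combination (sg σ (a j) * sg σ (b j)) * e -
    (sg σ (a i) * sg σ (b i) * (sg σ (b j) * sg σ (b j))) * e1 - (sg σ (a i) * sg σ (b i)) * e2

theorem K2 {a b : V5 F} (ha : a ∈ R) (hb : b ∈ R) {j : Fin 5} (h3 : a j ≠ 0) (h4 : b j ≠ 0) :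
    σ (a ⬝ᵥ b) = sg σ (a j) * sg σ (b j) * (a ⬝ᵥ b) := by
  rw [dotProduct, map_sum, Finset.mul_sum]
  refine Finset.sum_congr rfl fun i _ => ?_
  by_cases h1 : a i = 0
  · simp [h1]
  by_cases h2 : b i = 0
  · simp [h2]
  rw [← h.K1' ha hb h1 h2 h3 h4, ← sg_mul, sg_mul_self]

theorem rel_sq {i j : Fin 5} {e : F} (r : Rel R σ i j e) : e * e = 1 := by
  obtain ⟨a, ha, h1, h2, rfl⟩ := r
  linear_combination (sg σ (a j) * sg σ (a j)) * h.sg_sq ha h1 + h.sg_sq ha h2

theorem rel_eq {i j : Fin 5} {e e' : F} (r : Rel R σ i j e) (r' : Rel R σ i j e') : e = e' := by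
  obtain ⟨a, ha, h1, h2, rfl⟩ := r
  obtain ⟨b, hb, h3, h4, rfl⟩ := r'
  have k := h.K1' ha hb h1 h3 h2 h4
  have e1 := h.sg_sq ha h2
  have e2 := h.sg_sq hb h3
  linear_combination (sg σ (a j) * sg σ (b i)) * k - (sg σ (a i) * sg σ (a j)) * e2 +
    (sg σ (b i) * sg σ (b j)) * e1

theorem rel_trans {i j k : Fin 5} {e e' : F} (r : Rel R σ i j e) (r' : Rel R σ j k e') :
    Rel R σ i k (e * e') := by
  obtain ⟨v, hv, h1, h2, rfl⟩ := r
  by_cases h5 : v k ≠ 0
  · refine ⟨v, hv, h1, h5, ?_⟩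
    rw [h.rel_eq r' ⟨v, hv, h2, h5, rfl⟩]
    linear_combination (sg σ (v i) * sg σ (v k)) * h.sg_sq hv h2
  obtain ⟨w, hw, h3, h4, rfl⟩ := r'
  by_cases h6 : w i ≠ 0
  · refine ⟨w, hw, h6, h4, ?_⟩
    rw [h.rel_eq ⟨v, hv, h1, h2, rfl⟩ ⟨w, hw, h6, h3, rfl⟩]
    linear_combination (sg σ (w i) * sg σ (w k)) * h.sg_sq hw h3
  push Not at h5 h6
  have key : ∀ w ∈ R, w j ≠ 0 → w k ≠ 0 → w i = 0 → w ⬝ᵥ v ≠ 0 →
      Rel R σ i k (sg σ (v i) * sg σ (v j) * (sg σ (w j) * sg σ (w k))) := by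
    intro w hw h3 h4 h6 hβ
    have e1 : rf w v i = v i := by rw [rf_apply, h6, mul_zero, sub_zero]
    have e2 : rf w v k = -(2 * (w ⬝ᵥ v) * w k) := by rw [rf_apply, h5, zero_sub]
    refine ⟨rf w v, h.rs.refl w hw v hv, e1 ▸ h1, ?_, ?_⟩
    · rw [e2, neg_ne_zero]
      exact mul_ne_zero (mul_ne_zero h.rs.two hβ) h4
    · have e3 : sg σ (w ⬝ᵥ v) = sg σ (w j) * sg σ (v j) := by
        rw [sg, h.K2 hw hv h3 h2, mul_div_cancel_right₀ _ hβ]
      rw [e1, e2, sg_neg, sg_mul, sg_mul, e3, sg_eq_one h.rs.two (map_ofNat σ 2)]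
      ring
  by_cases hβ : w ⬝ᵥ v ≠ 0
  · exact key w hw h3 h4 h6 hβ
  push Not at hβ
  have hij : i ≠ j := fun e => h3 (e ▸ h6)
  have hkj : k ≠ j := fun e => h2 (e ▸ h5)
  have := key _ (h.rs.flip hw j) (by simpa using h3) (by simpa [hkj] using h4)
    (by simpa [hij] using h6) (by
      rw [← rf_single, rf_dot, hβ, single_dotProduct, single_dotProduct, one_mul, one_mul, zero_sub,
        neg_ne_zero]
      exact mul_ne_zero (mul_ne_zero h.rs.two h3) h2)
  rwa [Function.update_self, Function.update_of_ne hkj, sg_neg] at this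

theorem rel_zero (i : Fin 5) : ∃ e, Rel R σ 0 i e := by
  let Z : Submodule F (V5 F) :=
    { carrier := {x | ∀ i, (¬ ∃ e, Rel R σ 0 i e) → x i = 0}
      add_mem' := fun hx hy i hi => by rw [Pi.add_apply, hx i hi, hy i hi, add_zero]
      zero_mem' := fun _ _ => rfl
      smul_mem' := fun c x hx i hi => by rw [Pi.smul_apply, hx i hi, smul_zero] }
  have hZ : Z = ⊤ := h.rs.conn Z (fun a ha => ?_) (h.rs.frame 0) (fun i hi => ?_)
  · by_contra hc
    have : (Pi.single i 1 : V5 F) ∈ Z := hZ ▸ Submodule.mem_top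
    simpa using this i hc
  · by_cases h1 : ∃ j, a j ≠ 0 ∧ ∃ e, Rel R σ 0 j e
    · obtain ⟨j, h2, e, h3⟩ := h1
      refine Or.inl fun k hk => ?_
      by_contra h4
      exact hk ⟨_, h.rel_trans h3 ⟨a, ha, h2, h4, rfl⟩⟩
    · refine Or.inr fun z hz => Finset.sum_eq_zero fun j _ => ?_
      by_cases h2 : a j = 0
      · rw [h2, zero_mul]
      · rw [hz j fun h3 => h1 ⟨j, h2, h3⟩, mul_zero]
  · refine Pi.single_eq_of_ne (fun e => hi ?_) _
    subst e
    exact ⟨_, _, h.rs.frame 0, by simp, by simp, rfl⟩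

end SH

end Sign

theorem sign : SignStmt.{u} := by
  intro F _ R hR σ hσ
  have h : SH R σ := ⟨hR, hσ⟩
  choose δ hδ using h.rel_zero
  refine ⟨δ, fun i => mul_self_eq_one_iff.1 (h.rel_sq (hδ i)), fun a ha => ?_⟩
  obtain ⟨j, hj⟩ : ∃ j, a j ≠ 0 := by
    by_contra hc
    push Not at hc
    have := hR.norm a ha
    rw [show a = 0 from funext hc, zero_dotProduct] at this
    exact zero_ne_one this
  have e1 := h.rel_sq (hδ j)
  have e2 := h.sg_sq ha hj
  refine ⟨sg σ (a j) * δ j, mul_self_eq_one_iff.1 (by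
    linear_combination (δ j * δ j) * e2 + e1), fun i => ?_⟩
  by_cases hi : a i = 0
  · simp [hi]
  rw [h.rel_eq (hδ i) (h.rel_trans (hδ j) ⟨a, ha, hj, hi, rfl⟩), ← sg_mul_self (a i)]
  linear_combination (-(sg σ (a i) * a i * (sg σ (a j) * sg σ (a j)))) * e1 -
    (sg σ (a i) * a i) * e2

section Bridge

variable {F : Type*} [Field F]

theorem sa_mem (a b c e f : F) : sa a b c (-a) e f ∈ Wsp F :=
  ⟨ad_sa _ _ _ _ _ _, by rw [trace_sa]; ring⟩

theorem exists_sa (h2 : (2 : F) ≠ 0) {x : M4 F} (hx : x ∈ Wsp F) :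
    ∃ a b c e f, x = sa a b c (-a) e f := by
  obtain ⟨a, b, c, d, e, f, rfl⟩ : ∃ a b c d e f, x = sa a b c d e f :=
    ⟨_, _, _, _, _, _, eq_sa h2 hx.1⟩
  have h := hx.2
  rw [trace_sa] at h
  obtain rfl : d = -a := by
    linear_combination (mul_eq_zero.1 h).resolve_left h2
  exact ⟨a, b, c, e, f, rfl⟩

/-- a matrix commuting with the orthogonal module is scalar -/
theorem scalar_of_comm {m : M4 F} (h : ∀ x ∈ Wsp F, m * x = x * m) (h2 : (2 : F) ≠ 0) :
    ∃ c : F, m = c • (1 : M4 F) := by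
  have hm : ∀ a b c e f : F, m * sa a b c (-a) e f = sa a b c (-a) e f * m := fun a b c e f =>
    h _ (sa_mem _ _ _ _ _)
  have k : ∀ t : F, -t = t → t = 0 := fun t ht =>
    (mul_eq_zero.1 (show 2 * t = 0 by linear_combination -ht)).resolve_left h2
  have e1 := fun i j => congrFun (congrFun (hm 1 0 0 0 0) i) j
  have e2 := fun i j => congrFun (congrFun (hm 0 1 0 0 0) i) j
  have e4 := fun i j => congrFun (congrFun (hm 0 0 0 1 0) i) j
  have e5 := fun i j => congrFun (congrFun (hm 0 0 0 0 1) i) j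
  have a1 := e1 (.inl 0) (.inl 1)
  have a2 := e1 (.inl 0) (.inr 1)
  have a3 := e1 (.inl 1) (.inl 0)
  have a4 := e1 (.inl 1) (.inr 0)
  have a5 := e1 (.inr 0) (.inl 1)
  have a6 := e1 (.inr 0) (.inr 1)
  have a7 := e1 (.inr 1) (.inl 0)
  have a8 := e1 (.inr 1) (.inr 0)
  have b1 := e2 (.inl 0) (.inl 1)
  have b2 := e2 (.inr 1) (.inr 0)
  have d1 := e4 (.inl 0) (.inr 1)
  have d3 := e4 (.inl 0) (.inl 1)
  have d5 := e5 (.inr 0) (.inr 1)
  have d6 := e4 (.inl 1) (.inl 0)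
  have d7 := e5 (.inr 1) (.inr 0)
  simp [sa, Matrix.mul_apply, Fintype.sum_sum_type, Fin.sum_univ_two] at a1 a2 a3 a4 a5 a6 a7 a8
  simp [sa, Matrix.mul_apply, Fintype.sum_sum_type, Fin.sum_univ_two] at b1 b2 d1 d3 d5 d6 d7
  refine ⟨m (.inl 0) (.inl 0), ?_⟩
  ext i j
  rcases i with i | i <;> rcases j with j | j <;> fin_cases i <;> fin_cases j <;>
    simp [k _ a1, k _ a2, k _ a3.symm, k _ a4.symm, k _ a5, k _ a6, k _ a7.symm, k _ a8.symm,
      ← b1, ← b2, ← d1, ← d3, ← d5, d6, d7]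

theorem trace_sa_mul (a b c e f a' b' c' e' f' : F) :
    (sa a b c (-a) e f * sa a' b' c' (-a') e' f').trace =
      2 * (2 * a * a' + (b * c' + c * b') - (e * f' + f * e')) := by
  simp [sa, Matrix.trace, Matrix.mul_apply, Fintype.sum_sum_type, Fin.sum_univ_two]
  ring

theorem bil_nondeg (h2 : (2 : F) ≠ 0) {x : M4 F} (hx : x ∈ Wsp F)
    (h : ∀ y ∈ Wsp F, bil x y = 0) : x = 0 := by
  obtain ⟨a, b, c, e, f, rfl⟩ := exists_sa h2 hx
  have k : ∀ a' b' c' e' f' : F, 2 * a * a' + (b * c' + c * b') - (e * f' + f * e') = 0 := by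
    intro a' b' c' e' f'
    have := h _ (sa_mem a' b' c' e' f')
    rw [bil, trace_sa_mul, div_eq_zero_iff] at this
    exact (mul_eq_zero.1 (this.resolve_right (four_ne h2))).resolve_left h2
  have k1 := k 1 0 0 0 0
  have k2 := k 0 1 0 0 0
  have k3 := k 0 0 1 0 0
  have k4 := k 0 0 0 1 0
  have k5 := k 0 0 0 0 1
  simp [h2] at k1 k2 k3 k4 k5
  subst k1 k2 k3 k4 k5
  ext i j
  rcases i with i | i <;> rcases j with j | j <;> fin_cases i <;> fin_cases j <;> simp [sa]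

theorem sa_add (a b c d e f a' b' c' d' e' f' : F) :
    sa (a + a') (b + b') (c + c') (d + d') (e + e') (f + f') =
      sa a b c d e f + sa a' b' c' d' e' f' := by
  ext i j
  rcases i with i | i <;> rcases j with j | j <;> fin_cases i <;> fin_cases j <;>
    simp [sa, add_comm]

theorem sa_smul (t a b c d e f : F) :
    sa (t * a) (t * b) (t * c) (t * d) (t * e) (t * f) = t • sa a b c d e f := by
  ext i j
  rcases i with i | i <;> rcases j with j | j <;> fin_cases i <;> fin_cases j <;> simp [sa]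

theorem finrank_W (h2 : (2 : F) ≠ 0) : Module.finrank F (Wsp F) = 5 := by
  let φ : (Fin 5 → F) →ₗ[F] Wsp F :=
    { toFun := fun v => ⟨sa (v 0) (v 1) (v 2) (-(v 0)) (v 3) (v 4), sa_mem _ _ _ _ _⟩
      map_add' := fun v w => Subtype.ext (by
        simp only [Pi.add_apply, neg_add, sa_add, Submodule.coe_add])
      map_smul' := fun c v => Subtype.ext (by
        simp only [Pi.smul_apply, smul_eq_mul, ← mul_neg, sa_smul, Submodule.coe_smul,
          RingHom.id_apply]) }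
  have hφ : Function.Bijective φ := by
    refine ⟨(injective_iff_map_eq_zero φ).2 fun v hv => ?_, fun x => ?_⟩
    · have hv' : sa (v 0) (v 1) (v 2) (-(v 0)) (v 3) (v 4) = 0 := congrArg Subtype.val hv
      have e := fun i j => congrFun (congrFun hv' i) j
      have e0 := e (.inl 0) (.inl 0)
      have e1 := e (.inl 0) (.inl 1)
      have e2 := e (.inl 1) (.inl 0)
      have e3 := e (.inl 0) (.inr 1)
      have e4 := e (.inr 0) (.inl 1)
      simp [sa] at e0 e1 e2 e3 e4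
      ext i
      fin_cases i <;> simp [e0, e1, e2, e3, e4]
    · obtain ⟨a, b, c, e, f, hx⟩ := exists_sa h2 x.2
      exact ⟨![a, b, c, e, f], Subtype.ext hx.symm⟩
  rw [← (LinearEquiv.ofBijective φ hφ).finrank_eq, Module.finrank_fin_fun]

/-- the form on the orthogonal module -/
def BW (F : Type*) [Field F] : LinearMap.BilinForm F (Wsp F) :=
  LinearMap.mk₂ F (fun x y => bil (x : M4 F) y)
    (fun x x' y => by simp only [bil, Submodule.coe_add, Matrix.add_mul, trace_add, add_div])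
    (fun c x y => by
      simp only [bil, Submodule.coe_smul, Matrix.smul_mul, trace_smul, smul_eq_mul, mul_div_assoc])
    (fun x y y' => by simp only [bil, Submodule.coe_add, Matrix.mul_add, trace_add, add_div])
    (fun c x y => by
      simp only [bil, Submodule.coe_smul, Matrix.mul_smul, trace_smul, smul_eq_mul, mul_div_assoc])

theorem BW_apply (x y : Wsp F) : BW F x y = bil (x : M4 F) y := rfl

/-- the action on the orthogonal module -/
def rho0 {P : Subgroup (GL I4 F)} (hP : P ≤ spGL 2 F) : P →* Module.End F (Wsp F) where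
  toFun g :=
    { toFun := fun x => ⟨((g : GL I4 F) : M4 F) * x * (((g : GL I4 F)⁻¹ : GL I4 F) : M4 F),
        conj_mem_W (hP g.2) x.2⟩
      map_add' := fun x y => Subtype.ext (by simp [Matrix.mul_add, Matrix.add_mul])
      map_smul' := fun c x => Subtype.ext (by simp) }
  map_one' := by
    ext x : 2
    simp
  map_mul' g h := by
    ext x : 2
    simp [Matrix.mul_assoc]

theorem rho0_apply {P : Subgroup (GL I4 F)} (hP : P ≤ spGL 2 F) (g : P) (x : Wsp F) :
    (rho0 hP g x : M4 F) = ((g : GL I4 F) : M4 F) * x * (((g : GL I4 F)⁻¹ : GL I4 F) : M4 F) := rfl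

theorem scalars_of_comm (h2 : (2 : F) ≠ 0) {g : GL I4 F}
    (h : ∀ x ∈ Wsp F, (g : M4 F) * x = x * g) : g ∈ scalars I4 F := by
  obtain ⟨c, hc⟩ := scalar_of_comm h h2
  have h0 : c ≠ 0 := fun e => g.ne_zero (by rw [hc, e, zero_smul])
  exact (mem_scalars_iff g).2 ⟨Units.mk0 c h0, hc⟩

theorem rho0_eq_one (h2 : (2 : F) ≠ 0) {P : Subgroup (GL I4 F)} (hP : P ≤ spGL 2 F) (g : P) :
    rho0 hP g = 1 ↔ (g : GL I4 F) ∈ scalars I4 F := by
  constructor
  · refine fun h => scalars_of_comm h2 fun x hx => ?_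
    have e := rho0_apply hP g ⟨x, hx⟩
    rw [h] at e
    change x = _ * x * _ at e
    conv_rhs => rw [e]
    rw [Matrix.mul_assoc, Units.inv_mul, Matrix.mul_one]
  · intro h
    obtain ⟨c, hc⟩ := (mem_scalars_iff _).1 h
    ext x : 2
    rw [rho0_apply, hc, Matrix.smul_mul, Matrix.one_mul, ← Matrix.mul_one (x : M4 F),
      ← Matrix.mul_smul, ← hc, Matrix.mul_assoc, Units.mul_inv]
    simp

theorem refl_eq (h2 : (2 : F) ≠ 0) {a x : M4 F} (ha : a ∈ Wsp F) (hx : x ∈ Wsp F)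
    (haa : a * a = 1) : a * x * a = (2 * bil a x) • a - x := by
  have h := congrArg (· * a) (W_anti h2 ha hx)
  simp only [Matrix.add_mul, Matrix.smul_mul, Matrix.one_mul, Matrix.mul_assoc x, haa,
    Matrix.mul_one] at h
  exact eq_sub_of_add_eq h

end Bridge

theorem bridge (hA : AbsFrameStmt.{u}) : FrameStmt.{u} := by
  intro F _ _ H P h hex
  have h2 := h.two
  have hP : P ≤ spGL 2 F := fun g hg => h.sp hg
  have := h.core.simple
  let ρ : Bar P →* Module.End F (Wsp F) :=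
    QuotientGroup.lift _ (rho0 hP) fun g hg => (rho0_eq_one h2 hP g).2 hg
  have hρ : ∀ g : P, ρ (g : Bar P) = rho0 hP g := fun g => rfl
  have inv : ∀ {g : GL I4 F}, g * g = 1 → ((g⁻¹ : GL I4 F) : M4 F) = g := fun e => by
    rw [inv_eq_of_mul_eq_one_right e]
  have r1 : ∀ {g : GL I4 F} (hg : Inv P g),
      Rt (BW F) ρ ⟨g, hg.2.2⟩ ((⟨g, hg.1⟩ : P) : Bar P) := fun {g} hg => by
    have e : (g : M4 F) * g = 1 := by rw [← Units.val_mul, hg.2.1, Units.val_one]
    refine ⟨bil_of_eq h2 (by rw [one_smul]; exact e), fun x => Subtype.ext ?_⟩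
    rw [hρ, rho0_apply, inv hg.2.1]
    exact refl_eq h2 hg.2.2 x.2 e
  have r2 : ∀ (a : Wsp F) (g : P), Rt (BW F) ρ a (g : Bar P) →
      Inv P g ∧ (((g : GL I4 F) : M4 F) = a ∨ ((g : GL I4 F) : M4 F) = -a) := by
    intro a g hr
    have e : (a : M4 F) * a = 1 := by rw [W_sq h2 a.2, ← BW_apply, hr.1, one_smul]
    have e' : ad (a : M4 F) * a = 1 := by rw [a.2.1, e]
    have e2 : mkSp _ e' * mkSp _ e' = 1 := Units.ext e
    have h3 : mkSp _ e' * (g : GL I4 F) ∈ scalars I4 F := scalars_of_comm h2 fun x hx => by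
      have h4 := congrArg Subtype.val (hr.2 ⟨x, hx⟩)
      rw [hρ, rho0_apply] at h4
      have h5 : ((g : GL I4 F) : M4 F) * x * (((g : GL I4 F)⁻¹ : GL I4 F) : M4 F) =
          (a : M4 F) * x * a := h4.trans (refl_eq h2 a.2 hx e).symm
      rw [Units.val_mul, coe_mkSp]
      calc (a : M4 F) * ((g : GL I4 F) : M4 F) * x
          = a * (((g : GL I4 F) : M4 F) * x * (((g : GL I4 F)⁻¹ : GL I4 F) : M4 F)) *
            ((g : GL I4 F) : M4 F) := by
            simp only [Matrix.mul_assoc, Units.inv_mul, Matrix.mul_one]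
        _ = _ := by rw [h5, ← Matrix.mul_assoc, ← Matrix.mul_assoc, e, Matrix.one_mul,
            Matrix.mul_assoc]
    have h4 : (g : GL I4 F) = mkSp _ e' ∨ (g : GL I4 F) = -mkSp _ e' := by
      rcases eq_or_of_scalar (mul_mem (mkSp_mem _ e') (hP g.2)) h3 with h5 | h5
      · exact Or.inl (mul_left_cancel (h5.trans e2.symm))
      · exact Or.inr (mul_left_cancel (a := mkSp _ e') (by rw [h5, mul_neg, e2]))
    rcases h4 with h4 | h4
    · exact ⟨⟨g.2, by rw [h4, e2], by rw [h4]; exact a.2⟩, Or.inl (by rw [h4]; rfl)⟩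
    · exact ⟨⟨g.2, by rw [h4, neg_mul_neg, e2], by rw [h4]; exact neg_mem a.2⟩,
        Or.inr (by rw [h4]; rfl)⟩
  obtain ⟨g0, hg0⟩ := hex
  obtain ⟨⟨a, t, h3, h4⟩, h5⟩ := hA F (Wsp F) (Bar P) (BW F) ρ h2 (finrank_W h2)
    (fun x y => bil_comm _ _)
    (fun x hx => Subtype.ext (bil_nondeg h2 x.2 fun y hy => hx ⟨y, hy⟩)) h.core.nonabelian
    ((injective_iff_map_eq_one ρ).2 fun g hg => by
      obtain ⟨g, rfl⟩ := QuotientGroup.mk_surjective g
      exact (QuotientGroup.eq_one_iff g).2 ((rho0_eq_one h2 hP g).1 hg))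
    (fun g x y => by
      obtain ⟨g, rfl⟩ := QuotientGroup.mk_surjective g
      exact bil_conj _ _ _) ⟨_, _, r1 hg0⟩
  refine ⟨?_, fun g g' hg hg' => ?_⟩
  · choose e he using fun i => QuotientGroup.mk_surjective (t i)
    have h6 := fun i => r2 (a i) (e i) (he i ▸ h3 i)
    refine ⟨fun i => e i, fun i => (h6 i).1, fun i j hij => ?_⟩
    have h7 : ((a i : M4 F) * a j).trace / 4 = 0 := h4 i j hij
    rcases (h6 i).2 with k | k <;> rcases (h6 j).2 with k' | k' <;>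
      simp only [bil, k, k', Matrix.neg_mul, Matrix.mul_neg, neg_neg, trace_neg, neg_div, h7,
        neg_zero]
  · obtain ⟨x, hx⟩ := isConj_iff.1 (h5 _ _ _ _ (r1 hg) (r1 hg'))
    obtain ⟨x, rfl⟩ := QuotientGroup.mk_surjective x
    refine ⟨x, x.2, ?_⟩
    have h6 : (x : GL I4 F) * g * (x : GL I4 F)⁻¹ ∈ P := mul_mem (mul_mem x.2 hg.1) (inv_mem x.2)
    have h7 : g'⁻¹ * ((x : GL I4 F) * g * (x : GL I4 F)⁻¹) ∈ scalars I4 F :=
      (QuotientGroup.eq (a := (⟨g', hg'.1⟩ : P)) (b := x * ⟨g, hg.1⟩ * x⁻¹)).1 hx.symm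
    rcases eq_or_of_scalar (mul_mem (inv_mem (hP hg'.1)) (hP h6)) h7 with h8 | h8
    · exact Or.inl (inv_mul_eq_one.1 h8).symm
    · exact Or.inr (by rw [inv_mul_eq_iff_eq_mul.1 h8, mul_neg, mul_one])

end Cfsg.Agent.H79.Sp
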