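import Mathlib
import Cfsg.Agent.H27.TenGeo
import Cfsg.Agent.H30.DecCore

/-! Overgroups of tensor product subgroups in orthogonal groups: the unipotent radical of the
stabiliser of `U ⊗ z`. -/

set_option autoImplicit false

namespace Cfsg.Agent.H79

open Module TensorProduct QuadraticMap H30 H36 H27

/-- Isometries as units of the endomorphism ring. -/
def oU {F V : Type*} [Field F] [AddCommGroup V] [Module F V] (Q : QuadraticForm F V) :
    O Q →* (End F V)ˣ where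
  toFun g := ⟨g.1.toLinearMap, g.1.symm.toLinearMap, LinearMap.ext g.1.apply_symm_apply,
    LinearMap.ext g.1.symm_apply_apply⟩
  map_one' := rfl
  map_mul' _ _ := rfl

theorem oU_injective {F V : Type*} [Field F] [AddCommGroup V] [Module F V]
    (Q : QuadraticForm F V) : Function.Injective (oU Q) := fun _ _ h =>
  O_ext fun v => LinearMap.congr_fun (congrArg Units.val h) v

theorem exists_orth_eq_one {F V : Type*} [Field F] [AddCommGroup V] [Module F V]
    [FiniteDimensional F V] {B : LinearMap.BilinForm F V} (hB : B.Nondegenerate) (hR : B.IsRefl)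
    {s : Set V} {x : V} (hx : x ∉ Submodule.span F s) : ∃ y, B x y = 1 ∧ ∀ z ∈ s, B z y = 0 := by
  obtain ⟨y, hy, h⟩ := exists_orth_ne_zero hB hR _ hx
  exact ⟨(B x y)⁻¹ • y, by simp [h], fun z hz => by
    simp [show B z y = 0 from hy z (Submodule.subset_span hz)]⟩

theorem exists_orth_notMem {F V : Type*} [Field F] [AddCommGroup V] [Module F V]
    [FiniteDimensional F V] (B : LinearMap.BilinForm F V) (h5 : 5 ≤ finrank F V) (a b c d : V) :
    ∃ y, B y a = 0 ∧ B y b = 0 ∧ y ∉ Submodule.span F {c, d} := by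
  classical
  by_contra! H
  have h1 := Submodule.finrank_mono (show LinearMap.ker ((B.flip a).prod (B.flip b)) ≤
    Submodule.span F {c, d} from fun y hy => H y (congrArg Prod.fst hy) (congrArg Prod.snd hy))
  have h2 := LinearMap.finrank_range_add_finrank_ker ((B.flip a).prod (B.flip b))
  have h3 := Submodule.finrank_le (LinearMap.range ((B.flip a).prod (B.flip b)))
  have h4 := finrank_span_finset_le_card (R := F) ({c, d} : Finset V)
  have h6 := Finset.card_le_two (a := c) (b := d)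
  rw [Set.finrank, Finset.coe_insert, Finset.coe_singleton] at h4
  simp only [finrank_prod, finrank_self] at h3
  omega

variable {F U W : Type*} [Field F] [AddCommGroup U] [Module F U] [AddCommGroup W] [Module F W]

/-- `U ⊗ z` is totally singular. -/
def Gd (Q : QuadraticForm F (U ⊗[F] W)) (z : W) : Prop := ∀ x : U, Q (x ⊗ₜ z) = 0

/-- A group of isometries of `U ⊗ W` containing enough elements `1 ⊗ β`. -/
structure TC (f : LinearMap.BilinForm F U) (h : LinearMap.BilinForm F W)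
    (Q : QuadraticForm F (U ⊗[F] W)) (X : Subgroup (End F (U ⊗[F] W))ˣ) : Prop where
  fnd : f.Nondegenerate
  hnd : h.Nondegenerate
  frefl : f.IsRefl
  hrefl : h.IsRefl
  nt : Nontrivial U
  five : 5 ≤ finrank F W
  pol : ∀ p q, polar Q p q = tB f h p q
  iso : ∀ g, InG X g → ∀ p, Q (g p) = Q p
  eich : ∀ z v, Gd Q z → h v z = 0 → ∃ β : End F W, InG X (β.lTensor U) ∧ β z = z ∧
    ∀ w, ∃ c : F, β w = w + h w z • v + c • z
  ex : ∀ z z', ∃ e, e ≠ 0 ∧ Gd Q e ∧ h z e = 0 ∧ h z' e = 0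
  hyp : ∀ e y, Gd Q e → h y e = 1 → ∃ c : F, Gd Q (y + c • e)
  trans : ∀ z z', z ≠ 0 → z' ≠ 0 → Gd Q z → Gd Q z' →
    ∃ (β : End F W) (c : F), c ≠ 0 ∧ InG X (β.lTensor U) ∧ β z = c • z'

/-- `1 + n` lies in `X` and in the unipotent radical of the stabiliser of `U ⊗ z`. -/
structure QR (h : LinearMap.BilinForm F W) (X : Subgroup (End F (U ⊗[F] W))ˣ) (z : W)
    (n : End F (U ⊗[F] W)) : Prop where
  mem : InG X (1 + n)
  kill : ∀ x, n (x ⊗ₜ z) = 0
  into : ∀ p, cR h U z p = 0 → n p ∈ sR F U z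

/-- The images of the elements of the unipotent radical in `Hom(U, (U ⊗ z)^⊥ / U ⊗ z)`. -/
def Xi (h : LinearMap.BilinForm F W) (X : Subgroup (End F (U ⊗[F] W))ˣ) (z : W)
    (ξ : U →ₗ[F] U ⊗[F] W) : Prop := ∃ n, QR h X z n ∧ ∀ p, n p - ξ (cR h U z p) ∈ sR F U z

/-- `x ↦ D x ⊗ v`. -/
def tm (D : End F U) (v : W) : U →ₗ[F] U ⊗[F] W := (TensorProduct.mk F U W).flip v ∘ₗ D

@[simp] theorem tm_apply (D : End F U) (v : W) (x : U) : tm D v x = D x ⊗ₜ v := rfl

variable {f : LinearMap.BilinForm F U} {h : LinearMap.BilinForm F W}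
  {Q : QuadraticForm F (U ⊗[F] W)} {X : Subgroup (End F (U ⊗[F] W))ˣ} {z : W}
  {n n' g g' : End F (U ⊗[F] W)} {ξ ξ' : U →ₗ[F] U ⊗[F] W}

theorem Gd.smul (hz : Gd Q z) (c : F) : Gd Q (c • z) := fun x => by rw [← smul_tmul, hz]

theorem xi_mk (h1 : InG X (1 + n)) (h2 : ∀ x, n (x ⊗ₜ z) = 0)
    (h3 : ∀ p, n p - ξ (cR h U z p) ∈ sR F U z) : Xi h X z ξ :=
  ⟨n, ⟨h1, h2, fun p hp => by simpa [hp] using h3 p⟩, h3⟩

theorem QR.kill' (hn : QR h X z n) {p : U ⊗[F] W} (hp : p ∈ sR F U z) : n p = 0 := by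
  obtain ⟨x, rfl⟩ := mem_sR.1 hp
  exact hn.kill x

theorem QR.xi (hn : QR h X z n) {z' : W} (hz' : h z' z = 1) :
    Xi h X z (n ∘ₗ (TensorProduct.mk F U W).flip z') :=
  ⟨n, hn, fun p => by
    have := hn.into (p - cR h U z p ⊗ₜ z') (by simp [hz'])
    rwa [map_sub] at this⟩

theorem Xi.congr (hξ : Xi h X z ξ) (e : ∀ x, ξ x - ξ' x ∈ sR F U z) : Xi h X z ξ' := by
  obtain ⟨n, hn, h1⟩ := hξ
  exact ⟨n, hn, fun p => by simpa using Submodule.add_mem _ (h1 p) (e (cR h U z p))⟩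

theorem xi_zero : Xi h X z 0 := xi_mk (n := 0) (by simpa using inG_one X) (by simp) (by simp)

theorem perp_induction {z' : W} (hz' : h z' z = 1) (N : AddSubgroup (U ⊗[F] W))
    (hN : ∀ x v, h v z = 0 → x ⊗ₜ v ∈ N) {p : U ⊗[F] W} (hp : cR h U z p = 0) : p ∈ N := by
  have key : ∀ p, p - cR h U z p ⊗ₜ z' ∈ N := fun p => by
    induction p using TensorProduct.induction_on with
    | zero => simp
    | add a b ha hb =>
      convert N.add_mem ha hb using 1
      rw [map_add, add_tmul]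
      abel
    | tmul x w =>
      convert hN x (w - h w z • z') (by simp [hz']) using 1
      simp [tmul_sub, smul_tmul]
  simpa [hp] using key p

namespace TC

variable (hC : TC f h Q X)
include hC

theorem self (hz : Gd Q z) : h z z = 0 := by
  have := hC.nt
  obtain ⟨u, hu⟩ := exists_ne (0 : U)
  obtain ⟨y, hy⟩ := exists_apply_eq_one hC.fnd hu
  have := hC.pol (u ⊗ₜ z) (y ⊗ₜ z)
  rw [polar, ← add_tmul, hz, hz, hz, tB_tmul, hy] at this
  simpa using this.symm

theorem symm (p q : U ⊗[F] W) : tB f h p q = tB f h q p := by rw [← hC.pol, ← hC.pol, polar_comm]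

theorem iso' (hg : InG X g) (p q : U ⊗[F] W) : tB f h (g p) (g q) = tB f h p q := by
  simp only [← hC.pol, polar, ← map_add, hC.iso g hg]

theorem skew (hn : InG X (1 + n)) (p q : U ⊗[F] W) :
    tB f h (n p) q + tB f h p (n q) + tB f h (n p) (n q) = 0 := by
  have := hC.iso' hn p q
  simp only [LinearMap.add_apply, End.one_apply, map_add] at this
  linear_combination this

theorem cR_sR (hz : Gd Q z) {p : U ⊗[F] W} (hp : p ∈ sR F U z) : cR h U z p = 0 := by
  obtain ⟨x, rfl⟩ := mem_sR.1 hp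
  simp [hC.self hz]

omit hC in
theorem tB_sR {p q : U ⊗[F] W} (hp : cR h U z p = 0) (hq : q ∈ sR F U z) : tB f h p q = 0 := by
  obtain ⟨x, rfl⟩ := mem_sR.1 hq
  simp [tB_cR, hp]

theorem tB_sR' {p q : U ⊗[F] W} (hp : cR h U z p = 0) (hq : q ∈ sR F U z) : tB f h q p = 0 := by
  rw [hC.symm, tB_sR hp hq]

theorem iso_right {β : End F W} (hβ : InG X (β.lTensor U)) (w w' : W) :
    h (β w) (β w') = h w w' := by
  have := hC.nt
  obtain ⟨u, hu⟩ := exists_ne (0 : U)
  obtain ⟨y, hy⟩ := exists_apply_eq_one hC.fnd hu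
  simpa [hy] using hC.iso' hβ (u ⊗ₜ w) (y ⊗ₜ w')

theorem eich' (hz : Gd Q z) (hz0 : z ≠ 0) : ∃ ε : F, ε ≠ 0 ∧ ∀ v, h v z = 0 →
    ∃ β : End F W, InG X (β.lTensor U) ∧ β z = z ∧ (∀ w, ∃ c : F, β w = w + h w z • v + c • z) ∧
      ∀ w, h w z = 0 → β w = w + (ε * h w v) • z := by
  obtain ⟨y, hy⟩ := exists_apply_eq_one' hC.hnd hz0
  have hy' : h z y ≠ 0 := fun e => by simp [hC.hrefl _ _ e] at hy
  refine ⟨-(h z y)⁻¹, by simpa using hy', fun v hv => ?_⟩
  obtain ⟨β, h1, h2, h3⟩ := hC.eich z v hz hv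
  refine ⟨β, h1, h2, h3, fun w hw => ?_⟩
  obtain ⟨c, hc⟩ := h3 w
  obtain ⟨d, hd⟩ := h3 y
  have := hC.iso_right h1 w y
  rw [hc, hd] at this
  simp only [hw, hy, zero_smul, add_zero, one_smul, map_add, map_smul, LinearMap.add_apply,
    LinearMap.smul_apply, smul_eq_mul, hC.self hz, hC.hrefl _ _ hv, mul_zero] at this
  rw [hc, hw, zero_smul, add_zero]
  congr 2
  field_simp
  linear_combination this

theorem cR_fix (hg : InG X g) (hfix : ∀ x, g (x ⊗ₜ z) = x ⊗ₜ z) (p : U ⊗[F] W) :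
    cR h U z (g p) = cR h U z p := by
  rw [← sub_eq_zero]
  refine hC.fnd.1 _ fun x => ?_
  rw [map_sub, LinearMap.sub_apply, ← tB_cR, ← tB_cR, ← hC.iso' hg p, hfix, sub_self]

theorem perp (hn : QR h X z n) (p : U ⊗[F] W) : cR h U z (n p) = 0 := by
  simpa using hC.cR_fix hn.mem (fun x => by simp [hn.kill]) p

theorem triple {n'' : End F (U ⊗[F] W)} (h1 : QR h X z n) (h2 : QR h X z n') (h3 : QR h X z n'') :
    n * n' * n'' = 0 := LinearMap.ext fun p => h1.kill' (h2.into _ (hC.perp h3 p))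

theorem xi_add (h1 : Xi h X z ξ) (h2 : Xi h X z ξ') : Xi h X z (ξ + ξ') := by
  obtain ⟨n, hn, h1⟩ := h1
  obtain ⟨n', hn', h2⟩ := h2
  refine xi_mk (n := n + n' + n * n') (by convert hn.mem.mul hn'.mem using 1; noncomm_ring)
    (fun x => by simp [hn.kill, hn'.kill]) fun p => ?_
  convert Submodule.add_mem _ (Submodule.add_mem _ (h1 p) (h2 p)) (hn.into _ (hC.perp hn' p))
    using 1
  simp only [LinearMap.add_apply, End.mul_apply]
  abel

theorem xi_neg (h1 : Xi h X z ξ) : Xi h X z (-ξ) := by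
  obtain ⟨n, hn, h1⟩ := h1
  refine xi_mk (n := -n + n * n) (inG_inv hn.mem (mul_inv_of_cube (hC.triple hn hn hn)))
    (fun x => by simp [hn.kill]) fun p => ?_
  convert Submodule.add_mem _ (Submodule.neg_mem _ (h1 p)) (hn.into _ (hC.perp hn p)) using 1
  simp only [LinearMap.add_apply, End.mul_apply, LinearMap.neg_apply]
  abel

theorem xi_perp (hz : Gd Q z) (hz0 : z ≠ 0) (h1 : Xi h X z ξ) (x : U) : cR h U z (ξ x) = 0 := by
  obtain ⟨n, hn, h1⟩ := h1
  obtain ⟨y, hy⟩ := exists_apply_eq_one' hC.hnd hz0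
  simpa [hC.perp hn, hy] using hC.cR_sR hz (h1 (x ⊗ₜ y))

omit hC in
theorem xi_conj (h1 : Xi h X z ξ) (hg : InG X g) (hgg' : g * g' = 1) {z₂ : W} {γ : End F U}
    (h2 : ∀ x, g (x ⊗ₜ z) ∈ sR F U z₂) (h3 : ∀ x, g' (x ⊗ₜ z₂) ∈ sR F U z)
    (h4 : ∀ p, cR h U z (g' p) = γ (cR h U z₂ p)) : Xi h X z₂ (g ∘ₗ ξ ∘ₗ γ) := by
  obtain ⟨n, hn, h1⟩ := h1
  refine xi_mk (inG_conj hg hgg' hn.mem) (fun x => by simp [hn.kill' (h3 x)]) fun p => ?_
  obtain ⟨x, hx⟩ := mem_sR.1 (h1 (g' p))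
  have := h2 x
  rwa [← hx, map_sub, h4] at this

theorem xi_fix (h1 : Xi h X z ξ) (hg : InG X g) (hfix : ∀ x, g (x ⊗ₜ z) = x ⊗ₜ z) :
    Xi h X z (g ∘ₗ ξ) := by
  obtain ⟨g', hg', e1, e2⟩ := inG_exists_inv hg
  have h2 : ∀ x, g' (x ⊗ₜ z) = x ⊗ₜ z := fun x => by
    rw [← hfix, ← End.mul_apply, e2, End.one_apply, hfix]
  exact xi_conj (γ := 1) h1 hg e1 (fun x => by rw [hfix]; exact tmul_mem_sR x z)
    (fun x => by rw [h2]; exact tmul_mem_sR x z) (hC.cR_fix hg' h2)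

theorem xi_fix' (h1 : Xi h X z ξ) (hn : InG X (1 + n)) (hk : ∀ x, n (x ⊗ₜ z) = 0) :
    Xi h X z (n ∘ₗ ξ) := by
  convert hC.xi_add (hC.xi_fix h1 hn fun x => by simp [hk]) (hC.xi_neg h1) using 1
  ext x
  simp

theorem xi_one (hz : Gd Q z) {v : W} (hv : h v z = 0) : Xi h X z (tm 1 v) := by
  obtain ⟨β, h1, h2, h3⟩ := hC.eich z v hz hv
  refine xi_mk (n := β.lTensor U - 1) (by simpa using h1) (by simp [h2]) fun p => ?_
  induction p using TensorProduct.induction_on with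
  | zero => simp
  | add a b ha hb =>
    convert Submodule.add_mem _ ha hb using 1
    simp only [map_add]
    abel
  | tmul x w =>
    obtain ⟨c, hc⟩ := h3 w
    convert tmul_mem_sR (c • x) z using 1
    simp [hc, tmul_add, smul_tmul, add_sub_assoc, add_assoc]

end TC

/-- The operators `D` with `D ⊗ v` in the image of the unipotent radical of `U ⊗ z`. -/
def Mp (hC : TC f h Q X) : Submodule F (End F U) where
  carrier := {D | ∀ z, z ≠ 0 → Gd Q z → ∀ v, h v z = 0 → Xi h X z (tm D v)}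
  add_mem' {D D'} hD hD' z hz0 hz v hv := by
    convert hC.xi_add (hD z hz0 hz v hv) (hD' z hz0 hz v hv) using 1
    ext x
    simp [add_tmul]
  zero_mem' z _ _ v _ := by
    convert xi_zero using 1
    ext x
    simp
  smul_mem' c D hD z hz0 hz v hv := by
    convert hD z hz0 hz (c • v) (by simp [hv]) using 1
    ext x
    simp [smul_tmul]

/-- `1 ⊗ G` preserves the image of the unipotent radical. -/
def Act (h : LinearMap.BilinForm F W) (X : Subgroup (End F (U ⊗[F] W))ˣ) (z : W) (G : End F W) :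
    Prop := ∀ ξ, Xi h X z ξ → Xi h X z (G.lTensor U ∘ₗ ξ)

theorem Act.mul {G G' : End F W} (h1 : Act h X z G) (h2 : Act h X z G') : Act h X z (G * G') :=
  fun ξ hξ => by
    rw [LinearMap.lTensor_mul, End.mul_eq_comp, LinearMap.comp_assoc]
    exact h1 _ (h2 _ hξ)

namespace TC

variable (hC : TC f h Q X)
include hC

theorem one_mem : 1 ∈ Mp hC := fun _ _ hz _ hv => hC.xi_one hz hv

theorem conj_mem {D α α' : End F U} (hD : D ∈ Mp hC) (hα : InG X (α.rTensor W))
    (e : α * α' = 1) : α * D * α' ∈ Mp hC := fun z hz0 hz v hv =>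
  xi_conj (g' := α'.rTensor W) (γ := α') (hD z hz0 hz v hv) hα
    (by rw [← LinearMap.rTensor_mul, e, End.one_eq_id, LinearMap.rTensor_id, End.one_eq_id])
    (fun x => tmul_mem_sR _ _) (fun x => tmul_mem_sR _ _) (cR_rTensor α' z)

theorem act_add {G G' : End F W} (h1 : Act h X z G) (h2 : Act h X z G') : Act h X z (G + G') :=
  fun ξ hξ => by
    rw [LinearMap.lTensor_add, LinearMap.add_comp]
    exact hC.xi_add (h1 _ hξ) (h2 _ hξ)

theorem act_sub_one {β : End F W} (h1 : InG X (β.lTensor U)) (h2 : β z = z) :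
    Act h X z (β - 1) := fun ξ hξ => by
  rw [LinearMap.lTensor_sub, End.one_eq_id, LinearMap.lTensor_id, ← End.one_eq_id]
  exact hC.xi_fix' hξ (by simpa using h1) (by simp [h2])

theorem act_congr (hz : Gd Q z) (hz0 : z ≠ 0) {G G' : End F W} (h1 : Act h X z G)
    (e : ∀ w, h w z = 0 → G w = G' w) : Act h X z G' := fun ξ hξ => by
  obtain ⟨y, hy⟩ := exists_apply_eq_one' hC.hnd hz0
  convert h1 ξ hξ using 1
  refine LinearMap.ext fun x => (sub_eq_zero.1 ?_).symm
  exact perp_induction hy (LinearMap.ker (G.lTensor U - G'.lTensor U)).toAddSubgroup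
    (fun x v hv => by simp [e v hv]) (hC.xi_perp hz hz0 hξ x)

variable [FiniteDimensional F U] [FiniteDimensional F W]

omit [FiniteDimensional F U] in
theorem exists_inv {β : End F W} (hβ : InG X (β.lTensor U)) :
    ∃ β' : End F W, β * β' = 1 ∧ β' * β = 1 := by
  have : Function.Injective β := (injective_iff_map_eq_zero β).2 fun w hw =>
    hC.hnd.1 w fun y => by rw [← hC.iso_right hβ, hw]; simp
  let e := LinearEquiv.ofInjectiveEndo β this
  exact ⟨e.symm.toLinearMap, LinearMap.ext e.apply_symm_apply, LinearMap.ext e.symm_apply_apply⟩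

omit [FiniteDimensional F U] in
theorem mem_of_forall (hz : Gd Q z) (hz0 : z ≠ 0) {D : End F U}
    (hD : ∀ v, h v z = 0 → Xi h X z (tm D v)) : D ∈ Mp hC := fun z₂ hz₂0 hz₂ v hv => by
  obtain ⟨β, c, hc, h1, h2⟩ := hC.trans z z₂ hz0 hz₂0 hz hz₂
  obtain ⟨β', e1, e2⟩ := hC.exists_inv h1
  have e1' : ∀ w, β (β' w) = w := LinearMap.congr_fun e1
  have h3 : ∀ w, h (β' w) z = h w (c • z₂) := fun w => by rw [← hC.iso_right h1, e1', h2]
  have h4 : β' z₂ = c⁻¹ • z := by
    rw [eq_inv_smul_iff₀ hc, ← map_smul, ← h2, ← End.mul_apply, e2, End.one_apply]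
  convert xi_conj (g' := β'.lTensor U) (γ := c • 1) (z₂ := z₂)
    (hD (c⁻¹ • β' v) (by simp [h3, hv])) h1
    (by rw [← LinearMap.lTensor_mul, e1, End.one_eq_id, LinearMap.lTensor_id, End.one_eq_id])
    (fun x => by simpa [h2] using Submodule.smul_mem _ c (tmul_mem_sR x z₂))
    (fun x => by simpa [h4] using Submodule.smul_mem _ c⁻¹ (tmul_mem_sR x z))
    (fun p => by rw [cR_lTensor h3]; simp) using 1
  ext x
  simp [e1', ← smul_tmul', hc]

omit [FiniteDimensional F U] in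
theorem act_ro_self (hz : Gd Q z) (hz0 : z ≠ 0) {e : W} (he : Gd Q e) (he0 : e ≠ 0)
    (hez : h z e = 0) (c : F) : Act h X z (c • ro h e e) := by
  obtain ⟨ε, hε, h1⟩ := hC.eich' he he0
  obtain ⟨v₁, h2, h3, h4⟩ := exists_orth_notMem h hC.five z e z e
  obtain ⟨v₂, h5, h6⟩ := exists_orth_eq_one hC.hnd hC.hrefl h4
  have h7 := h6 z (by simp)
  obtain ⟨β₁, a1, -, -, a2⟩ := h1 v₂ (hC.hrefl _ _ (h6 e (by simp)))
  obtain ⟨β₂, b1, b2, b3, b4⟩ := h1 ((c / ε) • v₁) (by simp [h3])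
  refine hC.act_congr hz hz0 ((hC.act_sub_one a1 (by simp [a2 z hez, h7])).mul
    (hC.act_sub_one b1 (by simp [b4 z hez, hC.hrefl _ _ h2]))) fun w _ => ?_
  obtain ⟨d, hd⟩ := b3 w
  have h8 : β₁ e = e := by simp [a2 e (hC.self he), h6 e]
  simp only [End.mul_apply, LinearMap.sub_apply, End.one_apply, hd, add_assoc, add_sub_cancel_left,
    map_add, map_smul, a2 v₁ h3, h5, h8, LinearMap.smul_apply, ro_apply]
  match_scalars
  field_simp
  ring

omit [FiniteDimensional F U] in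
theorem exists_partner {e : W} (he : Gd Q e) {s : Set W} (hs : ∀ z ∈ s, h z e = 0)
    (hes : e ∉ Submodule.span F s) : ∃ e', Gd Q e' ∧ h e e' = 1 ∧ ∀ z ∈ s, h z e' = 0 := by
  obtain ⟨y, h1, h2⟩ := exists_orth_eq_one hC.hnd hC.hrefl hes
  have h3 : h y e ≠ 0 := fun e => by simp [hC.hrefl _ _ e] at h1
  obtain ⟨c, hc⟩ := hC.hyp e ((h y e)⁻¹ • y) he (by simp [h3])
  refine ⟨_, hc.smul (h y e), by simp [hC.self he, h1, h3], fun z hz => by simp [hs z hz, h2 z hz]⟩

omit [FiniteDimensional F U] in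
theorem act_ro (hz : Gd Q z) (hz0 : z ≠ 0) {e' : W} (he' : Gd Q e') (hez : h z e' = 0)
    (he0 : e' ∉ F ∙ z) {v : W} (hv : h v z = 0) : Act h X z (ro h v e') := by
  obtain ⟨e, he, h1, h2⟩ := hC.exists_partner he' (s := {z}) (by simpa using hez) he0
  have h3 := h2 z rfl
  have h4 : e ≠ 0 := by rintro rfl; simp at h1
  have h5 : e' ≠ 0 := by rintro rfl; simp at h1
  obtain ⟨ε, -, h6⟩ := hC.eich' he h4
  obtain ⟨β, a1, -, a3, a4⟩ := h6 (v - h v e • e') (by simp [h1])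
  obtain ⟨c, hc⟩ := a3 e'
  convert hC.act_add (hC.act_add ((hC.act_sub_one a1 (by
    simp [a4 z h3, hez, hC.hrefl _ _ hv])).mul (hC.act_ro_self hz hz0 he' h5 hez 1))
    ((hC.act_ro_self hz hz0 he h4 h3 (-c)).mul (hC.act_ro_self hz hz0 he' h5 hez 1)))
    (hC.act_ro_self hz hz0 he' h5 hez (h v e)) using 1
  ext w
  simp only [ro_apply, LinearMap.add_apply, End.mul_apply, LinearMap.sub_apply, one_smul, map_smul,
    hc, h1, End.one_apply, LinearMap.smul_apply]
  module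

omit [FiniteDimensional F U] in
/-- All contractions of an element of the image of the unipotent radical lie in `Mp`. -/
theorem cR_mem (hz : Gd Q z) (hz0 : z ≠ 0) (hξ : Xi h X z ξ) {y : W} (hy : h z y = 0) :
    cR h U y ∘ₗ ξ ∈ Mp hC := by
  have key : ∀ e, Gd Q e → h z e = 0 → e ∉ F ∙ z → cR h U e ∘ₗ ξ ∈ Mp hC := fun e h1 h2 h3 =>
    hC.mem_of_forall hz hz0 fun v hv => by
      convert hC.act_ro hz hz0 h1 h2 h3 hv ξ hξ using 1
      ext x
      simp [lTensor_ro]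
  obtain ⟨z', hz'⟩ := exists_apply_eq_one' hC.hnd hz0
  obtain ⟨e, he0, he, h1, h2⟩ := hC.ex z z'
  have h3 : ∀ y, h y e ≠ 0 → y ∉ F ∙ z := fun y hy hy' => by
    obtain ⟨c, rfl⟩ := Submodule.mem_span_singleton.1 hy'
    simp [h1] at hy
  have h4 : e ∉ F ∙ z := fun h4 => by
    obtain ⟨c, rfl⟩ := Submodule.mem_span_singleton.1 h4
    simp [hz'] at h2
    simp [h2] at he0
  obtain ⟨e', he', h5, h6⟩ := hC.exists_partner he (s := {z}) (by simpa using h1) h4
  have h7 : h e' e ≠ 0 := fun e => by simp [hC.hrefl _ _ e] at h5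
  obtain ⟨c, hc⟩ := hC.hyp e (y + ((1 - h y e) / h e' e) • e') he (by simp [h7])
  convert Submodule.sub_mem _ (Submodule.sub_mem _
    (key _ hc (by simp [hy, h6 z rfl, h1]) (h3 _ (by simp [h7, hC.self he])))
    (Submodule.smul_mem _ ((1 - h y e) / h e' e) (key e' he' (h6 z rfl) (h3 _ h7))))
    (Submodule.smul_mem _ c (key e he h1 h4)) using 1
  ext x
  simp [add_sub_assoc, add_assoc]

theorem nondeg : (polarBilin Q).Nondegenerate := by
  convert tB_nondegenerate hC.fnd hC.hnd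
  exact LinearMap.ext₂ hC.pol

theorem apply_eq_zero (hn : InG X (1 + n)) {p : U ⊗[F] W} (h1 : ∀ q, tB f h p (n q) = 0)
    (h2 : ∀ q, tB f h (n p) (n q) = 0) : n p = 0 :=
  (tB_nondegenerate hC.fnd hC.hnd).1 _ fun q => by simpa [h1, h2] using hC.skew hn p q

theorem mul_mem {D D' : End F U} (hD' : D' ∈ Mp hC) (hD : D ∈ Mp hC) : D' * D ∈ Mp hC := by
  obtain ⟨z, hz0, hz, -⟩ := hC.ex 0 0
  obtain ⟨z', hz'⟩ := exists_apply_eq_one' hC.hnd hz0
  obtain ⟨e, he0, he, h1, h2⟩ := hC.ex z z'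
  have h4 : e ∉ F ∙ z := fun h4 => by
    obtain ⟨c, rfl⟩ := Submodule.mem_span_singleton.1 h4
    simp [hz'] at h2
    simp [h2] at he0
  obtain ⟨e₁, h5, h6⟩ := exists_orth_eq_one hC.hnd hC.hrefl h4
  have h7 : h e₁ e ≠ 0 := fun e => by simp [hC.hrefl _ _ e] at h5
  obtain ⟨v, a1, a2, a3⟩ := exists_orth_notMem h hC.five z e z e
  obtain ⟨y, a4, a5⟩ := exists_orth_eq_one hC.hnd hC.hrefl a3
  obtain ⟨n, hn, a6⟩ := hD' e he0 he v a2
  have a7 : ∀ x, n (x ⊗ₜ z) = 0 := fun x => by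
    have a8 : cR h U e (x ⊗ₜ z) = 0 := by simp [h1]
    refine hC.apply_eq_zero hn.mem (fun q => ?_) fun q => hC.tB_sR' (hC.perp hn q) (hn.into _ a8)
    simpa [hC.hrefl _ _ a1] using tB_sR (f := f) a8 (a6 q)
  convert hC.cR_mem hz hz0 (hC.xi_fix' (hD z hz0 hz ((h e₁ e)⁻¹ • e₁)
    (by simp [hC.hrefl _ _ (h6 z rfl)])) hn.mem a7) (a5 z (by simp)) using 1
  ext x
  obtain ⟨s, hs⟩ := mem_sR.1 (a6 (D x ⊗ₜ ((h e₁ e)⁻¹ • e₁)))
  simp only [End.mul_apply, LinearMap.comp_apply, tm_apply, eq_add_of_sub_eq hs]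
  simp [a4, a5 e, h7]

/-- If `Mp` is everything then `X` contains all Eichler transformations. -/
theorem eichGroup_le (hM : ∀ x y, ro f x y ∈ Mp hC) : eichGroup Q ≤ X.comap (oU Q) := by
  set M := X.comap (oU Q) with hMdef
  have hp : ∀ u z, Gd Q z → ∀ y, cR h U z y = 0 → polar Q (u ⊗ₜ z) y = 0 := fun u z hz y hy => by
    rw [hC.pol, hC.tB_sR' hy (tmul_mem_sR u z)]
  have step1 : ∀ u z, Gd Q z → z ≠ 0 → ∀ (x : U) v (β : End F W), h v z = 0 →
      InG X (β.lTensor U) → β z = z → H30.eich Q (u ⊗ₜ z) (x ⊗ₜ (β v - v)) ∈ M := by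
    intro u z hz hz0 x v β hv hβ hβz
    have hβv : h (β v) z = 0 := by rw [← hβz, hC.iso_right hβ, hv]
    obtain ⟨n, hn, h1⟩ := hM x u z hz0 hz v hv
    have hy := hp u z hz (x ⊗ₜ v) (by simp [hv])
    have hy' := hp u z hz (x ⊗ₜ (β v - v)) (by simp [hv, hβv])
    set k : End F (U ⊗[F] W) := β.lTensor U with hk
    set e : End F (U ⊗[F] W) := (H30.eich Q (u ⊗ₜ z) (x ⊗ₜ v)).1.toLinearMap with he
    have he' : ∀ p, e p = p + f (cR h U z p) u • x ⊗ₜ v - polar Q p (x ⊗ₜ v) • u ⊗ₜ z -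
        (Q (x ⊗ₜ v) * f (cR h U z p) u) • u ⊗ₜ z := fun p => by
      rw [← tB_cR, ← hC.pol]
      exact eich_apply (hz u) hy p
    have h2 : ∀ p, (1 + n - e) p ∈ sR F U z := fun p => by
      convert Submodule.add_mem _ (Submodule.add_mem _ (h1 p) (Submodule.smul_mem _
        (polar Q p (x ⊗ₜ v)) (tmul_mem_sR u z))) (Submodule.smul_mem _
        (Q (x ⊗ₜ v) * f (cR h U z p) u) (tmul_mem_sR u z)) using 1
      simp only [LinearMap.sub_apply, LinearMap.add_apply, End.one_apply, he', tm_apply, ro_apply,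
        ← smul_tmul']
      abel
    have h3 : ∀ p, cR h U z p = 0 → (1 + n - e) p = 0 := fun p hp' => by
      refine (tB_nondegenerate hC.fnd hC.hnd).1 _ fun q => ?_
      obtain ⟨q, rfl⟩ := (H30.eich Q (u ⊗ₜ z) (x ⊗ₜ v)).1.surjective q
      have a1 := hC.iso' hn.mem p q
      have a2 : tB f h (e p) (e q) = tB f h p q := by rw [← hC.pol, ← hC.pol]; exact O_polar _ p q
      have a3 := tB_sR (f := f) (h := h) (p := (1 + n) p) (by simp [hp', hC.perp hn]) (h2 q)
      simp only [LinearMap.sub_apply, map_sub] at a3 ⊢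
      change tB f h ((1 + n) p) (e q) - tB f h (e p) (e q) = 0
      linear_combination a1 - a2 - a3
    have h4 : ∀ x, k (x ⊗ₜ z) = x ⊗ₜ z := fun x => by simp [hk, hβz]
    have h5 : ∀ p, cR h U z (k p) = cR h U z p := hC.cR_fix hβ h4
    have h6 : k * (1 + n - e) = (1 + n - e) * k := LinearMap.ext fun p => by
      obtain ⟨s, hs⟩ := mem_sR.1 (h2 p)
      have := h3 (k p - p) (by simp [h5])
      rw [map_sub, sub_eq_zero] at this
      rw [End.mul_apply, End.mul_apply, this, hs, h4]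
    set e' : End F (U ⊗[F] W) := (H30.eich Q (u ⊗ₜ z) (x ⊗ₜ (β v - v))).1.toLinearMap with he'def
    have h7 : e' * (1 + n - e) = 1 + n - e := LinearMap.ext fun p => by
      obtain ⟨s, hs⟩ := mem_sR.1 (h2 p)
      rw [End.mul_apply, hs]
      exact eich_apply_of_orth (hp _ z hz _ (by simp [hC.self hz])) (hp _ z hz _ (by simp [hv, hβv]))
    have h8 : e' * e * k = k * e := LinearMap.ext fun p => by
      have a1 := congrArg (fun g : O Q => g.1 (k p)) (eich_mul (hz u) hy' hy)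
      rw [← tmul_add, sub_add_cancel] at a1
      refine a1.trans ?_
      rw [eich_apply (hz u) (hp u z hz _ (by simp [hβv])), End.mul_apply, he', hC.pol, tB_cR, h5,
        show x ⊗ₜ β v = k (x ⊗ₜ v) from rfl, hC.iso _ hβ, hC.pol, hC.iso' hβ, ← hC.pol]
      simp only [map_sub, map_add, map_smul, h4]
    refine InG.mem (inG_of_mul_eq (b := e') (hn.mem.mul hβ) (hβ.mul hn.mem) ?_) rfl
    rw [← sub_add_cancel (1 + n) e, add_mul, mul_add, mul_add, ← mul_assoc, ← mul_assoc, h7, h8, h6]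
  have step2 : ∀ u z, Gd Q z → z ≠ 0 → ∀ y, cR h U z y = 0 → H30.eich Q (u ⊗ₜ z) y ∈ M := by
    intro u z hz hz0 y hy
    obtain ⟨z', hz'⟩ := exists_apply_eq_one' hC.hnd hz0
    have key : ∀ e e', Gd Q e → h z e = 0 → h e' e ≠ 0 → h e' z = 0 → ∀ (x : U) v, h v z = 0 →
        h v e = 0 → x ⊗ₜ v ∈ eichAddSubgroup M (hz u) := fun e e' he h1 h2 h3 x v h4 h5 => by
      obtain ⟨ε, hε, h6⟩ := hC.eich' he (by rintro rfl; simp at h2)
      have h7 : ∀ v, h v z = 0 → h v e = 0 → ∃ c : F, x ⊗ₜ (v + c • e) ∈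
          eichAddSubgroup M (hz u) := fun v h4 h5 => by
        obtain ⟨β, a1, -, a3, a4⟩ := h6 v h5
        obtain ⟨c, hc⟩ := a3 ((h e' e)⁻¹ • e')
        have := step1 u z hz hz0 x ((h e' e)⁻¹ • e') β (by simp [h3]) a1
          (by simp [a4 z h1, hC.hrefl _ _ h4])
        rw [hc, add_assoc, add_sub_cancel_left] at this
        exact ⟨c, hp u z hz _ (by simp [h4, hC.hrefl _ _ h1]), by simpa [h2] using this⟩
      obtain ⟨c, hc⟩ := h7 v h4 h5
      obtain ⟨v₁, b1, b2, b3⟩ := exists_orth_notMem h hC.five z e z e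
      obtain ⟨v₂, b4, b5⟩ := exists_orth_eq_one hC.hnd hC.hrefl b3
      obtain ⟨β, a1, -, -, a4⟩ := h6 v₂ (hC.hrefl _ _ (b5 e (by simp)))
      have := step1 u z hz hz0 x ((c / ε) • v₁) β (by simp [b1]) a1 (by simp [a4 z h1, b5 z])
      rw [a4 _ (by simp [b2]), add_sub_cancel_left] at this
      have h8 : x ⊗ₜ (c • e) ∈ eichAddSubgroup M (hz u) := ⟨hp u z hz _ (by simp [hC.hrefl _ _ h1]),
        by simpa [b4, mul_div_cancel₀ _ hε] using this⟩
      simpa [tmul_add] using AddSubgroup.sub_mem _ hc h8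
    obtain ⟨e, he0, he, h1, h2⟩ := hC.ex z z'
    obtain ⟨e', he', h5, h6⟩ := hC.exists_partner he (s := {z}) (by simpa using h1) fun h4 => by
      obtain ⟨c, rfl⟩ := Submodule.mem_span_singleton.1 h4
      simp [hz'] at h2
      simp [h2] at he0
    have h7 : h e' e ≠ 0 := fun e => by simp [hC.hrefl _ _ e] at h5
    have h8 := hC.hrefl _ _ (h6 z rfl)
    refine (perp_induction hz' (eichAddSubgroup M (hz u)) (fun x v hv => ?_) hy).2
    simpa [tmul_sub] using AddSubgroup.add_mem _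
      (key e e' he h1 h7 h8 x (v - (h v e / h e' e) • e') (by simp [hv, h8]) (by simp [h7]))
      (key e' e he' (h6 z rfl) (by simp [h5]) (hC.hrefl _ _ h1) x ((h v e / h e' e) • e')
        (by simp [h8]) (by simp [hC.self he']))
  have step3 : ∀ u z, Gd Q z → z ≠ 0 → u ≠ 0 → FullAt M (u ⊗ₜ z) := by
    intro u z hz hz0 hu
    refine ⟨hz u, fun w hw => ?_⟩
    obtain ⟨z', hz'⟩ := exists_apply_eq_one' hC.hnd hz0
    obtain ⟨e, he0, he, h1, h2⟩ := hC.ex z z'
    obtain ⟨z₂, h5, h6⟩ := exists_orth_eq_one hC.hnd hC.hrefl (s := {z}) (x := e) fun h4 => by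
      obtain ⟨c, rfl⟩ := Submodule.mem_span_singleton.1 h4
      simp [hz'] at h2
      simp [h2] at he0
    obtain ⟨u', hu'⟩ := exists_apply_eq_one hC.fnd hu
    have h7 : f u (cR h U z w) = 0 := hC.frefl _ _ (by rwa [polar_comm, hC.pol, tB_cR] at hw)
    have h8 := hC.hrefl _ _ (h6 z rfl)
    have a1 : ∀ y, cR h U z y = 0 → y ∈ eichAddSubgroup M (hz u) := fun y hy =>
      ⟨hp u z hz y hy, step2 u z hz hz0 y hy⟩
    have a2 := step2 u e he he0 (cR h U z w ⊗ₜ z') (by simp [h2])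
    have a3 := hp u e he (cR h U z w ⊗ₜ z') (by simp [h2])
    have a4 : (H30.eich Q (u ⊗ₜ e) (cR h U z w ⊗ₜ z')).1 (u ⊗ₜ z) = u ⊗ₜ z :=
      eich_apply_of_orth (by simp [hC.pol, h1]) (by simp [hC.pol, h7])
    have a5 := eich_conj_mem a2 (a1 (u' ⊗ₜ z₂) (by simp [h8])).2
    have a6 : polar Q (u' ⊗ₜ z₂) (u ⊗ₜ e) = 1 := by simp [polar_comm Q (u' ⊗ₜ z₂), hC.pol, hu', h5]
    rw [a4, eich_apply (he u) a3, a6] at a5
    have a7 : _ ∈ eichAddSubgroup M (hz u) := ⟨by simp [hC.pol, h6 z, h7, h1], a5⟩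
    have a8 := fun c : F => a1 (c • u ⊗ₜ e) (by simp [hC.hrefl _ _ h1])
    rw [sub_eq_add_neg, sub_eq_add_neg, AddSubgroup.add_mem_cancel_right _ (neg_mem (a8 _)),
      AddSubgroup.add_mem_cancel_right _ (neg_mem (a8 _)),
      AddSubgroup.add_mem_cancel_left _ (a1 (u' ⊗ₜ z₂) (by simp [h8])), one_smul] at a7
    have a9 := AddSubgroup.add_mem _ a7 (a1 (w - cR h U z w ⊗ₜ z') (by simp [hz']))
    rw [add_sub_cancel] at a9
    exact a9.2
  obtain ⟨z, hz0, hz, -⟩ := hC.ex 0 0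
  obtain ⟨z', hz', h1, -⟩ := hC.exists_partner hz (s := ∅) (by simp) (by simpa using hz0)
  have := hC.nt
  obtain ⟨u, hu⟩ := exists_ne (0 : U)
  obtain ⟨u', hu'⟩ := exists_apply_eq_one hC.fnd hu
  exact (step3 u z hz hz0 hu).eichGroup_le hC.nondeg (step3 u' z' hz'
    (by rintro rfl; simp at h1) (by rintro rfl; simp at hu')) (by simp [hC.pol, hu', h1])

section Scalar

variable (hM : ∀ D ∈ Mp hC, ∃ c : F, D = c • 1)
include hM

theorem exists_tmul (hz : Gd Q z) (hz0 : z ≠ 0) (hξ : Xi h X z ξ) :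
    ∃ v, h v z = 0 ∧ ∀ x, ξ x - x ⊗ₜ v ∈ sR F U z := by
  obtain ⟨z', hz'⟩ := exists_apply_eq_one hC.hnd hz0
  obtain ⟨v, hv⟩ := exists_eq_tmul_of_cR hC.fnd hC.hnd (ξ - tm (cR h U z' ∘ₗ ξ) z) fun y => by
    obtain ⟨c, hc⟩ := hM _ (hC.cR_mem hz hz0 hξ (y := y - h z y • z') (by simp [hz']))
    exact ⟨c, fun x => by simpa using LinearMap.congr_fun hc x⟩
  have := hC.nt
  obtain ⟨u, hu⟩ := exists_ne (0 : U)
  refine ⟨v, ?_, fun x => by simpa [← hv] using tmul_mem_sR _ _⟩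
  simpa [hC.xi_perp hz hz0 hξ, hC.self hz, hu, eq_comm (a := (0 : U))] using
    congrArg (cR h U z) (hv u)

/-- The centre of the unipotent radical. -/
theorem eq_smul_ro (hz : Gd Q z) (hz0 : z ≠ 0) (hn : InG X (1 + n)) (hr : ∀ p, n p ∈ sR F U z) :
    ∃ c : F, n = c • (ro h z z).lTensor U := by
  obtain ⟨z', hz'⟩ := exists_apply_eq_one' hC.hnd hz0
  obtain ⟨z'', hz''⟩ := exists_apply_eq_one hC.hnd hz0
  let E : End F U := cR h U z'' ∘ₗ n ∘ₗ (TensorProduct.mk F U W).flip z'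
  have h1 : ∀ p, n p = E (cR h U z p) ⊗ₜ z := fun p => by
    have a1 : cR h U z (p - cR h U z p ⊗ₜ z') = 0 := by simp [hz']
    have := hC.apply_eq_zero hn (fun q => tB_sR a1 (hr q)) fun q => tB_sR (hC.cR_sR hz (hr _)) (hr q)
    rw [map_sub, sub_eq_zero] at this
    obtain ⟨s, hs⟩ := mem_sR.1 (hr (cR h U z p ⊗ₜ z'))
    simp [this, E, hs, hz'']
  obtain ⟨e, he0, he, a1, a2⟩ := hC.ex z z'
  have h4 : z ∉ F ∙ e := fun h4 => by
    obtain ⟨c, rfl⟩ := Submodule.mem_span_singleton.1 h4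
    simp [a2, hC.hrefl] at hz'
  obtain ⟨y, a3, a4⟩ := exists_orth_eq_one hC.hnd hC.hrefl h4
  obtain ⟨ε, hε, h5⟩ := hC.eich' he he0
  obtain ⟨β, b1, b2, -, b4⟩ := h5 y (hC.hrefl _ _ (a4 e rfl))
  obtain ⟨β', e1, -⟩ := hC.exists_inv b1
  have h6 : β z = z + ε • e := by simp [b4 z a1, a3]
  have h7' : ∀ w, h (β' w) z = h w (z + ε • e) := fun w => by
    rw [← hC.iso_right b1, ← End.mul_apply, e1, End.one_apply, h6]
  have h7 : ∀ p, cR h U z (β'.lTensor U p) = cR h U z p + ε • cR h U e p := fun p => by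
    rw [cR_lTensor h7']
    simp
  have h8 := inG_conj b1 (g' := β'.lTensor U)
    (by rw [← LinearMap.lTensor_mul, e1, End.one_eq_id, LinearMap.lTensor_id, End.one_eq_id]) hn
  have h9 : InG X (1 - n) := inG_inv hn (LinearMap.ext fun p => by simp [h1, hC.self hz])
  have h10 : Xi h X e (tm (ε • E) z) := xi_mk (n := (1 + β.lTensor U * n * β'.lTensor U) * (1 - n) - 1)
    (by simpa using h8.mul h9) (fun x => by simp [h1, h7', hC.hrefl _ _ a1, hC.self he]) fun p => by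
      convert tmul_mem_sR (ε • E (cR h U z p + ε • cR h U e p)) e using 1
      simp only [LinearMap.sub_apply, End.mul_apply, LinearMap.add_apply, End.one_apply, h1, h7,
        map_sub, cR_tmul, hC.self hz, a1, zero_smul, LinearMap.lTensor_tmul, h6, tm_apply, map_add,
        map_smul, LinearMap.smul_apply, tmul_add, add_tmul, ← smul_tmul', tmul_smul, h7',
        smul_zero, add_zero, map_zero, zero_tmul]
      module
  obtain ⟨c, hc⟩ := hM _ (hC.cR_mem he he0 h10 (a4 e rfl))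
  refine ⟨ε⁻¹ * c, LinearMap.ext fun p => ?_⟩
  have := LinearMap.congr_fun hc (cR h U z p)
  simp only [LinearMap.comp_apply, tm_apply, cR_tmul, a3, one_smul, LinearMap.smul_apply,
    End.one_apply] at this
  rw [h1, LinearMap.smul_apply, lTensor_ro, smul_tmul', mul_smul, ← this, inv_smul_smul₀ hε]

/-- The unipotent radical of the stabiliser of `U ⊗ z` lies in `1 ⊗ End W`. -/
theorem exists_eq_lTensor (hz : Gd Q z) (hz0 : z ≠ 0) (hn : QR h X z n) :
    ∃ γ : End F W, n = γ.lTensor U := by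
  obtain ⟨z', hz'⟩ := exists_apply_eq_one' hC.hnd hz0
  obtain ⟨v, hv, h1⟩ := hC.exists_tmul hM hz hz0 (hn.xi hz')
  obtain ⟨β, b1, -, b3⟩ := hC.eich z v hz hv
  obtain ⟨k, hk, e1, e2⟩ := inG_exists_inv b1
  have h2 : ∀ p, β.lTensor U p - p - cR h U z p ⊗ₜ v ∈ sR F U z := fun p => by
    induction p using TensorProduct.induction_on with
    | zero => simp
    | add a b ha hb =>
      convert Submodule.add_mem _ ha hb using 1
      simp only [map_add, add_tmul]
      abel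
    | tmul x w =>
      obtain ⟨c, hc⟩ := b3 w
      convert tmul_mem_sR (c • x) z using 1
      simp [hc, tmul_add, smul_tmul, add_sub_assoc, add_assoc]
  obtain ⟨c, hc⟩ := hC.eq_smul_ro hM hz hz0 (n := (1 + n) * k - 1) (by simpa using hn.mem.mul hk)
    fun p => by
      have a1 := hn.into (k p - cR h U z (k p) ⊗ₜ z') (by simp [hz'])
      convert Submodule.sub_mem _ (Submodule.add_mem _ a1 (h1 (cR h U z (k p)))) (h2 (k p)) using 1
      simp only [LinearMap.sub_apply, End.mul_apply, LinearMap.add_apply, End.one_apply, map_sub,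
        LinearMap.comp_apply, LinearMap.flip_apply, mk_apply, ← End.mul_apply (β.lTensor U) k, e1]
      abel
  refine ⟨(1 + c • ro h z z) * β - 1, ?_⟩
  rw [LinearMap.lTensor_sub, LinearMap.lTensor_mul, LinearMap.lTensor_add, LinearMap.lTensor_smul,
    ← hc, End.one_eq_id (M := W), LinearMap.lTensor_id, ← End.one_eq_id, add_sub_cancel, mul_assoc,
    e2, mul_one, add_sub_cancel_left]

/-- Elements fixing `U ⊗ z` pointwise normalise `α ⊗ 1` modulo `1 ⊗ End W`. -/
theorem exists_conj_eq (hz : Gd Q z) (hz0 : z ≠ 0) (hg : InG X g)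
    (hfix : ∀ x, g (x ⊗ₜ z) = x ⊗ₜ z) {α : End F U} (hα : InG X (α.rTensor W)) :
    ∃ β : End F W, g * α.rTensor W = TensorProduct.map α β * g := by
  obtain ⟨z', hz'⟩ := exists_apply_eq_one' hC.hnd hz0
  obtain ⟨g', hg', e1, e2⟩ := inG_exists_inv hg
  obtain ⟨r', hr', e3, e4⟩ := inG_exists_inv hα
  set r : End F (U ⊗[F] W) := α.rTensor W with hr
  have h1 : ∀ x, g' (x ⊗ₜ z) = x ⊗ₜ z := fun x => by
    rw [← hfix, ← End.mul_apply, e2, End.one_apply, hfix]
  have h2 : Function.Injective α := fun x y e => tmul_right_inj hC.hnd hz0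
    ((Function.LeftInverse.injective (g := r') (LinearMap.congr_fun e4)) (by simp [hr, e]))
  have h3 : ∀ q, cR h U z q = 0 → (g * r - r * g) q ∈ sR F U z := fun q hq =>
    perp_induction hz' ((sR F U z).comap (g * r - r * g)).toAddSubgroup (fun x v hv => by
      obtain ⟨v', -, h4⟩ := hC.exists_tmul hM hz hz0 (hC.xi_fix (hC.xi_one hz hv) hg hfix)
      obtain ⟨s, hs⟩ := mem_sR.1 (h4 x)
      have := congrArg r hs
      convert Submodule.sub_mem _ (h4 (α x)) (tmul_mem_sR (α s) z) using 1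
      simp only [map_sub, hr, LinearMap.rTensor_tmul] at this
      simp [← this, hr]) hq
  obtain ⟨γ, hγ⟩ := hC.exists_eq_lTensor hM hz hz0 (n := g * r * g' * r' - 1)
    ⟨by simpa using ((hg.mul hα).mul hg').mul hr', fun x => by
      obtain ⟨y, rfl⟩ := (LinearMap.injective_iff_surjective.1 h2) x
      have : r' (α y ⊗ₜ z) = y ⊗ₜ z := LinearMap.congr_fun e4 (y ⊗ₜ z)
      simp [this, h1, hr, hfix], fun p hp => by
      have := h3 (g' (r' p)) (h2 (by
        rw [hC.cR_fix hg' h1, ← cR_rTensor, ← hr, ← End.mul_apply, e3, End.one_apply, hp, map_zero]))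
      rwa [LinearMap.sub_apply, End.mul_apply r g, ← End.mul_apply g g', e1, End.one_apply,
        ← End.mul_apply r r', e3] at this⟩
  refine ⟨1 + γ, ?_⟩
  rw [← LinearMap.lTensor_comp_rTensor, ← End.mul_eq_comp, LinearMap.lTensor_add, ← hγ,
    End.one_eq_id (M := W), LinearMap.lTensor_id, ← End.one_eq_id, add_sub_cancel, ← hr,
    mul_assoc _ r', e4, mul_one, mul_assoc, e2, mul_one]

end Scalar

end TC

/-- An invertible endomorphism normalising `1 ⊗ End W` is a tensor product. -/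
theorem exists_eq_map_of_lTensor [FiniteDimensional F U] [FiniteDimensional F W] [Nontrivial U]
    [Nontrivial W] (hh : h.Nondegenerate) (e1 : g * g' = 1) (e2 : g' * g = 1)
    (hg : ∀ w w', ∃ γ' : End F W, g * (ro h w w').lTensor U = γ'.lTensor U * g) :
    ∃ (α : End F U) (β : End F W), g = TensorProduct.map α β := by
  obtain ⟨w₀, hw₀⟩ := exists_ne (0 : W)
  obtain ⟨w₁, hw₁⟩ := exists_apply_eq_one hh hw₀
  choose φ hφ using hg
  have h1 : ∀ x w, g (x ⊗ₜ w) = (φ w w₁).lTensor U (g (x ⊗ₜ w₀)) := fun x w => by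
    simpa [hw₁] using LinearMap.congr_fun (hφ w w₁) (x ⊗ₜ w₀)
  have h2 : finrank F (LinearMap.range (φ w₀ w₁)) = 1 := by
    have a1 := finrank_range_lTensor (U := U) (φ w₀ w₁)
    have a2 := finrank_range_lTensor (U := U) (ro h w₀ w₁)
    have a3 : LinearMap.range (ro h w₀ w₁) = F ∙ w₀ := LinearMap.range_smulRight_apply
      (fun e => by simpa [hw₁] using LinearMap.congr_fun e w₀) w₀
    rw [a3, finrank_span_singleton hw₀] at a2
    rw [← LinearMap.range_comp_of_range_eq_top _ (LinearMap.range_eq_top.2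
      (Function.RightInverse.surjective (g := g') (LinearMap.congr_fun e1))), ← End.mul_eq_comp,
      ← hφ, End.mul_eq_comp, LinearMap.range_comp, ← (Submodule.equivMapOfInjective g
      (Function.LeftInverse.injective (g := g') (LinearMap.congr_fun e2)) _).finrank_eq, a2] at a1
    exact (Nat.eq_of_mul_eq_mul_left finrank_pos a1).symm
  obtain ⟨⟨v, hv⟩, hv0, h3⟩ := finrank_eq_one_iff'.1 h2
  obtain ⟨v', hv'⟩ := exists_apply_eq_one hh (u := v) fun e => hv0 (Subtype.ext e)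
  have h4 : ∀ p, (φ w₀ w₁).lTensor U p = cR h U v' ((φ w₀ w₁).lTensor U p) ⊗ₜ v := by
    intro p
    induction p using TensorProduct.induction_on with
    | zero => simp
    | add a b ha hb => rw [map_add, map_add, add_tmul, ← ha, ← hb]
    | tmul x w =>
      obtain ⟨c, hc⟩ := h3 ⟨_, LinearMap.mem_range_self _ w⟩
      simp [← show c • v = φ w₀ w₁ w from congrArg Subtype.val hc, hv', smul_tmul]
  let α : End F U := cR h U v' ∘ₗ g ∘ₗ (TensorProduct.mk F U W).flip w₀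
  have h5 : ∀ x, g (x ⊗ₜ w₀) = α x ⊗ₜ v := fun x => by
    rw [h1, h4, ← h1]
    rfl
  obtain ⟨u, hu⟩ := exists_ne (0 : U)
  obtain ⟨l, hl⟩ := Module.Projective.exists_dual_eq_one F (x := α u) fun e =>
    (Function.LeftInverse.injective (g := g') (LinearMap.congr_fun e2)).ne
      (show u ⊗ₜ[F] w₀ ≠ 0 from fun e => hu (tmul_right_inj hh hw₀ (by rw [e, zero_tmul])))
      (by rw [h5, e, zero_tmul, map_zero])
  refine ⟨α, (TensorProduct.lid F W).toLinearMap ∘ₗ l.rTensor W ∘ₗ g ∘ₗ TensorProduct.mk F U W u,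
    TensorProduct.ext' fun x w => ?_⟩
  simp [h1 _ w, h5, hl]

end Cfsg.Agent.H79
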