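import Mathlib
import Cfsg.Agent.H79.TenCore
import Cfsg.Agent.H30.OrthNonMax

/-! Maximality of `Sp(U) ⊗ Sp(W)` in `Ω⁺(U ⊗ W)`. -/

set_option autoImplicit false

namespace Cfsg.Agent.H79

open Module TensorProduct QuadraticMap H30 H36 H27

theorem eq_smul_of_conj {F A : Type*} [Field F] [Ring A] [Algebra F A] {n a : A} {c : F}
    (hn : n * n = 0) (ha : a ≠ 0) (h : (1 + n) * a * (1 - n) = c • a) : c = 1 := by
  have h1 : n * a - a * n - n * a * n = (c - 1) • a := by
    rw [sub_smul, ← h, one_smul]; noncomm_ring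
  have h2 : (c - 1) • (n * a * n) = 0 := by
    rw [← smul_mul_assoc, ← mul_smul_comm, ← h1]
    linear_combination (norm := noncomm_ring) hn * a * n - n * a * hn - hn * a * n * n
  have h3 : (c - 1) • (n * a - a * n) = -(2 : F) • (n * a * n) := by
    rw [smul_sub, ← mul_smul_comm _ n, ← smul_mul_assoc _ a, ← h1, neg_smul, two_smul]
    linear_combination (norm := noncomm_ring) hn * a - hn * a * n + a * hn + n * a * hn
  have h4 : ((c - 1) * ((c - 1) * (c - 1))) • a = 0 := by
    rw [mul_smul, mul_smul, ← h1, smul_sub _ (n * a - a * n), h2, h3, sub_zero, smul_comm, h2,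
      smul_zero]
  simpa [ha, sub_eq_zero] using h4

section Eich

variable {F V : Type*} [Field F] [AddCommGroup V] [Module F V] [FiniteDimensional F V]
  {Q : QuadraticForm F V}

/-- An isometry with totally singular commutator space is a product of Siegel transformations. -/
theorem mem_eichGroup_of_singular (hQ : (polarBilin Q).Nondegenerate) (g : O Q)
    (hg : ∀ p, Q (g.1 p - p) = 0) : g ∈ eichGroup Q := by
  induction hk : finrank F (movSp g) using Nat.strong_induction_on generalizing g with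
  | _ k ih =>
  by_cases h0 : ∀ p, g.1 p = p
  · rw [show g = 1 from O_ext h0]
    exact one_mem _
  push Not at h0
  obtain ⟨y, hy⟩ := h0
  obtain ⟨x, hx⟩ := exists_polar_eq_one hQ (sub_ne_zero.2 hy)
  have h1 : ∀ p q, polar Q (g.1 p - p) (g.1 q - q) = 0 := fun p q => by
    rw [polar, hg, hg, show g.1 p - p + (g.1 q - q) = g.1 (p + q) - (p + q) by
      rw [map_add]; abel, hg]; ring
  have h2 : ∀ p q, polar Q (g.1 p - p) q = -polar Q p (g.1 q - q) := fun p q => by
    have := h1 p q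
    simp only [polar_sub_left, polar_sub_right, O_polar] at this ⊢
    linear_combination -this
  have h3 : ∀ p, polar Q p (g.1 p - p) = 0 := fun p => by
    have := hg p
    rw [Q_sub, O_map] at this
    rw [polar_sub_right, polar_self', polar_comm]
    linear_combination -this
  set e := eich Q (g.1 x - x) (g.1 y - y) with he
  have h4 : ∀ p, (e * g).1 p - p = g.1 p - p + polar Q p (g.1 x - x) • (g.1 y - y) -
      polar Q p (g.1 y - y) • (g.1 x - x) := fun p => by
    have a : ∀ q, polar Q (g.1 p) (g.1 q - q) = polar Q p (g.1 q - q) := fun q => by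
      rw [← sub_eq_zero, ← polar_sub_left, h1]
    rw [O_mul_apply, he, eich_apply (hg x) (h1 x y), a, a, hg]
    module
  have h5 : movSp (e * g) < movSp g := by
    refine lt_of_le_of_ne (fun _ hp => ?_) fun h => ?_
    · obtain ⟨p, rfl⟩ := mem_movSp.1 hp
      rw [h4]
      exact Submodule.sub_mem _ (Submodule.add_mem _ (mem_movSp.2 ⟨_, rfl⟩)
        (Submodule.smul_mem _ _ (mem_movSp.2 ⟨_, rfl⟩))) (Submodule.smul_mem _ _ (mem_movSp.2 ⟨_, rfl⟩))
    · obtain ⟨p, hp⟩ := mem_movSp.1 (h ▸ (mem_movSp.2 ⟨y, rfl⟩ : _ ∈ movSp g) : _ ∈ movSp (e * g))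
      have := congrArg (polar Q · x) hp
      simp only [h4, polar_sub_left _ _ (_ • _), polar_add_left, polar_smul_left', hx, h2 p,
        polar_comm Q (g.1 x - x) x, h3] at this
      simp at this
  have h6 := ih _ (hk ▸ Submodule.finrank_lt_finrank_of_lt h5) (e * g) (fun p => by
    obtain ⟨q, hq⟩ := mem_movSp.1 (h5.le (mem_movSp.2 ⟨p, rfl⟩))
    rw [← hq, hg]) rfl
  exact (Subgroup.mul_mem_cancel_left _ (eich_mem_eichGroup _ _)).1 h6

end Eich

variable {F U W : Type*} [Field F] [AddCommGroup U] [Module F U] [AddCommGroup W] [Module F W]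
  {f : LinearMap.BilinForm F U} {h : LinearMap.BilinForm F W}

theorem exists_notMem_of_ne_smul [FiniteDimensional F U] {D : End F U} (hD : ∀ c : F, D ≠ c • 1) :
    ∃ u, u ≠ 0 ∧ D u ∉ F ∙ u := by
  by_contra! H
  obtain ⟨c, hc⟩ := D.exists_eq_smul_id_of_forall_notLinearIndependent fun v => by
    by_cases hv : v = 0
    · simp [hv, linearIndependent_fin2]
    · simpa [LinearIndependent.pair_iff' hv, Submodule.mem_span_singleton] using H v hv
  exact hD c hc

/-- A non-scalar `Sp(U)`-invariant subalgebra of `End U` is everything. -/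
theorem ro_mem_of_sp_invariant [FiniteDimensional F U] (hf : f.Nondegenerate) (hA : f.IsAlt)
    (hq : 3 ≤ finrank F U ∨ ∃ c : F, c ≠ 0 ∧ c ≠ 1) (C : Submodule F (End F U))
    (hmul : ∀ a ∈ C, ∀ b ∈ C, a * b ∈ C)
    (hconj : ∀ σ ∈ isomGroup f, ∀ D ∈ C, σ.toLinearMap * D * σ.symm.toLinearMap ∈ C)
    {D : End F U} (hD : D ∈ C) (hD' : ∀ c : F, D ≠ c • 1) (x y : U) : ro f x y ∈ C := by
  obtain ⟨u, hu, hDu⟩ := exists_notMem_of_ne_smul hD'
  have hro : ∀ σ ∈ isomGroup f, ∀ a b, σ.toLinearMap * ro f a b * σ.symm.toLinearMap =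
      ro f (σ a) (σ b) := fun σ hσ a b => LinearMap.ext fun v => by simp [← hσ (σ.symm v)]
  have ht : ∀ s (c : F), ∀ E ∈ C, (1 + c • ro f s s) * E * (1 - c • ro f s s) - E ∈ C :=
    fun s c E hE => C.sub_mem (by
      convert hconj _ (altTv_mem_isomGroup hA s c) E hE using 2 <;>
      · ext v
        simp [altTv, altTvMap_apply, mul_smul, sub_eq_add_neg]) hE
  suffices ro f u u ∈ C from ro_mem_of_mul hf C hmul (fun v => by
    by_cases hv : v = 0
    · convert C.zero_mem
      ext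
      simp [hv]
    obtain ⟨σ, hσ, rfl⟩ := exists_isom_apply_eq hf hA hu hv
    exact hro σ hσ u u ▸ hconj σ hσ _ this) x y
  by_cases h3 : 3 ≤ finrank F U
  · obtain ⟨y, h1, h2, h4⟩ : ∃ y, f u y = 0 ∧ y ∉ F ∙ u ∧ f (D u + f (D u) u • u) y ≠ 0 := by
      obtain ⟨y₀, a1, a2⟩ := exists_orth_eq_one hf hA.isRefl (x := D u + f (D u) u • u) (s := {u})
        fun h => hDu (by simpa using Submodule.sub_mem _ h (Submodule.smul_mem _ (f (D u) u)
          (Submodule.mem_span_singleton_self u)))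
      obtain ⟨y₁, a3, a4⟩ := exists_orth_not_mem f h3 u
      by_cases a5 : y₀ ∈ F ∙ u
      · by_cases a6 : f (D u + f (D u) u • u) y₁ = 0
        · exact ⟨y₁ + y₀, by simp [a2 u, a3], fun h => a4 (by simpa using Submodule.sub_mem _ h a5),
            by rw [map_add, a1, a6]; simp⟩
        · exact ⟨y₁, a3, a4, a6⟩
      · exact ⟨y₀, a2 u rfl, a5, by rw [a1]; simp⟩
    have h5 : -f (D y) u • ro f u y + -f (D u + f (D u) u • u) y • ro f y u ∈ C := by
      convert ht y 1 _ (ht u 1 D hD) using 1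
      ext v
      simp only [LinearMap.add_apply, LinearMap.smul_apply, ro_apply, LinearMap.sub_apply, one_smul,
        End.mul_apply, End.one_apply, map_sub, map_add, map_smul, h1, hA.isRefl _ _ h1, smul_eq_mul]
      module
    obtain ⟨y', h6, h7⟩ := exists_orth_eq_one hf hA.isRefl h2
    have h8 := h7 u rfl
    obtain ⟨σ, -, hσ, h9⟩ := witt_family hf hA ⊤ (fun _ _ => Subgroup.mem_top _) (x := ![u, y])
      (y := ![y', u]) ((LinearIndependent.pair_iff' hu).2 fun a e => h2 (e ▸ Submodule.smul_mem _ _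
        (Submodule.mem_span_singleton_self u))) (LinearIndependent.pair_symm_iff.1
        ((LinearIndependent.pair_iff' hu).2 fun a e => by simp [← e, hA.isRefl _ _ h1] at h6))
      (by simp [Fin.forall_fin_two, hA.self_eq_zero, h1, h8, hA.isRefl _ _ h1, hA.isRefl _ _ h8])
    have h10 := hconj σ hσ _ h5
    rw [mul_add, add_mul, mul_smul_comm, mul_smul_comm, smul_mul_assoc, smul_mul_assoc, hro σ hσ,
      hro σ hσ, show σ u = y' from h9 0, show σ y = u from h9 1] at h10
    generalize f (D u + f (D u) u • u) y = b at h4 h5 h10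
    convert C.smul_mem (b * b)⁻¹ (hmul _ h10 _ h5) using 1
    ext v
    simp only [LinearMap.add_apply, LinearMap.smul_apply, ro_apply, End.mul_apply, map_add,
      map_smul, hA.isRefl _ _ h1, h6, h8, hA.self_eq_zero]
    match_scalars <;> field_simp <;> ring
  · obtain ⟨c, hc0, hc1⟩ := hq.resolve_left h3
    have h4 : f (D u) u ≠ 0 := fun h4 => by
      obtain ⟨y, hy⟩ := exists_apply_eq_one' hf hu
      have h5 : LinearIndependent F ![y, u, D u] := by
        rw [Fintype.linearIndependent_iff]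
        intro g hg
        simp only [Fin.sum_univ_three, Matrix.cons_val] at hg
        have h6 : g 0 = 0 := by simpa [hy, h4, hA.self_eq_zero] using congrArg (f · u) hg
        rw [h6, zero_smul, zero_add] at hg
        have := LinearIndependent.pair_iff.1 ((LinearIndependent.pair_iff' hu).2 fun a e =>
          hDu (Submodule.mem_span_singleton.2 ⟨a, e⟩)) _ _ hg
        intro i
        fin_cases i
        exacts [h6, this.1, this.2]
      exact h3 (by simpa using h5.fintype_card_le_finrank)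
    have h5 : c - c * c ≠ 0 := by
      rw [← mul_one_sub]
      exact mul_ne_zero hc0 (sub_ne_zero.2 hc1.symm)
    convert C.smul_mem ((c - c * c) * f (D u) u)⁻¹
      (C.sub_mem (ht u c D hD) (C.smul_mem c (ht u 1 D hD))) using 1
    ext v
    simp only [LinearMap.add_apply, LinearMap.smul_apply, ro_apply, LinearMap.sub_apply, one_smul,
      End.mul_apply, End.one_apply, map_sub, map_smul, smul_eq_mul]
    match_scalars <;> field_simp <;> ring

/-- A group of isometries of `U ⊗ W` containing `Sp(U) ⊗ Sp(W)`. -/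
structure TSp (f : LinearMap.BilinForm F U) (h : LinearMap.BilinForm F W)
    (Q : QuadraticForm F (U ⊗[F] W)) (X : Subgroup (End F (U ⊗[F] W))ˣ) : Prop where
  fnd : f.Nondegenerate
  hnd : h.Nondegenerate
  falt : f.IsAlt
  halt : h.IsAlt
  nt : Nontrivial U
  five : 5 ≤ finrank F W
  lt : finrank F U + 1 < finrank F W
  big : 3 ≤ finrank F U ∨ ∃ c : F, c ≠ 0 ∧ c ≠ 1
  pol : ∀ p q, polar Q p q = tB f h p q
  pure : ∀ z, Gd Q z
  iso : ∀ g, InG X g → ∀ p, Q (g p) = Q p
  left : ∀ α : End F U, (∀ x y, f (α x) (α y) = f x y) → InG X (α.rTensor W)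
  right : ∀ β : End F W, (∀ x y, h (β x) (β y) = h x y) → InG X (β.lTensor U)

variable {Q : QuadraticForm F (U ⊗[F] W)} {X : Subgroup (End F (U ⊗[F] W))ˣ}
  [FiniteDimensional F U] [FiniteDimensional F W]

namespace TSp

variable (hS : TSp f h Q X)
include hS

omit [FiniteDimensional F U] in
theorem tc : TC f h Q X where
  fnd := hS.fnd
  hnd := hS.hnd
  frefl := hS.falt.isRefl
  hrefl := hS.halt.isRefl
  nt := hS.nt
  five := hS.five
  pol := hS.pol
  iso := hS.iso
  eich z v _ hv := ⟨1 + ro h v z + ro h z v, hS.right _ fun x y => by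
      simp only [LinearMap.add_apply, End.one_apply, ro_apply, map_add, map_smul,
        LinearMap.smul_apply, smul_eq_mul, hv, hS.halt.isRefl _ _ hv, hS.halt.self_eq_zero,
        ← hS.halt.neg_eq y v, ← hS.halt.neg_eq y z]
      ring, by simp [hS.halt.isRefl _ _ hv, hS.halt.self_eq_zero], fun w => ⟨h w v, rfl⟩⟩
  ex z z' := by
    obtain ⟨e, h1, h2, h3⟩ := exists_orth_notMem h hS.five z z' 0 0
    exact ⟨e, fun e => h3 (by simp [e]), hS.pure e, hS.halt.isRefl _ _ h1,
      hS.halt.isRefl _ _ h2⟩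
  hyp _ _ _ _ := ⟨0, hS.pure _⟩
  trans z z' hz hz' _ _ := by
    obtain ⟨σ, hσ, h1⟩ := exists_isom_apply_eq hS.hnd hS.halt hz hz'
    exact ⟨σ.toLinearMap, 1, one_ne_zero, hS.right _ hσ, by simpa using h1⟩

theorem scalar (hX : ¬ eichGroup Q ≤ X.comap (oU Q)) : ∀ D ∈ Mp hS.tc, ∃ c : F, D = c • 1 := by
  by_contra! H
  obtain ⟨D, hD, hD'⟩ := H
  exact hX (hS.tc.eichGroup_le (ro_mem_of_sp_invariant hS.fnd hS.falt hS.big _
    (fun _ ha _ hb => hS.tc.mul_mem ha hb) (fun σ hσ _ hE => hS.tc.conj_mem hE (hS.left _ hσ)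
      (LinearMap.ext σ.apply_symm_apply)) hD hD'))

omit [FiniteDimensional F U] [FiniteDimensional F W] in
theorem tv_left (u : U) (c : F) : InG X ((1 + c • ro f u u).rTensor W) := hS.left _ fun x y => by
  simp only [LinearMap.add_apply, End.one_apply, LinearMap.smul_apply, ro_apply, map_add,
    map_smul, hS.falt.self_eq_zero, smul_eq_mul, ← hS.falt.neg_eq y u]
  ring

omit [FiniteDimensional F U] [FiniteDimensional F W] in
theorem tv_right (w : W) : InG X (1 + (ro h w w).lTensor U) := by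
  have := hS.right (1 + ro h w w) fun x y => by
    simp only [LinearMap.add_apply, End.one_apply, ro_apply, map_add, LinearMap.smul_apply,
      map_smul, hS.halt.self_eq_zero, smul_eq_mul, ← hS.halt.neg_eq y w]
    ring
  rwa [LinearMap.lTensor_add, End.one_eq_id, LinearMap.lTensor_id] at this

variable (hX : ¬ eichGroup Q ≤ X.comap (oU Q)) {g g' : End F (U ⊗[F] W)} {w : W}
include hX

/-- The pointwise stabiliser of `U ⊗ w` lies in `1 ⊗ End W`. -/
theorem exists_eq_lTensor (hw : w ≠ 0) (hg : InG X g) (hfix : ∀ x, g (x ⊗ₜ w) = x ⊗ₜ w) :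
    ∃ β : End F W, g = β.lTensor U := by
  obtain ⟨g', -, e1, -⟩ := inG_exists_inv hg
  refine H27.exists_eq_lTensor hS.fnd g fun u => ?_
  have key : ∀ (u : U) (c : F), ∃ β : End F W, ∀ x v, c • g ((ro f u u).rTensor W (g' (x ⊗ₜ v))) =
      x ⊗ₜ (β v - v) + (c * f x u) • u ⊗ₜ β v := fun u c => by
    obtain ⟨β, hβ⟩ := hS.tc.exists_conj_eq (hS.scalar hX) (hS.pure w) hw hg hfix (hS.tv_left u c)
    refine ⟨β, fun x v => ?_⟩
    have := LinearMap.congr_fun hβ (g' (x ⊗ₜ v))
    simp only [End.mul_apply, LinearMap.rTensor_add, LinearMap.rTensor_smul, End.one_eq_id,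
      LinearMap.rTensor_id, LinearMap.add_apply, LinearMap.id_apply, map_add, ← End.mul_apply g g',
      e1, map_tmul, add_tmul, LinearMap.smul_apply, map_smul, ro_apply, ← smul_tmul'] at this
    rw [eq_sub_of_add_eq' this, tmul_sub, mul_smul]
    abel
  by_cases hu : u = 0
  · simp [hu, show ro f 0 0 = 0 from LinearMap.ext fun x => by simp]
  obtain ⟨β, hβ⟩ := key u 1
  have h1 : ∀ v, β v = v := by
    obtain ⟨g'', -, -, e2⟩ := inG_exists_inv hg
    obtain rfl : g'' = g' := left_inv_eq_right_inv e2 e1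
    rcases hS.big with h3 | ⟨c, hc0, hc1⟩
    · obtain ⟨y, h1, h2⟩ := exists_orth_not_mem f h3 u
      obtain ⟨β', hβ'⟩ := key y 1
      obtain ⟨y', h4, h5⟩ := exists_orth_eq_one hS.fnd hS.falt.isRefl h2
      have e2' : ∀ p, g'' (g p) = p := LinearMap.congr_fun e2
      have h6 : ∀ a b, f b a = 0 → ∀ p, g ((ro f a a).rTensor W (g'' (g ((ro f b b).rTensor W p)))) = 0 :=
        fun a b hab p => by simp [e2', rTensor_ro, hab]
      simp only [one_smul, one_mul] at hβ hβ'
      have hy : y ≠ 0 := by rintro rfl; simp at h4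
      have h7 : ∀ v, β' (β' v - v) = β' v - v := fun v => sub_eq_zero.1 (tmul_left_inj hS.fnd hy (by
        simpa [hβ', hS.falt.self_eq_zero, -map_sub] using h6 y y (hS.falt.self_eq_zero y) (g'' (y ⊗ₜ v))))
      intro v
      have := congrArg (cL f W y') (h6 u y (hS.falt.isRefl _ _ h1) (g'' (y' ⊗ₜ (v - (β' v - v)))))
      rw [hβ', map_sub β', h7, sub_sub_cancel] at this
      simpa [hβ, hS.falt.self_eq_zero, hS.falt.isRefl _ _ h1, hS.falt.isRefl _ _ (h5 u rfl), h4,
        ← hS.falt.neg_eq y y', sub_eq_zero, -map_sub, eq_comm (a := v)] using this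
    · obtain ⟨β', hβ'⟩ := key u c
      obtain ⟨y, hy⟩ := exists_apply_eq_one hS.fnd hu
      have h1 : ∀ v, β' v - v = c • (β v - v) := fun v => tmul_left_inj hS.fnd hu (by
        have a1 := hβ u v
        have a2 := hβ' u v
        rw [one_smul] at a1
        simpa [a1, hS.falt.self_eq_zero, eq_comm] using a2)
      intro v
      have a1 := hβ y v
      have a2 := hβ' y v
      rw [one_smul] at a1
      have a3 := congrArg (cL f W y) a2
      simp only [a1, map_smul, map_add, cL_tmul, hS.falt.self_eq_zero, zero_smul, hy,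
        ← hS.falt.neg_eq u y, one_smul, zero_add, eq_add_of_sub_eq (h1 v)] at a3
      have a4 : (c * (c - 1)) • (β v - v) = 0 := by linear_combination (norm := module) a3
      simpa [hc0, sub_eq_zero, hc1] using a4
  have h2 : g * (ro f u u).rTensor W * g' = (ro f u u).rTensor W :=
    TensorProduct.ext' fun x v => by simpa [h1, smul_tmul'] using hβ x v
  obtain ⟨g'', -, -, e2⟩ := inG_exists_inv hg
  obtain rfl : g'' = g' := left_inv_eq_right_inv e2 e1
  rw [← h2, mul_assoc _ g'', e2, mul_one, h2]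

/-- A quadratic element of small rank normalising `U ⊗ w` centralises it. -/
theorem apply_eq_zero (hw : w ≠ 0) {n : End F (U ⊗[F] W)} (hn : InG X (1 + n)) (hnn : n * n = 0)
    (hr : finrank F (LinearMap.range n) < finrank F W) (h1 : ∀ x, n (x ⊗ₜ w) ∈ sR F U w) (x : U) :
    n (x ⊗ₜ w) = 0 := by
  obtain ⟨w', hw'⟩ := exists_apply_eq_one hS.hnd hw
  obtain ⟨w'', hw''⟩ := exists_apply_eq_one' hS.hnd hw
  let ν : End F U := cR h U w' ∘ₗ n ∘ₗ (TensorProduct.mk F U W).flip w
  have h2 : ∀ x, n (x ⊗ₜ w) = ν x ⊗ₜ w := fun x => by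
    obtain ⟨s, hs⟩ := mem_sR.1 (h1 x)
    simp [ν, hs, hw']
  have h3 : ∀ x, ν (ν x) = 0 := fun x => tmul_right_inj hS.hnd hw (by
    rw [← h2, ← h2, ← End.mul_apply, hnn, zero_tmul, LinearMap.zero_apply])
  have e1 : (1 + n) * (1 - n) = 1 := by rw [mul_sub, mul_one, add_mul, hnn, one_mul, add_zero, add_sub_cancel_right]
  obtain ⟨c, hc⟩ := hS.tc.eq_smul_ro (hS.scalar hX) (hS.pure w) hw
    (inG_conj hn e1 (hS.tv_right w)) fun p => by
      simpa [lTensor_ro, h2, ← add_tmul] using tmul_mem_sR _ _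
  have := hS.nt
  obtain ⟨u, hu⟩ := exists_ne (0 : U)
  obtain rfl := eq_smul_of_conj hnn (fun e => tmul_ne_zero hS.fnd hu hw (by
    simpa [hw''] using LinearMap.congr_fun e (u ⊗ₜ w''))) hc
  have h4 : ∀ x y, f (x - ν x) (y - ν y) = f x y := fun x y => by
    have a1 := LinearMap.congr_fun hc (x ⊗ₜ w'')
    simp only [End.mul_apply, lTensor_ro, LinearMap.add_apply, End.one_apply, h2, one_smul, cR_tmul,
      hw'', ← add_tmul] at a1
    have a2 := hS.tc.iso' (inG_inv hn e1) (x ⊗ₜ w'') (y ⊗ₜ w)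
    rw [LinearMap.sub_apply 1 n (y ⊗ₜ w), End.one_apply, h2, ← sub_tmul, tB_cR, tB_tmul, hw'',
      mul_one] at a2
    generalize cR h U w ((1 - n) (x ⊗ₜ w'')) = s at a1 a2
    rw [← a2, ← tmul_right_inj hS.hnd hw a1, map_add ν, h3, add_zero, add_sub_cancel_right]
  have h5 := hS.left (1 - ν) h4
  obtain ⟨β, hβ⟩ := hS.exists_eq_lTensor hX hw (h5.mul hn) fun x => by
    simp [h2, h3, sub_tmul]
  have h6 : ∀ x v, n (x ⊗ₜ v) = (x + ν x) ⊗ₜ β v - x ⊗ₜ v := fun x v => by
    have := congrArg ((1 + ν).rTensor W) (LinearMap.congr_fun hβ (x ⊗ₜ v))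
    rw [End.mul_apply, ← End.mul_apply ((1 + ν).rTensor W), ← LinearMap.rTensor_mul,
      show (1 + ν) * (1 - ν) = 1 from LinearMap.ext fun x => by simp [h3], End.one_eq_id,
      LinearMap.rTensor_id] at this
    exact eq_sub_of_add_eq' this
  by_contra h7
  have h8 : ν x ∉ F ∙ x := fun h8 => by
    obtain ⟨a, ha⟩ := Submodule.mem_span_singleton.1 h8
    have := h3 x
    rw [← ha, map_smul, ← ha, smul_smul, smul_eq_zero, mul_self_eq_zero] at this
    exact h7 (by rw [h2, ← ha]; rcases this with rfl | rfl <;> simp)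
  obtain ⟨y, h9, h10⟩ := exists_orth_eq_one hS.fnd hS.falt.isRefl h8
  refine hr.not_ge (LinearMap.finrank_le_finrank_of_injective (f := n.rangeRestrict ∘ₗ
    TensorProduct.mk F U W x) ((injective_iff_map_eq_zero _).2 fun v hv => ?_))
  have a1 : n (x ⊗ₜ v) = 0 := congrArg Subtype.val hv
  have a2 := congrArg (cL f W y) a1
  simp only [h6, map_sub, cL_tmul, map_add, LinearMap.add_apply, h9, h10 x rfl, zero_add, one_smul,
    zero_smul, sub_zero, map_zero] at a2
  rw [h6, a2, tmul_zero, zero_sub, neg_eq_zero] at a1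
  by_contra hv0
  exact tmul_ne_zero hS.fnd (by rintro rfl; simp at h7) hv0 a1

omit hS hX in
theorem finrank_sR (hh : h.Nondegenerate) (hw : w ≠ 0) : finrank F (sR F U w) = finrank F U :=
  LinearMap.finrank_range_of_inj fun _ _ e => tmul_right_inj hh hw e

omit hS hX in
theorem finrank_map_sR (hh : h.Nondegenerate) (hw : w ≠ 0) (e2 : g' * g = 1) :
    finrank F ((sR F U w).map g) = finrank F U := by
  rw [← (Submodule.equivMapOfInjective g (Function.LeftInverse.injective (g := g')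
    (LinearMap.congr_fun e2)) _).finrank_eq, finrank_sR hh hw]

/-- A conjugate of `U ⊗ w` normalised by some `1 ⊗ t_v` has the form `U ⊗ w'`. -/
theorem exists_map_eq (hw : w ≠ 0) (hg : InG X g) (e1 : g * g' = 1) (e2 : g' * g = 1) {v : W}
    (hv : v ≠ 0) (h1 : (sR F U w).map (g' * (1 + (ro h v v).lTensor U) * g) = sR F U w) :
    ∃ w', w' ≠ 0 ∧ (sR F U w).map g = sR F U w' := by
  have e1' : ∀ p, g (g' p) = p := LinearMap.congr_fun e1
  have e2' : ∀ p, g' (g p) = p := LinearMap.congr_fun e2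
  have h2 := hS.apply_eq_zero hX hw (inG_conj (inG_inv hg e1) e2 (hS.tv_right v))
    (LinearMap.ext fun p => by simp [e1', lTensor_ro, hS.halt.self_eq_zero])
    (lt_of_le_of_lt (Submodule.finrank_mono (t := (sR F U v).map g') (by
      rintro _ ⟨p, rfl⟩
      exact ⟨_, by rw [lTensor_ro]; exact tmul_mem_sR _ _, rfl⟩))
      (by rw [finrank_map_sR hS.hnd hv e1]; have := hS.lt; omega)) fun x => by
      have := h1 ▸ Submodule.mem_map_of_mem (f := g' * (1 + (ro h v v).lTensor U) * g)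
        (tmul_mem_sR x w)
      simpa [e2'] using Submodule.sub_mem _ this (tmul_mem_sR x w)
  have h3 : ∀ x, cR h U v (g (x ⊗ₜ w)) = 0 := fun x => tmul_right_inj hS.hnd hv (by
    simpa [e1', lTensor_ro] using congrArg g (h2 x))
  obtain ⟨β, hβ⟩ := hS.exists_eq_lTensor hX hv (inG_conj hg e1 (hS.tv_right w)) fun x => by
    have : cR h U w (g' (x ⊗ₜ v)) = 0 := hS.fnd.1 _ fun y => by
      rw [← tB_cR, ← hS.tc.iso' hg, e1', hS.tc.symm, tB_cR, h3]; simp
    simp [lTensor_ro, this]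
  have := hS.nt
  obtain ⟨u, hu⟩ := exists_ne (0 : U)
  obtain ⟨w', hw'⟩ : ∃ w', β w' - w' ≠ 0 := by
    by_contra! H
    obtain ⟨y, hy⟩ := exists_apply_eq_one' hS.hnd hw
    rw [show β = LinearMap.id from LinearMap.ext fun x => sub_eq_zero.1 (H x),
      LinearMap.lTensor_id] at hβ
    exact tmul_ne_zero hS.fnd hu hw (by
      simpa [e2', hy] using congrArg g' (LinearMap.congr_fun hβ (g (u ⊗ₜ y))))
  refine ⟨_, hw', (Submodule.eq_of_le_of_finrank_eq (fun p hp => ?_) ?_).symm⟩
  · obtain ⟨x, rfl⟩ := mem_sR.1 hp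
    refine ⟨_, tmul_mem_sR (cR h U w (g' (x ⊗ₜ w'))) w, ?_⟩
    simpa [lTensor_ro, tmul_sub, eq_sub_iff_add_eq'] using LinearMap.congr_fun hβ (x ⊗ₜ w')
  · rw [finrank_map_sR hS.hnd hw e2, finrank_sR hS.hnd hw']

omit hX in
theorem exists_fix (y : U ⊗[F] W) (w : W) : ∃ v, v ≠ 0 ∧ h w v = 0 ∧ cR h U v y = 0 := by
  obtain ⟨v, hv, hv0⟩ := Submodule.exists_mem_ne_zero_of_ne_bot (LinearMap.ker_ne_bot_of_finrank_lt
    (f := (h w).prod ((cR h U).flip y)) (by simpa [add_comm] using hS.lt))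
  exact ⟨v, hv0, congrArg Prod.fst hv, congrArg Prod.snd hv⟩

/-- Distinct conjugates of `U ⊗ w` intersect trivially. -/
theorem map_eq_of_inf_ne_bot (hw : w ≠ 0) (hg : InG X g)
    (h1 : (sR F U w).map g ⊓ sR F U w ≠ ⊥) : (sR F U w).map g = sR F U w := by
  induction hk : finrank F U - finrank F ↥((sR F U w).map g ⊓ sR F U w)
    using Nat.strong_induction_on generalizing g with
  | _ m ih =>
  obtain ⟨g', hg', e1, e2⟩ := inG_exists_inv hg
  have e2' : ∀ p, g' (g p) = p := LinearMap.congr_fun e2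
  have h0 := finrank_sR (U := U) hS.hnd hw
  by_contra h2
  obtain ⟨_, ⟨y, hy, rfl⟩, hy'⟩ := SetLike.not_le_iff_exists.1 fun e =>
    h2 (Submodule.eq_of_le_of_finrank_eq e (by rw [finrank_map_sR hS.hnd hw e2, h0]))
  obtain ⟨v, hv, h3, h4⟩ := hS.exists_fix (g y) w
  set k := g' * (1 + (ro h v v).lTensor U) * g with hkdef
  have h5 : ((sR F U w).map g ⊓ sR F U w).map g' < (sR F U w).map k ⊓ sR F U w := by
    refine lt_of_le_of_ne ?_ fun e => hy' ?_
    · rintro _ ⟨_, ⟨⟨p, hp, rfl⟩, hp'⟩, rfl⟩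
      obtain ⟨x, hx⟩ := mem_sR.1 hp'
      exact ⟨⟨p, hp, by simp [hkdef, hx, h3]⟩, by rwa [e2']⟩
    · obtain ⟨p, hp, hp'⟩ := e.ge (⟨⟨y, hy, by simp [hkdef, lTensor_ro, h4, e2']⟩, hy⟩ :
        y ∈ (sR F U w).map k ⊓ sR F U w)
      rw [← hp', ← End.mul_apply, e1]
      exact hp.2
  have h6 := Submodule.finrank_lt_finrank_of_lt h5
  rw [← (Submodule.equivMapOfInjective g' (Function.LeftInverse.injective (g := g)
    (LinearMap.congr_fun e1)) _).finrank_eq] at h6
  have h7 := Submodule.finrank_mono (inf_le_right : (sR F U w).map k ⊓ sR F U w ≤ _)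
  obtain ⟨w', hw', h8⟩ := hS.exists_map_eq hX hw hg e1 e2 hv
    (ih _ (by omega) (g := k) ((hg'.mul (hS.tv_right v)).mul hg) (bot_le.trans_lt h5).ne' rfl)
  rw [h8] at h1 h2
  obtain ⟨p, ⟨hp, hp'⟩, hp0⟩ := Submodule.exists_mem_ne_zero_of_ne_bot h1
  obtain ⟨x, rfl⟩ := mem_sR.1 hp
  obtain ⟨x', hx'⟩ := mem_sR.1 hp'
  obtain ⟨y', hy'⟩ := exists_apply_eq_one hS.fnd (u := x) (by rintro rfl; simp at hp0)
  have h9 := congrArg (cL f W y') hx'
  simp only [cL_tmul, hy', one_smul] at h9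
  refine h2 (Submodule.eq_of_le_of_finrank_eq (fun p hp => ?_) ?_)
  · obtain ⟨x, rfl⟩ := mem_sR.1 hp
    rw [h9, ← smul_tmul]
    exact tmul_mem_sR _ _
  · rw [h0, finrank_sR hS.hnd hw']

/-- Every proper overgroup of `Sp(U) ⊗ Sp(W)` in `Ω(U ⊗ W)` preserves the tensor decomposition. -/
theorem exists_eq_map (hg : InG X g) :
    ∃ (α : End F U) (β : End F W), g = TensorProduct.map α β := by
  obtain ⟨g', hg', e1, e2⟩ := inG_exists_inv hg
  have := hS.nt
  have : Nontrivial W := nontrivial_of_finrank_pos (R := F) (by have := hS.five; omega)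
  let C : Submodule F (End F W) :=
    { carrier := {γ | ∃ γ' : End F W, g * γ.lTensor U = γ'.lTensor U * g}
      add_mem' := fun {a b} ⟨a', ha⟩ ⟨b', hb⟩ => ⟨a' + b', by
        simp only [LinearMap.lTensor_add, mul_add, add_mul, ha, hb]⟩
      zero_mem' := ⟨0, by simp⟩
      smul_mem' := fun c a ⟨a', ha⟩ => ⟨c • a', by
        simp only [LinearMap.lTensor_smul, mul_smul_comm, smul_mul_assoc, ha]⟩ }
  refine exists_eq_map_of_lTensor hS.hnd e1 e2 (ro_mem_of_mul hS.hnd C
    (fun a ⟨a', ha⟩ b ⟨b', hb⟩ => ⟨a' * b', by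
      rw [LinearMap.lTensor_mul, ← mul_assoc, ha, mul_assoc, hb, LinearMap.lTensor_mul, mul_assoc]⟩)
    fun w => ?_)
  by_cases hw : w = 0
  · convert C.zero_mem
    ext
    simp [hw]
  obtain ⟨u, hu⟩ := exists_ne (0 : U)
  obtain ⟨v, hv, -, h4⟩ := hS.exists_fix (g (u ⊗ₜ w)) w
  obtain ⟨w', hw', h8⟩ := hS.exists_map_eq hX hw hg e1 e2 hv (hS.map_eq_of_inf_ne_bot hX hw
    ((hg'.mul (hS.tv_right v)).mul hg) fun e => tmul_ne_zero hS.fnd hu hw
      ((Submodule.eq_bot_iff _).1 e _ ⟨⟨_, tmul_mem_sR u w, by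
        simp [lTensor_ro, h4, ← End.mul_apply g' g, e2]⟩, tmul_mem_sR u w⟩))
  obtain ⟨c, hc⟩ := hS.tc.eq_smul_ro (hS.scalar hX) (hS.pure w') hw'
    (inG_conj hg e1 (hS.tv_right w)) fun p => h8 ▸ ⟨_, tmul_mem_sR _ w, by simp [lTensor_ro]; rfl⟩
  exact ⟨c • ro h w' w', by rw [LinearMap.lTensor_smul, ← hc, mul_assoc, e2, mul_one]⟩

end TSp

section Bridge

/-- Transport of isometries along a linear equivalence. -/
def oCongr {V V' : Type*} [AddCommGroup V] [Module F V] [AddCommGroup V'] [Module F V']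
    (T : V' ≃ₗ[F] V) (Q : QuadraticForm F V) : O (Q.comp T.toLinearMap) ≃* O Q where
  toFun g := ⟨T.symm ≪≫ₗ g.1 ≪≫ₗ T, fun v => (g.2 (T.symm v)).trans (by simp)⟩
  invFun g := ⟨T ≪≫ₗ g.1 ≪≫ₗ T.symm, fun v => by simpa using g.2 (T v)⟩
  left_inv g := O_ext fun v => by simp
  right_inv g := O_ext fun v => by simp
  map_mul' g k := O_ext fun v => by simp

theorem isMaximalIn_tensor [Finite F] {ι : Type} [Fintype ι] [DecidableEq ι] {a b : ℕ}
    (e : ι ≃ Fin a × Fin b) (P : GL ι F) {Q : QuadraticForm F (ι → F)} (h5 : 5 ≤ Fintype.card ι)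
    (hQ : (polarBilin (Q.comp (tenFrame e P).toLinearMap)).Nondegenerate)
    (hne : ∃ u v, ∀ α β, (eich (Q.comp (tenFrame e P).toLinearMap) u v).1.toLinearMap ≠
      TensorProduct.map α β)
    (h : ∀ X : Subgroup (End F ((Fin a → F) ⊗[F] (Fin b → F)))ˣ,
      (∀ g : End F _, InG X g → ∀ p, Q.comp (tenFrame e P).toLinearMap (g p) =
        Q.comp (tenFrame e P).toLinearMap p) →
      (∀ g ∈ eichGroup (Q.comp (tenFrame e P).toLinearMap), ∀ (α : End F (Fin a → F))
        (β : End F (Fin b → F)),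
        g.1.toLinearMap = TensorProduct.map α β → InG X g.1.toLinearMap) →
      ¬ eichGroup (Q.comp (tenFrame e P).toLinearMap) ≤ X.comap (oU _) →
      ∀ g : End F ((Fin a → F) ⊗[F] (Fin b → F)), InG X g → ∃ α β, g = TensorProduct.map α β) :
    Geo.IsMaximalIn (Geo.omegaGL ⇑Q) (Geo.tensorProductSubgroup a b e P ⊓ Geo.omegaGL ⇑Q) := by
  have : Nonempty ι := Fintype.card_pos_iff.1 (by omega)
  have h6 := (tenFrame e P).finrank_eq
  rw [finrank_pi'] at h6
  set Q' := Q.comp (tenFrame e P).toLinearMap with hQ'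
  let φ := ((toGL Q).comp (oCongr (tenFrame e P) Q).toMonoidHom).comp (eichGroup Q').subtype
  have hmem : ∀ g, g ∈ (Geo.tensorProductSubgroup a b e P).comap φ ↔
      ∃ α β, g.1.1.toLinearMap = TensorProduct.map α β := fun g => by
    rw [Subgroup.mem_comap, mem_tensorProductSubgroup_iff]
    refine exists_congr fun α => exists_congr fun β => ?_
    rw [LinearMap.ext_iff]
    refine forall_congr' fun p => ?_
    rw [← (tenFrame e P).injective.eq_iff (a := g.1.1.toLinearMap p)]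
    exact Eq.congr_left ((toGL_mulVec _ _).trans (by simp [oCongr]))
  refine isMaximalIn_of_isCoatom_comap φ ?_ _
    (isCoatom_of_forall (fun htop => ?_) fun M hM ⟨g, hg, hg'⟩ => ?_)
  · rw [MonoidHom.range_comp, Subgroup.range_subtype, ← Subgroup.map_map, omegaGL_eq_map,
      ← commutator_eq_eichGroup hQ (not_isExc_of_finrank (by omega)) (by omega),
      MulEquiv.toMonoidHom_eq_coe, H28.map_commutator_equiv]
  · obtain ⟨u, v, h⟩ := hne
    obtain ⟨α, β, h'⟩ := (hmem ⟨_, eich_mem_eichGroup u v⟩).1 (htop ▸ Subgroup.mem_top _)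
    exact h α β h'
  · by_contra hne
    refine hg' ((hmem g).2 (h (M.map ((oU Q').comp (eichGroup Q').subtype)) ?_
      (fun k hk α β e => ⟨_, ⟨⟨k, hk⟩, hM ((hmem _).2 ⟨α, β, e⟩), rfl⟩, rfl⟩)
      (fun hle => hne (eq_top_iff.2 fun k _ => ?_)) _ ⟨_, ⟨g, hg, rfl⟩, rfl⟩))
    · rintro _ ⟨_, ⟨k, -, rfl⟩, rfl⟩
      exact k.1.2
    · obtain ⟨k', hk', e⟩ := hle k.2
      rwa [← Subtype.ext (oU_injective _ e)]

omit [FiniteDimensional F U] [FiniteDimensional F W] in
theorem Q_map_of_pure (hpol : ∀ p q, polar Q p q = tB f h p q) (hp : ∀ z, Gd Q z) {α : End F U}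
    {β : End F W} (hα : ∀ x y, f (α x) (α y) = f x y) (hβ : ∀ x y, h (β x) (β y) = h x y)
    (p : U ⊗[F] W) : Q (TensorProduct.map α β p) = Q p := by
  induction p using TensorProduct.induction_on with
  | zero => simp
  | add a b ha hb =>
    rw [map_add, Q_add, Q_add, ha, hb, hpol, hpol, ← LinearMap.lTensor_comp_rTensor,
      LinearMap.comp_apply, LinearMap.comp_apply, tB_iso_lTensor hβ, tB_iso_rTensor hα]
  | tmul x w => rw [map_tmul, hp, hp]

/-- `Sp(U) × Sp(W) → O(U ⊗ W)`. -/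
noncomputable def spTensor (hpol : ∀ p q, polar Q p q = tB f h p q) (hp : ∀ z, Gd Q z) :
    isomGroup f × isomGroup h →* O Q where
  toFun g := ⟨TensorProduct.congr g.1.1 g.2.1, Q_map_of_pure hpol hp g.1.2 g.2.2⟩
  map_one' := Subtype.ext (LinearEquiv.toLinearMap_injective (TensorProduct.ext' fun _ _ => rfl))
  map_mul' _ _ := Subtype.ext (LinearEquiv.toLinearMap_injective (TensorProduct.ext' fun _ _ => rfl))

theorem spTensor_mem (hf : f.Nondegenerate) (hh : h.Nondegenerate) (hf' : f.IsAlt) (hh' : h.IsAlt)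
    (hpol : ∀ p q, polar Q p q = tB f h p q) (hp : ∀ z, Gd Q z) (g : isomGroup f × isomGroup h) :
    spTensor hpol hp g ∈ eichGroup Q := by
  have hQ : (polarBilin Q).Nondegenerate := by
    convert tB_nondegenerate hf hh
    exact LinearMap.ext₂ hpol
  have h1 := eq_top_of_rootSet hf (hA := hf') (K := (eichGroup Q).comap
    ((spTensor hpol hp).comp (MonoidHom.inl _ _))) fun u c =>
      mem_eichGroup_of_singular hQ _ fun p => by
        rw [← LinearEquiv.coe_coe, show ((spTensor hpol hp).comp (MonoidHom.inl _ _) (isoTv hf' u c)).1.toLinearMap p =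
          (1 + c • (ro f u u).rTensor W) p from LinearMap.congr_fun (TensorProduct.ext' fun x w => by
            change (altTv hf' u c x) ⊗ₜ w = _
            simp [altTv_apply, add_tmul, smul_tmul', smul_smul]) p]
        simp [rTensor_ro, ← tmul_smul, hp _ _]
  have h2 := eq_top_of_rootSet hh (hA := hh') (K := (eichGroup Q).comap
    ((spTensor hpol hp).comp (MonoidHom.inr _ _))) fun u c =>
      mem_eichGroup_of_singular hQ _ fun p => by
        rw [← LinearEquiv.coe_coe, show ((spTensor hpol hp).comp (MonoidHom.inr _ _) (isoTv hh' u c)).1.toLinearMap p =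
          (1 + c • (ro h u u).lTensor U) p from LinearMap.congr_fun (TensorProduct.ext' fun x w => by
            change x ⊗ₜ (altTv hh' u c w) = _
            simp [altTv_apply, tmul_add, smul_smul]) p]
        simp [lTensor_ro, ← tmul_smul, hp _ _]
  rw [← Prod.fst_mul_snd g, map_mul]
  exact mul_mem (h1.ge (Subgroup.mem_top g.1)) (h2.ge (Subgroup.mem_top g.2))

omit [FiniteDimensional F W] in
theorem exists_isom_eq (hf : f.Nondegenerate) {α : End F U} (hα : ∀ x y, f (α x) (α y) = f x y) :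
    ∃ σ : isomGroup f, σ.1.toLinearMap = α :=
  ⟨⟨LinearEquiv.ofInjectiveEndo α ((injective_iff_map_eq_zero α).2 fun w hw =>
    hf.1 w fun y => by rw [← hα, hw]; simp), hα⟩, rfl⟩

omit [FiniteDimensional F U] [FiniteDimensional F W] in
/-- A Siegel transformation that is not a tensor product. -/
theorem eich_ne_map (hf : f.Nondegenerate) (hpol : ∀ p q, polar Q p q = tB f h p q) {u : U}
    (hu : u ≠ 0) {z v z' : W} (hz : Gd Q z) (hv : h z v = 0) (hv₁ : h v z = 0) (hzz : h z z = 0)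
    (hz' : h z' z = 1) (hv' : h z' v = 0)
    (hv0 : ∀ c : F, v ≠ c • z) {y : U} (hy : f y u = 0) (hy0 : y ≠ 0) (α : End F U) (β : End F W) :
    (eich Q (u ⊗ₜ z) (u ⊗ₜ v)).1.toLinearMap ≠ TensorProduct.map α β := fun e => by
  have h1 : ∀ x w, α x ⊗ₜ[F] β w = x ⊗ₜ w + (f x u * h w z) • u ⊗ₜ[F] v -
      (f x u * h w v) • u ⊗ₜ[F] z - (Q (u ⊗ₜ v) * (f x u * h w z)) • u ⊗ₜ[F] z := fun x w => by
    rw [← map_tmul, ← e, LinearEquiv.coe_coe, eich_apply (hz u) (by simp [hpol, hv])]
    simp [hpol]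
  obtain ⟨y', hy'⟩ := exists_apply_eq_one hf hy0
  obtain ⟨u', hu'⟩ := exists_apply_eq_one' hf hu
  obtain ⟨u'', hu''⟩ := exists_apply_eq_one hf hu
  have h2 : f (α y) y' • β z' = z' := by simpa [hy, hy'] using congrArg (cL f W y') (h1 y z')
  have h3 := congrArg (cL f W u'') (h1 u' z')
  simp only [cL_tmul, map_sub, map_add, map_smul, hu', hu'', hz', hv', one_smul, mul_one, mul_zero,
    zero_smul, sub_zero] at h3
  have h4 := congrArg (h · z) h3
  have h5 := congrArg (h · z) h2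
  simp only [map_smul, LinearMap.smul_apply, smul_eq_mul, hz', map_sub, map_add, hv₁, hzz,
    LinearMap.sub_apply, LinearMap.add_apply] at h4 h5
  refine hv0 (Q (u ⊗ₜ v)) (smul_right_injective W (left_ne_zero_of_mul_eq_one h5) ?_)
  have h6 : f (α u') u'' = f (α y) y' * f u' u'' := by
    linear_combination f (α y) y' * h4 - f (α u') u'' * h5
  linear_combination (norm := module) (f (α y) y' * f u' u'') • h2 - f (α y) y' • h3 +
    f (α y) y' • h6 • β z'

/-- The stabiliser in `Ω⁺` of a tensor decomposition into two symplectic spaces of dimensions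
`n₁ < n₂`, `6 ≤ n₂`, is maximal unless `q = n₁ = 2`. -/
theorem isMaximalIn_tensor_sp {F : Type*} [Field F] [Fintype F] {ι : Type} [Fintype ι]
    [DecidableEq ι] {Q : (ι → F) → F} (hQ : Geo.IsNondegenerateQuadraticForm Q) {n₁ n₂ : ℕ}
    (h0 : 0 < n₁) (h5 : 5 ≤ n₂) (h12 : n₁ < n₂) (hex : ¬ (Fintype.card F = 2 ∧ n₁ = 2))
    (e : ι ≃ Fin n₁ × Fin n₂) (P : GL ι F) {f₁ : (Fin n₁ → F) → (Fin n₁ → F) → F}
    {f₂ : (Fin n₂ → F) → (Fin n₂ → F) → F} (hf₁ : Geo.IsSymplecticForm f₁)
    (hf₂ : Geo.IsSymplecticForm f₂) (hT : Geo.IsTensorFormStructure id (polar Q) f₁ f₂ e P)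
    (hpure : ∀ (x₁ : Fin n₁ → F) (x₂ : Fin n₂ → F), Q (Matrix.mulVec (P : Matrix ι ι F)
      ((fun a : Fin n₁ × Fin n₂ => x₁ a.1 * x₂ a.2) ∘ e)) = 0) :
    Geo.IsMaximalIn (Geo.omegaGL Q) (Geo.tensorProductSubgroup n₁ n₂ e P ⊓ Geo.omegaGL Q) := by
  obtain ⟨Q, -, rfl⟩ := exists_quadraticForm_of_geo hQ
  obtain ⟨c, hc, h⟩ := exists_tenFrame_form hf₁.bilinear hf₂.bilinear hT
  have hnd := geoBilin_nondegenerate hf₁.bilinear hf₁.nondegenerate
  have hf : (c • geoBilin hf₁.bilinear).Nondegenerate :=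
    ⟨fun x hx => hnd.1 x fun y => by simpa [hc] using hx y,
      fun x hx => hnd.2 x fun y => by simpa [hc] using hx y⟩
  have hf' : (c • geoBilin hf₁.bilinear).IsAlt := fun x => by
    simp [geoBilin_apply, hf₁.alternating]
  have hh := geoBilin_nondegenerate hf₂.bilinear hf₂.nondegenerate
  have hh' := geoBilin_isAlt hf₂
  have hpol : ∀ p q, polar (Q.comp (tenFrame e P).toLinearMap) p q =
      tB (c • geoBilin hf₁.bilinear) (geoBilin hf₂.bilinear) p q := fun p q => by
    rw [← h]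
    simp [polar]
  have hp : ∀ z, Gd (Q.comp (tenFrame e P).toLinearMap) z := fun z x => by
    rw [← hpure x z]
    simp only [comp_apply, LinearEquiv.coe_coe, tenFrame, LinearEquiv.trans_apply, tenEquiv_tmul,
      H25.frameEquiv_apply]
    rfl
  obtain ⟨k, hk⟩ := even_finrank_of_alt hf hf'
  obtain ⟨l, hl⟩ := even_finrank_of_alt hh hh'
  rw [finrank_fin_fun] at hk hl
  have hnt : Nontrivial (Fin n₁ → F) := nontrivial_of_finrank_pos (R := F) (by simpa using h0)
  refine isMaximalIn_tensor e P ?_ ?_ ?_ fun X h1 h2 h3 g => TSp.exists_eq_map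
    ⟨hf, hh, hf', hh', hnt, by simpa, by simp; omega, ?_, hpol, hp, h1, fun α hα => ?_,
      fun β hβ => ?_⟩ h3
  · rw [Fintype.card_congr e, Fintype.card_prod, Fintype.card_fin, Fintype.card_fin]
    nlinarith
  · convert tB_nondegenerate hf hh
    exact LinearMap.ext₂ hpol
  · obtain ⟨u, hu⟩ := exists_ne (0 : Fin n₁ → F)
    obtain ⟨z, -, -, h1⟩ := exists_orth_notMem (geoBilin hf₂.bilinear) (by simpa) 0 0 0 0
    obtain ⟨z', hz'⟩ := exists_apply_eq_one' hh (u := z) fun e => h1 (by simp [e])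
    obtain ⟨v, h2, h3, h4⟩ := exists_orth_notMem (geoBilin hf₂.bilinear) (by simpa) z z' z z
    exact ⟨_, _, eich_ne_map hf hpol hu (hp z) (hh'.isRefl _ _ h2) h2 (hh'.self_eq_zero z) hz'
      (hh'.isRefl _ _ h3)
      (fun c e => h4 (e ▸ Submodule.smul_mem _ _ (Submodule.subset_span (by simp))))
      (hf'.self_eq_zero u) hu⟩
  · by_cases hq : Fintype.card F = 2
    · left
      rw [finrank_fin_fun]
      omega
    · exact Or.inr (exists_ne_zero_ne_one_of_card_ne_two hq)
  · obtain ⟨σ, rfl⟩ := exists_isom_eq hf hα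
    exact h2 _ (spTensor_mem hf hh hf' hh' hpol hp (σ, 1)) _ _ rfl
  · obtain ⟨σ, rfl⟩ := exists_isom_eq hh hβ
    exact h2 _ (spTensor_mem hf hh hf' hh' hpol hp (1, σ)) _ _ rfl

end Bridge

end Cfsg.Agent.H79
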