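import Mathlib
import Cfsg.Agent.H79.TenSp
import Cfsg.Agent.H27.QCls

/-! Subalgebras of `End U` invariant under `Ω(U)` in odd characteristic. -/

set_option autoImplicit false

namespace Cfsg.Agent.H79

open Module QuadraticMap H30 H36 H27

variable {F U : Type*} [Field F] [AddCommGroup U] [Module F U] {Q : QuadraticForm F U}

/-- The skew operator `w ↦ f w u • x - f w x • u`. -/
def sk (f : LinearMap.BilinForm F U) (u x : U) : End F U := ro f x u - ro f u x

@[simp] theorem sk_apply (f : LinearMap.BilinForm F U) (u x w : U) :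
    sk f u x w = f w u • x - f w x • u := rfl

/-- The Eichler transformation as an endomorphism. -/
def eE (Q : QuadraticForm F U) (u x : U) : End F U :=
  1 + sk (polarBilin Q) u x - Q x • ro (polarBilin Q) u u

theorem eE_apply (u x w : U) : eE Q u x w =
    w + (polar Q w u • x - polar Q w x • u) - Q x • polar Q w u • u := rfl

theorem eich_eq_eE {u x : U} (hu : Q u = 0) (hx : polar Q u x = 0) :
    (eich Q u x).1.toLinearMap = eE Q u x := LinearMap.ext fun w => by
  rw [LinearEquiv.coe_coe, eich_apply hu hx, eE_apply, mul_smul, add_sub_assoc w]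

theorem eE_neg (u x : U) : eE Q u (-x) =
    1 - sk (polarBilin Q) u x - Q x • ro (polarBilin Q) u u := LinearMap.ext fun w => by
  simp only [eE_apply, LinearMap.sub_apply, End.one_apply, sk_apply, LinearMap.smul_apply,
    ro_apply, polarBilin_apply_apply, polar_neg_right, QuadraticMap.map_neg]
  module

theorem eE_mul_neg {u x : U} (hu : Q u = 0) (hx : polar Q u x = 0) :
    eE Q u x * eE Q u (-x) = 1 := by
  rw [← eich_eq_eE hu hx, ← eich_eq_eE hu (by simp [hx]), ← eich_inv]
  exact LinearMap.ext (eich Q u x).1.apply_symm_apply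

theorem mem_of_singular {e e' : U} (h : H30.IsHyp Q e e') (D N : Submodule F U) (he : e ∈ D)
    (he' : e' ∈ D) (hN : ∀ y ∈ D, Q y = 0 → y ∈ N) : D ≤ N := fun y hy => by
  have h1 := exists_isHyp_of_polar h.left (y := y + (1 - polar Q e y) • e') (by simp [h.pol])
  simpa using N.sub_mem (N.add_mem (hN _ (D.sub_mem (D.add_mem hy (D.smul_mem _ he'))
    (D.smul_mem _ he)) h1.right) (N.smul_mem (Q (y + (1 - polar Q e y) • e')) (hN _ he h.left)))
    (N.smul_mem (1 - polar Q e y) (hN _ he' h.right))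

variable [FiniteDimensional F U]

theorem exists_orth_notMem' (B : LinearMap.BilinForm F U) (a b : U) (S : Submodule F U)
    (h : finrank F S + 2 < finrank F U) : ∃ y, B y a = 0 ∧ B y b = 0 ∧ y ∉ S := by
  by_contra! H
  have h1 := Submodule.finrank_mono (show LinearMap.ker ((B.flip a).prod (B.flip b)) ≤ S from
    fun y hy => H y (congrArg Prod.fst hy) (congrArg Prod.snd hy))
  have h2 := LinearMap.finrank_range_add_finrank_ker ((B.flip a).prod (B.flip b))
  have h3 := Submodule.finrank_le (LinearMap.range ((B.flip a).prod (B.flip b)))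
  simp only [finrank_prod, finrank_self] at h3
  omega

theorem polarBilin_isRefl (Q : QuadraticForm F U) : (polarBilin Q).IsRefl := fun x y h => by
  rwa [polarBilin_apply_apply, polar_comm]

theorem exists_nonsingular_of_notMem (hQ : (polarBilin Q).Nondegenerate) {s : Set U} {y : U}
    (hy : ∀ z ∈ s, polar Q z y = 0) (hs : y ∉ Submodule.span F s) :
    ∃ x, Q x ≠ 0 ∧ ∀ z ∈ s, polar Q z x = 0 := by
  obtain ⟨y', h1, h2⟩ := exists_orth_eq_one hQ (polarBilin_isRefl Q) hs
  by_contra! H
  have key : ∀ x, (∀ z ∈ s, polar Q z x = 0) → Q x = 0 := fun x hx => by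
    by_contra h
    obtain ⟨z, hz, hz'⟩ := H x h
    exact hz' (hx z hz)
  have := key (y + y') fun z hz => by rw [polar_add_right, hy z hz, zero_add]; exact h2 z hz
  rw [Q_add, key y hy, key y' h2, show polar Q y y' = 1 from h1] at this
  simp at this

theorem exists_nonsingular_orth₄ (hQ : (polarBilin Q).Nondegenerate) (h2 : (2 : F) ≠ 0)
    (h4 : 4 ≤ finrank F U) {u x : U} (hx : Q x ≠ 0) (hux : polar Q u x = 0) :
    ∃ y, Q y ≠ 0 ∧ polar Q u y = 0 ∧ polar Q x y = 0 := by
  obtain ⟨y, h1, h3, h5⟩ := exists_orth_notMem' (polarBilin Q) u x (F ∙ u)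
    (by have := finrank_span_le_card (R := F) ({u} : Set U); simp at this; omega)
  obtain ⟨y', h6, h7⟩ := exists_nonsingular_of_notMem hQ (s := {u, x}) (y := y)
    (by simpa [polar_comm Q y] using And.intro h1 h3) fun h => by
      obtain ⟨a, b, rfl⟩ := Submodule.mem_span_pair.1 h
      have : b = 0 := by simpa [hux, polar_self', h2, hx] using h3
      exact h5 (by simp [this, Submodule.smul_mem])
  exact ⟨y', h6, h7 u (by simp), h7 x (by simp)⟩

theorem exists_nonsingular_orth₅ (hQ : (polarBilin Q).Nondegenerate) (h5 : 5 ≤ finrank F U)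
    (u x : U) : ∃ y, Q y ≠ 0 ∧ polar Q u y = 0 ∧ polar Q x y = 0 := by
  obtain ⟨y, h1, h3, h5⟩ := exists_orth_notMem (polarBilin Q) h5 u x u x
  obtain ⟨y', h6, h7⟩ := exists_nonsingular_of_notMem hQ (s := {u, x}) (y := y)
    (by simpa [polar_comm Q y] using And.intro h1 h3) h5
  exact ⟨y', h6, h7 u (by simp), h7 x (by simp)⟩

/-- Quadratic spaces of odd characteristic with enough singular vectors. -/
structure Big (Q : QuadraticForm F U) : Prop where
  nd : (polarBilin Q).Nondegenerate
  two : (2 : F) ≠ 0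
  three : 3 ≤ finrank F U
  big : 4 ≤ finrank F U ∨ ∃ t : F, t ≠ 0 ∧ t * t ≠ 1
  hyp : ∃ e e', H30.IsHyp Q e e'

/-- A quadratic form vanishing on the singular vectors is a multiple of `Q`. -/
theorem Big.quad_eq (hQ : Big Q) (B : LinearMap.BilinForm F U) (hB : ∀ u, Q u = 0 → B u u = 0) :
    ∃ μ : F, ∀ w, B w w = μ * Q w := by
  obtain ⟨e, e', h⟩ := hQ.hyp
  have key : ∀ {e e'}, H30.IsHyp Q e e' → ∀ x ∈ hperp Q e e', B x x = (B e e' + B e' e) * Q x ∧
      B e' x + B x e' = Q x * (B e x + B x e) := fun {e e'} h x hx => by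
    have h1 := hB _ ((h.Q_comb (-Q x) 1 hx).trans (by ring))
    have h2 := hB _ ((h.Q_comb (-Q x) 1 (neg_mem hx)).trans (by simp))
    simp only [map_add, map_smul, map_neg, LinearMap.add_apply, LinearMap.smul_apply,
      LinearMap.neg_apply, smul_eq_mul, hB e h.left, hB e' h.right] at h1 h2
    exact ⟨mul_left_cancel₀ hQ.two (by linear_combination h1 + h2),
      mul_left_cancel₀ hQ.two (by linear_combination h1 - h2)⟩
  have h1 : ∀ x ∈ hperp Q e e', B e x + B x e = 0 := fun x hx => by
    by_cases h0 : Q x = 0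
    · rw [(key h.symm x ⟨hx.2, hx.1⟩).2, h0, zero_mul]
    have h2 := (key h x hx).2
    rcases hQ.big with h4 | ⟨t, ht0, ht⟩
    · obtain ⟨y, hy, h5, h6⟩ := exists_nonsingular_orth₄ hQ.nd hQ.two h4 h0
        (u := e) (by rw [polar_comm]; exact hx.1)
      have h7 := h.hproj_mem y
      have h8 : Q (hproj Q e e' y) = Q y := by
        rw [h.Q_eq y, polar_comm Q y e, h5, mul_zero, zero_add]
      have h9 : polar Q x (hproj Q e e' y) = 0 := by simp [hproj, h6, hx.1, hx.2]
      generalize hproj Q e e' y = y' at h7 h8 h9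
      have a1 := (key h _ (add_mem hx h7)).2
      have a2 := (key h _ (sub_mem hx h7)).2
      simp only [map_add, map_sub, LinearMap.add_apply, LinearMap.sub_apply, Q_add, Q_sub, h8,
        h9] at a1 a2
      exact mul_left_cancel₀ (mul_ne_zero hQ.two hy) (by linear_combination 2 * h2 - a1 - a2)
    · have a1 := (key h _ (Submodule.smul_mem _ t hx)).2
      simp only [map_smul, LinearMap.smul_apply, Q_smul, smul_eq_mul] at a1
      exact mul_left_cancel₀ (mul_ne_zero (mul_ne_zero ht0 (sub_ne_zero.2 ht)) h0)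
        (by linear_combination t * h2 - a1)
  refine ⟨B e e' + B e' e, fun w => ?_⟩
  obtain ⟨a, b, x, hx, rfl⟩ := h.exists_decomp w
  have h2 := key h x hx
  have h3 := h1 x hx
  simp only [h.Q_comb _ _ hx, map_add, map_smul, LinearMap.add_apply, LinearMap.smul_apply,
    smul_eq_mul, hB e h.left, hB e' h.right]
  linear_combination h2.1 + b * h2.2 + (a + b * Q x) * h3

/-- Products of the operators `ro u u`, `u` singular, give all rank one operators. -/
theorem ro_mem_of_singular (hQ : (polarBilin Q).Nondegenerate)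
    (hh : ∃ e e', H30.IsHyp Q e e') (C : Submodule F (End F U))
    (hmul : ∀ a ∈ C, ∀ b ∈ C, a * b ∈ C) (hC : ∀ u, Q u = 0 → ro (polarBilin Q) u u ∈ C)
    (x y : U) : ro (polarBilin Q) x y ∈ C := by
  obtain ⟨e, e', h⟩ := hh
  let r : U →ₗ[F] U →ₗ[F] End F U := LinearMap.mk₂ F (ro (polarBilin Q))
    (fun _ _ _ => by ext; simp) (fun _ _ _ => by ext; simp [smul_smul, mul_comm])
    (fun _ _ _ => by ext; simp [add_smul]) (fun _ _ _ => by ext; simp [mul_smul])
  refine mem_of_singular h ⊤ (C.comap (r.flip y)) trivial trivial (fun u _ hu => ?_)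
    (Submodule.mem_top (x := x))
  change r u y ∈ C
  by_cases hu0 : u = 0
  · simp [hu0]
  obtain ⟨u', h'⟩ := exists_isHyp hQ hu hu0
  have key : ∀ v, Q v = 0 → polar Q v u = 1 → v ∈ C.comap (r u) := fun v hv h1 => by
    convert hmul _ (hC u hu) _ (hC v hv) using 1
    simp only [Submodule.mem_comap]
    congr! 1
    ext w
    simp [r, h1]
  have h3 : u ∈ C.comap (r u) := hC u hu
  obtain ⟨a, b, w, hw, rfl⟩ := h'.exists_decomp y
  have h4 := key _ ((h'.Q_comb (-Q w) 1 hw).trans (by ring)) (h'.polar_comb_left _ _ hw)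
  have h5 := key u' h'.right h'.pol'
  have h6 : w ∈ C.comap (r u) := by
    convert Submodule.sub_mem _ (Submodule.add_mem _ h4 (Submodule.smul_mem _ (Q w) h3)) h5 using 1
    module
  exact Submodule.add_mem _ (Submodule.add_mem _ (Submodule.smul_mem _ a h3)
    (Submodule.smul_mem _ b h5)) h6

/-- A subalgebra of `End U` invariant under the Eichler transformations. -/
structure Inv (Q : QuadraticForm F U) (C : Submodule F (End F U)) : Prop where
  one : 1 ∈ C
  mul : ∀ a ∈ C, ∀ b ∈ C, a * b ∈ C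
  conj : ∀ u x, Q u = 0 → polar Q u x = 0 → ∀ D ∈ C, eE Q u x * D * eE Q u (-x) ∈ C

variable {C : Submodule F (End F U)} {D : End F U} {u : U}

omit [FiniteDimensional F U] in
theorem Inv.tt_mem (hC : Inv Q C) (h2 : (2 : F) ≠ 0) (hu : Q u = 0) {x : U} (hx : polar Q u x = 0)
    (hD : D ∈ C) : sk (polarBilin Q) u x * D * sk (polarBilin Q) u x +
      Q x • (ro (polarBilin Q) u u * D + D * ro (polarBilin Q) u u) -
      (Q x * Q x) • (ro (polarBilin Q) u u * D * ro (polarBilin Q) u u) ∈ C := by
  have h1 := hC.conj u x hu hx D hD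
  have h3 := hC.conj u (-x) hu (by simp [hx]) D hD
  rw [neg_neg] at h3
  rw [eE_neg, eE] at h1 h3
  convert C.smul_mem (2 : F)⁻¹ (C.sub_mem (C.smul_mem 2 hD) (C.add_mem h1 h3)) using 1
  rw [eq_inv_smul_iff₀ h2]
  simp only [mul_add, add_mul, mul_sub, sub_mul, smul_mul_assoc, mul_smul_comm, one_mul, mul_one]
  module

theorem Inv.ro_mem_of_ne (hC : Inv Q C) (hQ : Big Q) (hu : Q u = 0) (hD : D ∈ C)
    (h : polar Q (D u) u ≠ 0) : ro (polarBilin Q) u u ∈ C := by
  obtain ⟨x, hx, h1⟩ := exists_nonsingular_orth hQ.nd hQ.three hu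
  have huu : polar Q u u = 0 := by rw [polar_self', hu, mul_zero]
  have h1' : polar Q x u = 0 := by rwa [polar_comm]
  rcases hQ.big with h4 | ⟨t, ht0, ht⟩
  · obtain ⟨y, hy, h5, h6⟩ := exists_nonsingular_orth₄ hQ.nd hQ.two h4 hx h1
    convert C.smul_mem (2 * Q x * Q y * polar Q (D u) u)⁻¹
      (hC.tt_mem hQ.two hu h5 (hC.tt_mem hQ.two hu h1 hD)) using 1
    rw [eq_inv_smul_iff₀ (mul_ne_zero (mul_ne_zero (mul_ne_zero hQ.two hx) hy) h)]
    ext v
    simp only [LinearMap.add_apply, LinearMap.smul_apply, ro_apply, LinearMap.sub_apply, sk_apply,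
      End.mul_apply, map_sub, map_add, map_smul, polarBilin_apply_apply, huu, h1, h1', h5, h6,
      polar_comm Q y u, polar_comm Q y x, smul_eq_mul, zero_smul, smul_zero, sub_zero, mul_zero,
      polar_sub_left, polar_add_left, polar_smul_left', map_zero, polar_zero_left]
    module
  · convert C.smul_mem (t * t * (1 - t * t) * (Q x * Q x) * polar Q (D u) u)⁻¹
      (C.sub_mem (hC.tt_mem hQ.two hu (x := t • x) (by simp [h1]) hD)
        (C.smul_mem (t * t) (hC.tt_mem hQ.two hu h1 hD))) using 1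
    rw [eq_inv_smul_iff₀ (mul_ne_zero (mul_ne_zero (mul_ne_zero (mul_ne_zero ht0 ht0)
      (sub_ne_zero.2 ht.symm)) (mul_ne_zero hx hx)) h)]
    ext v
    simp only [LinearMap.add_apply, LinearMap.smul_apply, ro_apply, LinearMap.sub_apply, sk_apply,
      End.mul_apply, map_sub, map_add, map_smul, polarBilin_apply_apply, Q_smul,
      smul_eq_mul, polar_sub_left, polar_add_left, polar_smul_left', polar_smul_right']
    module

/-- A non-scalar `Ω(U)`-invariant subalgebra of `End U` is everything. -/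
theorem Inv.ro_mem (hC : Inv Q C) (hQ : Big Q)
    (h5 : ∀ u d, Q u = 0 → Q d = 0 → polar Q u d = 0 → u ≠ 0 → d ∉ F ∙ u → 5 ≤ finrank F U)
    (hD : D ∈ C) (hD' : ∀ c : F, D ≠ c • 1) (x y : U) : ro (polarBilin Q) x y ∈ C := by
  suffices ∃ u, u ≠ 0 ∧ Q u = 0 ∧ ro (polarBilin Q) u u ∈ C by
    obtain ⟨u, hu0, hu, h⟩ := this
    have key : ∀ u v, Q v = 0 → polar Q v u ≠ 0 → ro (polarBilin Q) u u ∈ C →
        ro (polarBilin Q) v v ∈ C := fun u v hv h1 h2 =>
      hC.ro_mem_of_ne hQ hv h2 (by simp [h1, polar_comm Q u v])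
    refine ro_mem_of_singular hQ.nd hQ.hyp C hC.mul (fun v hv => ?_) x y
    by_cases hv0 : v = 0
    · convert C.zero_mem
      ext
      simp [hv0]
    by_cases h1 : polar Q u v = 0
    · obtain ⟨z, hz, h2, h3⟩ := exists_singular_not_orth hQ.nd hu hu0 hv0 h1
      exact key z v hv h3 (key u z hz (by rwa [polar_comm]) h)
    · exact key u v hv (by rwa [polar_comm]) h
  by_contra! H
  have h1 : ∀ E ∈ C, ∀ u, Q u = 0 → polar Q (E u) u = 0 := fun E hE u hu => by
    by_contra h
    exact H u (by rintro rfl; simp at h) hu (hC.ro_mem_of_ne hQ hu hE h)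
  obtain ⟨μ, hμ⟩ := hQ.quad_eq (polarBilin Q ∘ₗ D) (h1 D hD)
  have hE : D - (μ / 2) • 1 ∈ C := C.sub_mem hD (C.smul_mem _ hC.one)
  have h2 : ∀ w, polar Q ((D - (μ / 2) • 1 : End F U) w) w = 0 := fun w => by
    have := hμ w
    simp only [LinearMap.comp_apply, polarBilin_apply_apply] at this
    simp only [LinearMap.sub_apply, LinearMap.smul_apply, End.one_apply, polar_sub_left, this,
      polar_smul_left', polar_self']
    field_simp [hQ.two]
    ring
  have h3 := fun e => hD' (μ / 2) (sub_eq_zero.1 e)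
  generalize D - (μ / 2) • 1 = E at hE h2 h3
  have h4 : ∀ v w, polar Q (E v) w = -polar Q v (E w) := fun v w => by
    have := h2 (v + w)
    simp only [map_add, polar_add_left, polar_add_right, h2] at this
    rw [polar_comm Q v]
    linear_combination this
  obtain ⟨u, hu, hu'⟩ : ∃ u, Q u = 0 ∧ E u ∉ F ∙ u := by
    by_contra! H'
    obtain ⟨e, e', h⟩ := hQ.hyp
    refine h3 (LinearMap.ext fun w => mem_of_singular h ⊤ (LinearMap.ker E) trivial trivial
      (fun u _ hu => ?_) (Submodule.mem_top (x := w)))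
    by_contra h0
    obtain ⟨u', h'⟩ := exists_isHyp hQ.nd hu (by rintro rfl; simp at h0)
    obtain ⟨x, hx, h6⟩ := exists_nonsingular_orth hQ.nd hQ.three hu
    have h7 := h'.hproj_mem x
    have h8 : Q (hproj Q u u' x) = Q x := by
      rw [h'.Q_eq x, polar_comm Q x u, h6, mul_zero, zero_add]
    generalize hproj Q u u' x = x' at h7 h8
    obtain ⟨a, ha⟩ := Submodule.mem_span_singleton.1 (H' u hu)
    obtain ⟨b, hb⟩ := Submodule.mem_span_singleton.1 (H' u' h'.right)
    obtain ⟨c, hc⟩ := Submodule.mem_span_singleton.1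
      (H' _ ((h'.Q_comb (-Q x') 1 h7).trans (by ring)))
    have a1 := h4 u u'
    have a2 := congrArg (polar Q · u) hc
    have a3 := congrArg (polar Q · u') hc
    simp only [map_add, map_smul, ← ha, ← hb, polar_smul_left', polar_smul_right', polar_add_left,
      h4 x', h'.pol, h'.pol', h'.polar_left, h'.polar_right, h7.1, h7.2, h8] at a1 a2 a3
    have : a = 0 := mul_left_cancel₀ (mul_ne_zero hQ.two hx)
      (by linear_combination Q x * a1 + Q x * a2 + a3)
    exact h0 (by rw [LinearMap.mem_ker, ← ha, this, zero_smul])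
  have hu0 : u ≠ 0 := by rintro rfl; simp at hu'
  have h6 : polar Q u (E u) = 0 := by rw [polar_comm, h2]
  have h7 : Q (E u) = 0 := by
    have := h1 _ (hC.mul _ hE _ hE) u hu
    rwa [End.mul_apply, h4, polar_self', neg_eq_zero, mul_eq_zero, or_iff_right hQ.two] at this
  obtain ⟨x, hx, h8, h9⟩ := exists_nonsingular_orth₅ hQ.nd (h5 u _ hu h7 h6 hu0 hu') u (E u)
  obtain ⟨x', h10, h11⟩ := exists_orth_eq_one hQ.nd (polarBilin_isRefl Q) hu'
  have h12 : polar Q u x' = 0 := h11 u rfl
  have huu : polar Q u u = 0 := by rw [polar_self', hu, mul_zero]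
  have key : ∀ x, polar Q u x = 0 →
      sk (polarBilin Q) u (Q x • E u - polar Q (E u) x • x) ∈ C := fun x hx => by
    convert hC.tt_mem hQ.two hu hx hE using 1
    ext v
    simp only [LinearMap.add_apply, LinearMap.smul_apply, ro_apply, LinearMap.sub_apply, sk_apply,
      End.mul_apply, map_sub, map_add, map_smul, polarBilin_apply_apply, h2, h4 v u, h4 x u,
      smul_eq_mul, polar_sub_left, polar_add_left, polar_smul_left', polar_smul_right',
      polar_sub_right, polar_comm Q x (E u)]
    module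
  refine H u hu0 hu ?_
  convert C.smul_mem (Q x)⁻¹ (hC.mul _ (key x h8) _ (key x' h12)) using 1
  rw [eq_inv_smul_iff₀ hx]
  ext v
  simp only [LinearMap.smul_apply, ro_apply, sk_apply, End.mul_apply, map_sub, map_smul,
    polarBilin_apply_apply, h9, show polar Q (E u) x' = 1 from h10, h2, huu, h6, h12,
    polar_comm Q x' u, polar_comm Q x' (E u), polar_self', h7, polar_sub_left, polar_smul_left',
    polar_smul_right', polar_sub_right, zero_smul, sub_zero, smul_eq_mul]
  module

end Cfsg.Agent.H79
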