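import Mathlib
import Cfsg.Agent.H79.TenOAlg

/-! Maximality of `O(U) ⊗ O(W)` in `Ω(U ⊗ W)` in odd characteristic. -/

set_option autoImplicit false

namespace Cfsg.Agent.H79

open Module TensorProduct QuadraticMap H30 H36 H27

variable {F U W : Type*} [Field F] [AddCommGroup U] [Module F U] [AddCommGroup W] [Module F W]

/-- `z₁, z₂` span a totally singular line. -/
structure TL (Q : QuadraticForm F W) (z₁ z₂ : W) : Prop where
  s₁ : Q z₁ = 0
  s₂ : Q z₂ = 0
  o : polar Q z₁ z₂ = 0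
  d₁ : ∃ y, polar Q z₁ y = 1 ∧ polar Q z₂ y = 0
  d₂ : ∃ y, polar Q z₁ y = 0 ∧ polar Q z₂ y = 1

theorem TL.of_notMem [FiniteDimensional F W] {Q : QuadraticForm F W}
    (hQ : (polarBilin Q).Nondegenerate) {z₁ z₂ : W} (h1 : Q z₁ = 0) (h2 : Q z₂ = 0)
    (h : polar Q z₁ z₂ = 0) (h0 : z₁ ≠ 0) (h3 : z₂ ∉ F ∙ z₁) : TL Q z₁ z₂ := by
  obtain ⟨y, a1, a2⟩ := exists_orth_eq_one hQ (polarBilin_isRefl Q) h3
  obtain ⟨y', a3, a4⟩ := exists_orth_eq_one hQ (polarBilin_isRefl Q) (s := {z₂}) (x := z₁) fun e => by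
    obtain ⟨c, rfl⟩ := Submodule.mem_span_singleton.1 e
    exact h3 (Submodule.mem_span_singleton.2 ⟨c⁻¹, inv_smul_smul₀ (left_ne_zero_of_smul h0) _⟩)
  exact ⟨h1, h2, h, ⟨y', a3, a4 _ rfl⟩, ⟨y, a2 _ rfl, a1⟩⟩

theorem lTensor_sk (h : LinearMap.BilinForm F W) (z₁ z₂ : W) (p : U ⊗[F] W) :
    (sk h z₁ z₂).lTensor U p = cR h U z₁ p ⊗ₜ z₂ - cR h U z₂ p ⊗ₜ z₁ := by
  rw [sk, LinearMap.lTensor_sub, LinearMap.sub_apply, lTensor_ro, lTensor_ro]

theorem polar_eE (Q : QuadraticForm F U) (u x y w : U) : polar Q (eE Q u x y) w = polar Q y w +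
    polar Q y u * polar Q x w - polar Q y x * polar Q u w - Q x * polar Q y u * polar Q u w := by
  simp only [eE_apply, polar_sub_left, polar_add_left, polar_smul_left']
  ring

/-- A group of isometries of `U ⊗ W` containing `Ω(U) ⊗ Ω(W)`. -/
structure TO (Q₁ : QuadraticForm F U) (Q₂ : QuadraticForm F W) (Q : QuadraticForm F (U ⊗[F] W))
    (X : Subgroup (End F (U ⊗[F] W))ˣ) : Prop where
  big : Big Q₁
  line : ∀ u d, Q₁ u = 0 → Q₁ d = 0 → polar Q₁ u d = 0 → u ≠ 0 → d ∉ F ∙ u → 5 ≤ finrank F U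
  nd : (polarBilin Q₂).Nondegenerate
  five : 5 ≤ finrank F W
  lt : finrank F U < finrank F W
  pol : ∀ p q, polar Q p q = tB (polarBilin Q₁) (polarBilin Q₂) p q
  iso : ∀ g, InG X g → ∀ p, Q (g p) = Q p
  left : ∀ σ ∈ eichGroup Q₁, InG X (σ.1.toLinearMap.rTensor W)
  right : ∀ σ ∈ eichGroup Q₂, InG X (σ.1.toLinearMap.lTensor U)

variable {Q₁ : QuadraticForm F U} {Q₂ : QuadraticForm F W} {Q : QuadraticForm F (U ⊗[F] W)}
  {X : Subgroup (End F (U ⊗[F] W))ˣ} {z z₁ z₂ : W} {g g' B : End F (U ⊗[F] W)}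

theorem Q_tmul (h2 : (2 : F) ≠ 0)
    (pol : ∀ p q, polar Q p q = tB (polarBilin Q₁) (polarBilin Q₂) p q) (x : U) (w : W) :
    Q (x ⊗ₜ w) = 2 * Q₁ x * Q₂ w := mul_left_cancel₀ h2 (by
  rw [← polar_self', pol, tB_tmul, polarBilin_apply_apply, polarBilin_apply_apply, polar_self',
    polar_self']
  ring)

variable [FiniteDimensional F U] [FiniteDimensional F W]

namespace TO

variable (hS : TO Q₁ Q₂ Q X)
include hS

omit [FiniteDimensional F W] in
theorem gd_iff : Gd Q z ↔ Q₂ z = 0 := by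
  refine ⟨fun h => ?_, fun h x => by rw [Q_tmul hS.big.two hS.pol, h, mul_zero]⟩
  obtain ⟨x, hx⟩ := exists_nonsingular hS.big.nd hS.big.three
  simpa [Q_tmul hS.big.two hS.pol, hS.big.two, hx] using h x

omit [FiniteDimensional F U] [FiniteDimensional F W] in
theorem eE_left {u x : U} (hu : Q₁ u = 0) (hx : polar Q₁ u x = 0) :
    InG X ((eE Q₁ u x).rTensor W) := eich_eq_eE hu hx ▸ hS.left _ (eich_mem_eichGroup u x)

omit [FiniteDimensional F U] [FiniteDimensional F W] in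
theorem eE_right {v : W} (hz : Q₂ z = 0) (hv : polar Q₂ z v = 0) :
    InG X ((eE Q₂ z v).lTensor U) := eich_eq_eE hz hv ▸ hS.right _ (eich_mem_eichGroup z v)

variable [Finite F]

omit [FiniteDimensional F U] in
theorem exists_apply_eq {z' : W} (hz0 : z ≠ 0) (hz0' : z' ≠ 0) (hz : Q₂ z = 0) (hz' : Q₂ z' = 0) :
    ∃ β : End F W, InG X (β.lTensor U) ∧ β z = z' := by
  obtain ⟨σ, hσ⟩ := witt_one hS.nd hz0 hz0' (hz.trans hz'.symm)
  obtain ⟨y, hy⟩ := exists_isHyp hS.nd hz hz0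
  have := hS.five
  obtain ⟨k, hk, h1⟩ := exists_kerDS_eq_on_of_nondegOn hS.nd {z} (hy.nondegOn_hperp hS.nd)
    (by have := hy.finrank_hperp; omega) (by rintro _ rfl w hw; rw [polar_comm]; exact hw.1) σ
  exact ⟨_, hS.right k (eichGroup_eq_kerDS hS.nd (not_isExc_of_two hS.big.two) (by omega) ▸ hk),
    (h1 z rfl).trans hσ⟩

theorem tc : TC (polarBilin Q₁) (polarBilin Q₂) Q X where
  fnd := hS.big.nd
  hnd := hS.nd
  frefl := polarBilin_isRefl Q₁
  hrefl := polarBilin_isRefl Q₂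
  nt := nontrivial_of_finrank_pos (R := F) (by have := hS.big.three; omega)
  five := hS.five
  pol := hS.pol
  iso := hS.iso
  eich z v hz hv := by
    have h1 := hS.gd_iff.1 hz
    have h2 : polar Q₂ z v = 0 := by rwa [polar_comm]
    refine ⟨_, hS.eE_right h1 h2, by simp [eE_apply, polar_self', h1, h2], fun w =>
      ⟨-polar Q₂ w v - Q₂ v * polar Q₂ w z, ?_⟩⟩
    rw [eE_apply, polarBilin_apply_apply]
    module
  ex z z' := by
    have h1 := finrank_add_finrank_perp hS.nd (Submodule.span F {z, z'})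
    have h4 : finrank F (Submodule.span F ({z, z'} : Set W)) ≤ 2 := by
      classical
      refine (finrank_span_le_card _).trans ?_
      rw [Set.toFinset_insert, Set.toFinset_singleton]
      exact Finset.card_le_two
    obtain ⟨e, h2, h3, h5⟩ := exists_singular_mem Q₂ (perp Q₂ (Submodule.span F {z, z'}))
      (by have := hS.five; omega)
    exact ⟨e, h3, hS.gd_iff.2 h5, mem_perp.1 h2 z (Submodule.subset_span (by simp)),
      mem_perp.1 h2 z' (Submodule.subset_span (by simp))⟩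
  hyp e y he hy := ⟨-Q₂ y, hS.gd_iff.2 (by
    rw [neg_smul, ← sub_eq_add_neg]
    exact (exists_isHyp_of_polar (hS.gd_iff.1 he) (by rwa [polar_comm])).right)⟩
  trans z z' hz hz' h1 h2 := by
    obtain ⟨β, h3, h4⟩ := hS.exists_apply_eq hz hz' (hS.gd_iff.1 h1) (hS.gd_iff.1 h2)
    exact ⟨β, 1, one_ne_zero, h3, by rw [h4, one_smul]⟩

theorem scalar (hX : ¬ eichGroup Q ≤ X.comap (oU Q)) : ∀ D ∈ Mp hS.tc, ∃ c : F, D = c • 1 := by
  by_contra! H
  obtain ⟨D, hD, hD'⟩ := H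
  exact hX (hS.tc.eichGroup_le (Inv.ro_mem ⟨hS.tc.one_mem, fun _ ha _ hb => hS.tc.mul_mem ha hb,
    fun u x hu hx _ hE => hS.tc.conj_mem hE (hS.eE_left hu hx) (eE_mul_neg hu hx)⟩ hS.big hS.line
    hD hD'))

theorem exists_tl (hz : Q₂ z = 0) (hz0 : z ≠ 0) : ∃ e e', TL Q₂ z e ∧ H30.IsHyp Q₂ e e' ∧
    polar Q₂ z e' = 0 := by
  obtain ⟨z', hz'⟩ := exists_apply_eq_one' hS.nd hz0
  obtain ⟨e, he0, he, h1, h2⟩ := hS.tc.ex z z'
  have h4 : e ∉ F ∙ z := fun h4 => by
    obtain ⟨c, rfl⟩ := Submodule.mem_span_singleton.1 h4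
    rw [map_smul, hz', smul_eq_mul, mul_one] at h2
    simp [h2] at he0
  obtain ⟨e', he', h5, h6⟩ := hS.tc.exists_partner he (s := {z}) (by simpa using h1) h4
  exact ⟨e, e', TL.of_notMem hS.nd hz (hS.gd_iff.1 he) h1 hz0 h4,
    ⟨hS.gd_iff.1 he, hS.gd_iff.1 he', h5⟩, h6 z rfl⟩

variable (hX : ¬ eichGroup Q ≤ X.comap (oU Q))
include hX

/-- The pointwise stabiliser of `U ⊗ z` lies in `1 ⊗ End W`. -/
theorem exists_eq_lTensor (hz : Gd Q z) (hz0 : z ≠ 0) (hg : InG X g)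
    (hfix : ∀ x, g (x ⊗ₜ z) = x ⊗ₜ z) : ∃ β : End F W, g = β.lTensor U := by
  obtain ⟨g', -, e1, e2⟩ := inG_exists_inv hg
  have h2 := hS.big.two
  let C : Submodule F (End F U) :=
    { carrier := {γ | g * γ.rTensor W = γ.rTensor W * g}
      add_mem' := fun {a b} ha hb => by
        simp only [Set.mem_ofPred_eq, LinearMap.rTensor_add, mul_add, add_mul] at ha hb ⊢
        rw [ha, hb]
      zero_mem' := by simp
      smul_mem' := fun c a ha => by
        simp only [Set.mem_ofPred_eq, LinearMap.rTensor_smul, mul_smul_comm, smul_mul_assoc] at ha ⊢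
        rw [ha] }
  refine H27.exists_eq_lTensor hS.big.nd g fun y => ro_mem_of_singular hS.big.nd hS.big.hyp C
    (fun a ha b hb => ?_) (fun u hu => ?_) y y
  · change g * _ = _ * g at ha hb ⊢
    rw [LinearMap.rTensor_mul, ← mul_assoc, ha, mul_assoc, hb, mul_assoc]
  change g * _ = _ * g
  by_cases hu0 : u = 0
  · simp [hu0, show ro (polarBilin Q₁) 0 0 = 0 from LinearMap.ext fun x => by simp]
  obtain ⟨u', h⟩ := exists_isHyp hS.big.nd hu hu0
  obtain ⟨x, hx, hxQ⟩ := (h.nondegOn_hperp hS.big.nd).exists_Q_ne_zero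
    (ne_bot_of_finrank_pos (by have := h.finrank_hperp; have := hS.big.three; omega))
  have hux : polar Q₁ u x = 0 := by rw [polar_comm]; exact hx.1
  have hux' : polar Q₁ u' x = 0 := by rw [polar_comm]; exact hx.2
  let N : U → End F (U ⊗[F] W) := fun x => g * (sk (polarBilin Q₁) u x).rTensor W * g'
  set R : End F (U ⊗[F] W) := g * (ro (polarBilin Q₁) u u).rTensor W * g' with hR
  have key : ∀ x, polar Q₁ u x = 0 → ∀ t : F, ∃ β : End F W, ∀ y v,
      y ⊗ₜ v + t • N x (y ⊗ₜ v) - (t * t * Q₁ x) • R (y ⊗ₜ v) = eE Q₁ u (t • x) y ⊗ₜ β v :=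
    fun x hx t => by
      obtain ⟨β, hβ⟩ := hS.tc.exists_conj_eq (hS.scalar hX) hz hz0 hg hfix
        (hS.eE_left hu (x := t • x) (by simp [hx]))
      refine ⟨β, fun y v => ?_⟩
      have := LinearMap.congr_fun hβ (g' (y ⊗ₜ v))
      rw [End.mul_apply _ g, ← End.mul_apply g g', e1, End.one_apply, map_tmul] at this
      rw [← this, eE, show sk (polarBilin Q₁) u (t • x) = t • sk (polarBilin Q₁) u x from
        LinearMap.ext fun w => by simp [smul_sub, smul_smul, mul_comm t]]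
      simp only [N, hR, LinearMap.rTensor_sub, LinearMap.rTensor_add, LinearMap.rTensor_smul,
        End.mul_apply, End.one_eq_id, LinearMap.rTensor_id, LinearMap.sub_apply, map_sub,
        LinearMap.add_apply, LinearMap.id_apply, map_add, LinearMap.smul_apply, map_smul, Q_smul,
        ← End.mul_apply g g', e1]
  obtain ⟨β, hβ⟩ := key x hux 1
  obtain ⟨β', hβ'⟩ := key x hux (-1)
  have h3 : ∀ v, β' v = β v := fun v => by
    have a1 := congrArg (cL (polarBilin Q₁) W x) (hβ u' v)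
    have a2 := congrArg (cL (polarBilin Q₁) W x) (hβ' u' v)
    rcases hS.big.big with h4 | ⟨t, ht0, ht⟩
    · obtain ⟨x', a3, a4, a5⟩ := exists_nonsingular_orth₄ hS.big.nd h2 h4 hxQ hux
      obtain ⟨γ, hγ⟩ := key x' a4 1
      obtain ⟨γ', hγ'⟩ := key x' a4 (-1)
      have a6 := congrArg (cL (polarBilin Q₁) W x) (hγ u' v)
      have a7 := congrArg (cL (polarBilin Q₁) W x) (hγ' u' v)
      simp only [map_sub, map_add, map_smul, cL_tmul, polarBilin_apply_apply, polar_eE, h.pol',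
        polar_smul_left', hux, hux', polar_comm Q₁ x' x, a5,
        polar_self', polar_smul_right'] at a1 a2 a6 a7
      refine smul_right_injective W (mul_ne_zero (mul_ne_zero h2 hxQ) a3) ?_
      linear_combination (norm := module) Q₁ x' • a1 + Q₁ x' • a2 - Q₁ x • a6 - Q₁ x • a7
    · obtain ⟨γ, hγ⟩ := key x hux t
      have a3 := congrArg (cL (polarBilin Q₁) W x) (hγ u' v)
      have b1 := congrArg (cL (polarBilin Q₁) W u') (hβ u' v)
      have b2 := congrArg (cL (polarBilin Q₁) W u') (hβ' u' v)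
      have b3 := congrArg (cL (polarBilin Q₁) W u') (hγ u' v)
      simp only [map_sub, map_add, map_smul, cL_tmul, polarBilin_apply_apply, polar_eE, h.pol',
        polar_smul_left', hux, hux', hx.2, h.pol, h.right,
        polar_self', polar_smul_right', Q_smul] at a1 a2 a3 b1 b2 b3
      refine smul_right_injective W (mul_ne_zero (mul_ne_zero (mul_ne_zero h2 hxQ) ht0)
        (sub_ne_zero.2 ht)) ?_
      linear_combination (norm := module) (t * (t * t + t)) • a1 + (t * (t * t - t)) • a2 -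
        (2 * t) • a3 + (2 * (t * t + t)) • b1 + (2 * (t * t - t)) • b2 - (4 : F) • b3
  have h4 : ∀ y v, N x (y ⊗ₜ v) = sk (polarBilin Q₁) u x y ⊗ₜ β v := fun y v => by
    refine smul_right_injective _ h2 ?_
    have a1 := hβ y v
    have a2 := hβ' y v
    simp only [h3, neg_smul, one_smul, eE_neg] at a2
    simp only [one_smul, eE] at a1
    simp only [LinearMap.sub_apply, LinearMap.add_apply, sub_tmul, add_tmul] at a1 a2
    linear_combination (norm := module) a1 - a2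
  have h5 : N x * N x = -(2 * Q₁ x) • R := by
    have : sk (polarBilin Q₁) u x * sk (polarBilin Q₁) u x =
        -(2 * Q₁ x) • ro (polarBilin Q₁) u u := by
      ext w
      simp [hux, hx.1, polar_self', hu, smul_smul, mul_comm]
    rw [hR, ← smul_mul_assoc, ← mul_smul_comm, ← LinearMap.rTensor_smul, ← this,
      LinearMap.rTensor_mul]
    simp only [N, mul_assoc, ← mul_assoc g' g, e2, one_mul]
  have h6 : ∀ v, β v = v := fun v => by
    have a1 := LinearMap.congr_fun h5 (u ⊗ₜ v)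
    have a2 := hβ u v
    simp only [End.mul_apply, h4, sk_apply, polarBilin_apply_apply, h.polar_left, hux, zero_smul,
      sub_zero, zero_tmul, map_zero, LinearMap.smul_apply, eE_apply, smul_zero, add_zero,
      one_smul] at a1 a2
    rw [(smul_eq_zero.1 a1.symm).resolve_left (by simp [h2, hxQ]), smul_zero, sub_zero] at a2
    exact (tmul_left_inj hS.big.nd hu0 a2).symm
  have h7 : R = (ro (polarBilin Q₁) u u).rTensor W := TensorProduct.ext' fun y v => by
    refine smul_right_injective _ hxQ ?_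
    have a1 := hβ y v
    simp only [one_smul, eE, h4, h6, LinearMap.sub_apply, LinearMap.add_apply, sub_tmul, add_tmul,
      one_mul, End.one_apply, LinearMap.smul_apply, ← smul_tmul'] at a1
    exact sub_right_injective a1
  rw [← h7, hR, mul_assoc _ g', e2, mul_one, ← hR, h7]

omit hX in
theorem isoG : IsoG (tB (polarBilin Q₁) (polarBilin Q₂)) X := fun _ hg => hS.tc.iso' hg

omit hX [Finite F] [FiniteDimensional F U] [FiniteDimensional F W] in
theorem qt (h : TL Q₂ z₁ z₂) : QT F X ((sk (polarBilin Q₂) z₁ z₂).lTensor U) :=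
  ⟨LinearMap.ext fun p => by
    simp [lTensor_sk, polar_self', h.s₁, h.s₂, h.o, polar_comm Q₂ z₂ z₁], fun c => by
    convert hS.eE_right h.s₁ (v := c • z₂) (by simp [h.o]) using 1
    refine TensorProduct.ext' fun x w => ?_
    simp [eE_apply, Q_smul, h.s₂, tmul_add, tmul_sub, smul_sub, smul_smul, mul_comm c]⟩

omit hX in
/-- The commutator space of a quadratic element is totally singular. -/
theorem Q_apply (hB : QT F X B) (p : U ⊗[F] W) : Q (B p) = 0 := by
  refine mul_left_cancel₀ hS.big.two ?_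
  rw [← polar_self', hS.pol, hS.isoG.skew hS.big.two hB, ← End.mul_apply, hB.sq]
  simp

/-- The long root elements of `1 ⊗ Ω(W)`. -/
def _root_.Cfsg.Agent.H79.LR (U : Type*) [AddCommGroup U] [Module F U] (Q₂ : QuadraticForm F W)
    (N : End F (U ⊗[F] W)) : Prop :=
  ∃ z₁ z₂, TL Q₂ z₁ z₂ ∧ N = (sk (polarBilin Q₂) z₁ z₂).lTensor U

theorem rf : RF X (LR U Q₂) := by
  obtain ⟨x, hx⟩ := exists_nonsingular hS.big.nd hS.big.three
  have hx0 := ne_zero_of_Q_ne_zero hx
  obtain ⟨x', hx'⟩ := exists_apply_eq_one hS.big.nd hx0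
  refine ⟨?_, ?_, ?_⟩
  · rintro _ ⟨z₁, z₂, h, rfl⟩
    exact hS.qt h
  · rintro _ ⟨z₁, z₂, h, rfl⟩ e
    obtain ⟨y, h1, h2⟩ := h.d₁
    obtain ⟨y', -, h3⟩ := h.d₂
    refine tmul_ne_zero hS.big.nd hx0 (w := z₂) (by rintro rfl; simp at h3) ?_
    simpa [polar_comm Q₂ y, h1, h2] using LinearMap.congr_fun e (x ⊗ₜ y)
  rintro _ ⟨z₁, z₂, h, rfl⟩ n hn hr
  obtain ⟨y₁, h1, h2⟩ := h.d₁
  obtain ⟨y₂, h3, h4⟩ := h.d₂
  have hA := hS.qt h
  have hsk := hS.isoG.skew hS.big.two hA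
  obtain ⟨β, hβ⟩ := hS.exists_eq_lTensor hX (hS.gd_iff.2 h.s₁) (by rintro rfl; simp at h1) hn
    fun y => by
      rw [LinearMap.add_apply, hsk.apply_eq_zero (tB_nondegenerate hS.big.nd hS.nd)
        (LinearMap.congr_fun hA.sq) (hS.isoG _ hn) hr (by simp [polar_self', h.s₁, h.o]), add_zero,
        End.one_apply]
  have h5 : ∀ y w, n (y ⊗ₜ w) = y ⊗ₜ (β w - w) := fun y w => by
    rw [tmul_sub]
    exact eq_sub_of_add_eq' (LinearMap.congr_fun hβ (y ⊗ₜ w))
  have h6 : ∀ w, β w - w = polar Q₂ (β w - w) y₁ • z₁ + polar Q₂ (β w - w) y₂ • z₂ := fun w => by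
    obtain ⟨q, hq⟩ := hr (x ⊗ₜ w)
    have := congrArg (cL (polarBilin Q₁) W x') hq
    rw [h5, lTensor_sk, map_sub, cL_tmul, cL_tmul, cL_tmul, hx', one_smul] at this
    rw [← this]
    simp only [polar_sub_left, polar_smul_left', h1, h2, h3, h4]
    module
  have h7 : ∀ w w', polar Q₂ (β w - w) w' = -polar Q₂ w (β w' - w') := fun w w' => by
    have := skew3 (hS.isoG _ hn) (x ⊗ₜ w) (x' ⊗ₜ w')
    obtain ⟨q, hq⟩ := hr (x ⊗ₜ w)
    rw [(hsk.eq_zero (p := n (x ⊗ₜ w)) (by rw [← hq]; exact LinearMap.congr_fun hA.sq q)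
      (hr _)).1, h5, h5, tB_tmul,
      tB_tmul, hx', one_mul, one_mul, add_zero] at this
    exact eq_neg_of_add_eq_zero_left this
  have h8 : ∀ w, polar Q₂ (β w - w) w = 0 := fun w => mul_left_cancel₀ hS.big.two (by
    linear_combination h7 w w + polar_comm Q₂ (β w - w) w)
  refine ⟨polar Q₂ (β y₁ - y₁) y₂, TensorProduct.ext' fun y w => ?_⟩
  rw [h5, LinearMap.smul_apply, LinearMap.lTensor_tmul, ← tmul_smul, h6 w, h7, h7 w, h6 y₂,
    h7 y₂ y₁, h8, polar_comm Q₂ y₂]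
  conv_lhs => rw [h6 y₁, h8]
  congr 1
  simp only [polar_add_right, polar_smul_right', polar_add_left, polar_smul_left', h3, h4, sk_apply,
    polarBilin_apply_apply]
  module

/-- An involution centralising a long root element and trivial on `ker A / [V, A]`. -/
theorem invol_sign (h : TL Q₂ z₁ z₂) {ι : End F (U ⊗[F] W)}
    (hι : Invol X ((sk (polarBilin Q₂) z₁ z₂).lTensor U) ι) : ∃ β : End F W, ι = β.lTensor U ∧
      ∀ w, β (sk (polarBilin Q₂) z₁ z₂ w) = -sk (polarBilin Q₂) z₁ z₂ w := by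
  obtain ⟨y₁, h1, h2⟩ := h.d₁
  obtain ⟨y₂, h3, h4⟩ := h.d₂
  have hz₁ : z₁ ≠ 0 := by rintro rfl; simp at h1
  have h11 : polar Q₂ z₁ z₁ = 0 := by rw [polar_self', h.s₁, mul_zero]
  have h22 : polar Q₂ z₂ z₂ = 0 := by rw [polar_self', h.s₂, mul_zero]
  set A := (sk (polarBilin Q₂) z₁ z₂).lTensor U with hA
  have h5 : ∀ x, x ⊗ₜ z₁ = A (x ⊗ₜ (-y₂)) := fun x => by simp [hA, polar_comm Q₂ y₂, h3, h4]
  obtain ⟨β, hβ⟩ : ∃ β : End F W, ι = β.lTensor U := by
    obtain ⟨y, hy, h6, h7⟩ := exists_nonsingular_orth₅ hS.nd hS.five z₁ z₂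
    have h8 : ∀ p, (eE Q₂ z₁ y).lTensor U (A p) = A p := fun p => by
      simp [hA, lTensor_sk, eE_apply, h6, h7, h11, polar_comm Q₂ z₂ z₁, h.o]
    obtain ⟨γ, hγ⟩ := hS.exists_eq_lTensor hX (hS.gd_iff.2 h.s₁) hz₁
      ((hι.mem.mul (hS.eE_right h.s₁ h6)).mul hι.mem) fun x => by
        rw [End.mul_apply, End.mul_apply, h5, hι.comm, h8, ← hι.comm, hι.sq]
    have h9 : ∀ x, ι (x ⊗ₜ z₁) = x ⊗ₜ ((2 * Q₂ y)⁻¹ • (y - γ y)) := fun x => by
      obtain ⟨q, hq⟩ := hι.triv (x ⊗ₜ y) (by simp [hA, polar_comm Q₂ y, h6, h7])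
      have := LinearMap.congr_fun hγ (x ⊗ₜ y)
      rw [End.mul_apply, End.mul_apply, eq_add_of_sub_eq hq.symm, map_add, h8,
        LinearMap.lTensor_tmul, eE_apply, polar_comm Q₂ y z₁, h6, zero_smul, zero_smul, smul_zero,
        sub_zero, zero_sub, tmul_add, ← add_assoc, ← eq_add_of_sub_eq hq.symm, map_add, hι.sq,
        LinearMap.lTensor_tmul, polar_self', tmul_neg, tmul_smul, map_neg, map_smul] at this
      rw [tmul_smul, eq_inv_smul_iff₀ (mul_ne_zero hS.big.two hy), tmul_sub, ← this]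
      abel
    generalize (2 * Q₂ y)⁻¹ • (y - γ y) = z' at h9
    by_cases h10 : z₁ + z' = 0
    · obtain ⟨δ, a1, a2⟩ := hS.exists_apply_eq hz₁ (neg_ne_zero.2 hz₁) h.s₁ (by simp [h.s₁])
      obtain ⟨δ', a3, -⟩ := hS.tc.exists_inv a1
      obtain ⟨ε, hε⟩ := hS.exists_eq_lTensor hX (hS.gd_iff.2 h.s₁) hz₁ (hι.mem.mul a1) fun x => by
        rw [End.mul_apply, LinearMap.lTensor_tmul, a2, tmul_neg, map_neg, h9, ← tmul_neg,
          eq_neg_of_add_eq_zero_left h10]
      exact ⟨ε * δ', by rw [LinearMap.lTensor_mul, ← hε, mul_assoc, ← LinearMap.lTensor_mul, a3,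
        End.one_eq_id, LinearMap.lTensor_id, ← End.one_eq_id, mul_one]⟩
    · refine hS.exists_eq_lTensor hX (fun x => ?_) h10 hι.mem fun x => ?_
      · rw [tmul_add, ← h9, h5, hι.comm, ← map_add]
        exact hS.Q_apply (hS.qt h) _
      · rw [tmul_add, map_add, ← h9, hι.sq, add_comm]
  subst hβ
  obtain ⟨x, hx⟩ := exists_nonsingular hS.big.nd hS.big.three
  have hx0 := ne_zero_of_Q_ne_zero hx
  set K := sk (polarBilin Q₂) z₁ z₂ with hK
  have a1 : ∀ w, β (β w) = w := fun w => tmul_left_inj hS.big.nd hx0 (hι.sq (x ⊗ₜ w))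
  have a2 : ∀ w, β (K w) = K (β w) := fun w => tmul_left_inj hS.big.nd hx0 (hι.comm (x ⊗ₜ w))
  obtain ⟨w₁, hw₁⟩ : ∃ w, K (w - β w) ≠ 0 := by
    by_contra! H
    obtain ⟨p, hp⟩ := hι.ne
    refine hp (LinearMap.congr_fun (show β.lTensor U * A = A from TensorProduct.ext' fun y w => ?_) p)
    have := H w
    rw [map_sub, sub_eq_zero, ← a2] at this
    simp only [End.mul_apply, hA, LinearMap.lTensor_tmul, ← this]
  refine ⟨β, rfl, fun w => ?_⟩
  rw [eq_neg_iff_add_eq_zero, a2, ← map_add]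
  have a3 : β (β w + w) = β w + w := by rw [map_add, a1, add_comm]
  have a4 : β (w₁ - β w₁) = -(w₁ - β w₁) := by rw [map_sub, a1, neg_sub]
  generalize β w + w = a at a3
  generalize w₁ - β w₁ = b at a4 hw₁
  have a5 := hS.tc.iso_right hι.mem (K a) b
  rw [a2, a3, a4, map_neg, neg_eq_iff_add_eq_zero, ← two_mul, mul_eq_zero,
    or_iff_right hS.big.two] at a5
  simp only [hK, sk_apply, polarBilin_apply_apply, polar_sub_left, polar_smul_left',
    polar_comm Q₂ z₁, polar_comm Q₂ z₂] at a5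
  have a6 : ∀ c d : F, c • K a = d • K b → c • K a = 0 := fun c d e => by
    have := congrArg β e
    rw [map_smul, map_smul, a2, a2, a3, a4, map_neg, smul_neg, ← e, eq_neg_iff_add_eq_zero,
      ← two_smul F, smul_eq_zero] at this
    exact this.resolve_left hS.big.two
  by_contra a7
  have a8 := a6 (polar Q₂ b z₁) (polar Q₂ a z₁) (by
    simp only [hK, sk_apply, polarBilin_apply_apply]
    linear_combination (norm := module) a5 • z₁)
  have a9 := a6 (polar Q₂ b z₂) (polar Q₂ a z₂) (by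
    simp only [hK, sk_apply, polarBilin_apply_apply]
    linear_combination (norm := module) a5 • z₂)
  exact hw₁ (by simp [hK, (smul_eq_zero.1 a8).resolve_right a7,
    (smul_eq_zero.1 a9).resolve_right a7])

theorem cls_sign (hB : Cls X (LR U Q₂) B) {ι : End F (U ⊗[F] W)} (hι : Invol X B ι)
    (p : U ⊗[F] W) : ι (B p) = -B p := by
  obtain ⟨g, g', _, hg, e1, e2, ⟨z₁, z₂, h, rfl⟩, rfl⟩ := hB
  obtain ⟨β, hβ, h1⟩ := hS.invol_sign hX h (hι.conj hg e1 e2)
  have h2 : β.lTensor U * (sk (polarBilin Q₂) z₁ z₂).lTensor U =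
      -(sk (polarBilin Q₂) z₁ z₂).lTensor U := TensorProduct.ext' fun y w => by
    simp only [End.mul_apply, LinearMap.lTensor_tmul, h1, tmul_neg, LinearMap.neg_apply]
  have := congrArg g (LinearMap.congr_fun h2 (g' p))
  rwa [← hβ, End.mul_apply, End.mul_apply, End.mul_apply, ← End.mul_apply g g', e1,
    LinearMap.neg_apply, map_neg] at this

theorem cR_eq_zero (hB : Cls X (LR U Q₂) B) (hz : Q₂ z = 0) (hz0 : z ≠ 0)
    (hn : ∀ z', TL Q₂ z z' → IsNilpotent ((sk (polarBilin Q₂) z z').lTensor U * B +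
      B * (sk (polarBilin Q₂) z z').lTensor U)) (x : U) {y : W} (hy : polar Q₂ z y = 0) :
    cR (polarBilin Q₂) U y (B (x ⊗ₜ z)) = 0 := by
  have key : ∀ z', TL Q₂ z z' → cR (polarBilin Q₂) U z (B (x ⊗ₜ z)) = 0 ∧
      cR (polarBilin Q₂) U z' (B (x ⊗ₜ z)) = 0 := fun z' h => by
    obtain ⟨y₁, h1, h2⟩ := h.d₁
    obtain ⟨y₂, h3, h4⟩ := h.d₂
    have := LinearMap.congr_fun ((hS.rf hX).triple_eq_zero hS.big.two (cls_self ⟨z, z', h, rfl⟩) hB
      (hn z' h)) (x ⊗ₜ (-y₂))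
    rw [End.mul_apply, End.mul_apply, show (sk (polarBilin Q₂) z z').lTensor U (x ⊗ₜ (-y₂)) = x ⊗ₜ z
      by simp [polar_comm Q₂ y₂, h3, h4], lTensor_sk] at this
    exact ⟨by simpa [h3, h4] using congrArg (cR (polarBilin Q₂) U y₂) this,
      by simpa [h1, h2] using congrArg (cR (polarBilin Q₂) U y₁) this⟩
  obtain ⟨e, e', h1, h2, h3⟩ := hS.exists_tl hz hz0
  refine mem_of_singular h2 (LinearMap.ker (polarBilin Q₂ z))
    (LinearMap.ker ((cR (polarBilin Q₂) U).flip (B (x ⊗ₜ z)))) h1.o h3 (fun y hy hy' => ?_) hy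
  by_cases h4 : y ∈ F ∙ z
  · obtain ⟨c, rfl⟩ := Submodule.mem_span_singleton.1 h4
    exact Submodule.smul_mem _ _ (key e h1).1
  · exact (key y (TL.of_notMem hS.nd hz hy' hy hz0 h4)).2

/-- The conjugates of the long root elements of `1 ⊗ Ω(W)` lie in `1 ⊗ End W`. -/
theorem cls_eq (hB : Cls X (LR U Q₂) B) : ∃ γ : End F W, B = γ.lTensor U := by
  by_contra hne
  have hqt := (hS.rf hX).cls.qt B hB
  have hsk := hS.isoG.skew hS.big.two hqt
  have hK : ∀ z, Q₂ z = 0 → (∀ x, B (x ⊗ₜ z) = 0) → z = 0 := fun z hz h => by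
    by_contra hz0
    obtain ⟨β, hβ⟩ := hS.exists_eq_lTensor hX (hS.gd_iff.2 hz) hz0
      (g := 1 + B) (by simpa using hqt.mem 1) fun x => by simp [h]
    exact hne ⟨β - 1, by rw [LinearMap.lTensor_sub, ← hβ, End.one_eq_id (M := W),
      LinearMap.lTensor_id, ← End.one_eq_id, add_sub_cancel_left]⟩
  obtain ⟨x₀, hx₀⟩ := exists_nonsingular hS.big.nd hS.big.three
  obtain ⟨e, e', hh⟩ := exists_isHyp_of_three_le hS.nd (by have := hS.five; omega)
  by_cases hn : ∀ z z', TL Q₂ z z' → IsNilpotent ((sk (polarBilin Q₂) z z').lTensor U * B +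
      B * (sk (polarBilin Q₂) z z').lTensor U)
  · have h1 : ∀ z, Q₂ z = 0 → z ≠ 0 → ∀ x, ∃ s, B (x ⊗ₜ z) = s ⊗ₜ z := fun z hz hz0 x => by
      obtain ⟨y, hy⟩ := exists_apply_eq_one hS.nd hz0
      exact ⟨_, eq_cR_tmul hS.big.nd hS.nd hy fun y hy => hS.cR_eq_zero hX hB hz hz0 (hn z) x hy⟩
    have h2 : ∀ z z', Q₂ z = 0 → Q₂ z' = 0 → z ≠ 0 → polar Q₂ z z' = 0 → ∀ x s,
        B (x ⊗ₜ z) = s ⊗ₜ z → B (x ⊗ₜ z') = s ⊗ₜ z' := fun z z' hz hz' hz0 h x s hs => by
      by_cases h3 : z' ∈ F ∙ z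
      · obtain ⟨c, rfl⟩ := Submodule.mem_span_singleton.1 h3
        rw [tmul_smul, map_smul, hs, tmul_smul]
      have h4 := TL.of_notMem hS.nd hz hz' h hz0 h3
      obtain ⟨y₁, a1, a2⟩ := h4.d₁
      obtain ⟨y₂, a3, a4⟩ := h4.d₂
      obtain ⟨s', hs'⟩ := h1 z' hz' (by rintro rfl; simp at a4) x
      obtain ⟨s'', hs''⟩ := h1 (z + z') (by rw [Q_add, hz, hz', h]; ring)
        (fun e => by simpa [a1, a2] using congrArg (polar Q₂ · y₁) e) x
      rw [tmul_add, map_add, hs, hs'] at hs''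
      have a5 := congrArg (cR (polarBilin Q₂) U y₁) hs''
      have a6 := congrArg (cR (polarBilin Q₂) U y₂) hs''
      simp [a1, a2, a3, a4] at a5 a6
      rw [hs', a5, a6]
    let D : End F U := cR (polarBilin Q₂) U e' ∘ₗ B ∘ₗ (TensorProduct.mk F U W).flip e
    have h3 : ∀ x w, B (x ⊗ₜ w) = D x ⊗ₜ w := fun x w => by
      have a1 : B (x ⊗ₜ e) = D x ⊗ₜ e := by
        obtain ⟨s, hs⟩ := h1 e hh.left hh.left_ne_zero x
        simp [D, hs, hh.pol]
      refine sub_eq_zero.1 (mem_of_singular hh ⊤ (LinearMap.ker (B ∘ₗ TensorProduct.mk F U W x -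
        TensorProduct.mk F U W (D x))) trivial trivial (fun z _ hz => sub_eq_zero.2 ?_)
        (Submodule.mem_top (x := w)))
      obtain ⟨v, hv0, hv, a2, a3⟩ := hS.tc.ex e z
      exact h2 v z (hS.gd_iff.1 hv) hz hv0 (by rwa [polar_comm]) x _
        (h2 e v hh.left (hS.gd_iff.1 hv) hh.left_ne_zero a2 x _ a1)
    have h4 : ∀ x y, polar Q₁ (D x) y = -polar Q₁ x (D y) := fun x y => by
      simpa [h3, hh.pol] using hsk (x ⊗ₜ e) (y ⊗ₜ e')
    have h5 : ∀ x, polar Q₁ (D x) x = 0 := fun x => mul_left_cancel₀ hS.big.two (by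
      linear_combination h4 x x + polar_comm Q₁ (D x) x)
    obtain ⟨x, hx⟩ : ∃ x, D x ≠ 0 := by
      by_contra! H
      exact (hS.rf hX).cls.ne B hB (TensorProduct.ext' fun x w => by simp [h3, H])
    obtain ⟨y, hy⟩ := exists_polar_eq_one hS.big.nd hx
    obtain ⟨g, g', _, -, -, -, ⟨z₁, z₂, -, rfl⟩, hg⟩ := hB
    have := LinearMap.finrank_le_finrank_of_injective (f := ((cR (polarBilin Q₂) U z₁).prod
      (cR (polarBilin Q₂) U z₂)) ∘ₗ g' ∘ₗ ((TensorProduct.mk F U W x).coprod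
        (TensorProduct.mk F U W y))) ((injective_iff_map_eq_zero _).2 fun ⟨w, w'⟩ hw => by
      have a1 : B (x ⊗ₜ w + y ⊗ₜ w') = 0 := by
        rw [hg, End.mul_apply, End.mul_apply, lTensor_sk,
          show cR (polarBilin Q₂) U z₁ (g' (x ⊗ₜ w + y ⊗ₜ w')) = 0 from congrArg Prod.fst hw,
          show cR (polarBilin Q₂) U z₂ (g' (x ⊗ₜ w + y ⊗ₜ w')) = 0 from congrArg Prod.snd hw]
        simp
      rw [map_add, h3, h3] at a1
      exact Prod.ext (by simpa [hy, h5] using congrArg (cL (polarBilin Q₁) W y) a1)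
        (by simpa [h4 y, polar_comm Q₁ y, hy, h5] using congrArg (cL (polarBilin Q₁) W x) a1))
    have := hS.lt
    simp only [finrank_prod] at *
    omega
  have key : ∀ z z', TL Q₂ z z' → ¬ IsNilpotent ((sk (polarBilin Q₂) z z').lTensor U * B +
      B * (sk (polarBilin Q₂) z z').lTensor U) → (∃ v, v ≠ 0 ∧ ∀ x, B (x ⊗ₜ v) = 0) ∧
      ∀ v, (∀ x, B (x ⊗ₜ v) = 0) → polar Q₂ v z = 0 := fun z z' h hn => by
    obtain ⟨ι, h1, h2, -⟩ := exists_invol hS.big.two (hS.qt h) hqt hn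
    obtain ⟨β, rfl, h3⟩ := hS.invol_sign hX h h1
    have h4 := hS.cls_sign hX hB h2
    refine ⟨?_, fun v hv => ?_⟩
    · obtain ⟨y, hy, h6, h7⟩ := exists_nonsingular_orth₅ hS.nd hS.five z z'
      refine ⟨y + β y, fun e => ?_, fun x => ?_⟩
      · obtain ⟨q, hq⟩ := h1.triv (x₀ ⊗ₜ y) (by simp [polar_comm Q₂ y, h6, h7])
        have := hS.Q_apply (hS.qt h) q
        rw [hq, LinearMap.lTensor_tmul, ← tmul_sub, eq_neg_of_add_eq_zero_right e,
          show -y - y = (-2 : F) • y by module, Q_tmul hS.big.two hS.pol, Q_smul] at this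
        simp [hS.big.two, hx₀, hy] at this
      · rw [tmul_add, map_add, ← LinearMap.lTensor_tmul, ← h2.comm, h4, add_neg_cancel]
    · have h5 := hK (β v - v) (hS.gd_iff.1 fun x => by
        obtain ⟨q, hq⟩ := h2.triv _ (hv x)
        rw [tmul_sub, ← LinearMap.lTensor_tmul, ← hq]
        exact hS.Q_apply hqt q) fun x => by
          rw [tmul_sub, map_sub, ← LinearMap.lTensor_tmul, ← h2.comm, hv, map_zero, sub_zero]
      obtain ⟨y₂, a3, a4⟩ := h.d₂
      have h6 := hS.tc.iso_right h1.mem v z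
      have h7 : β z = -z := by simpa [polar_comm Q₂ y₂, a3, a4] using h3 (-y₂)
      rwa [sub_eq_zero.1 h5, h7, map_neg, neg_eq_iff_add_eq_zero, ← two_mul, mul_eq_zero,
        or_iff_right hS.big.two] at h6
  push Not at hn
  obtain ⟨z₁, z₂, h, hn⟩ := hn
  obtain ⟨v, hv0, hv⟩ := (key z₁ z₂ h hn).1
  obtain ⟨z, hz, hzv⟩ : ∃ z, Q₂ z = 0 ∧ polar Q₂ v z ≠ 0 := by
    by_contra! H
    exact hv0 (hS.nd.1 v fun w => mem_of_singular hh ⊤ (LinearMap.ker (polarBilin Q₂ v)) trivial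
      trivial (fun z _ hz => H z hz) (Submodule.mem_top (x := w)))
  have hz0 : z ≠ 0 := by rintro rfl; simp at hzv
  refine hz0 (hK z hz fun x => eq_zero_of_cR hS.big.nd hS.nd fun y => ?_)
  have h1 := hS.cR_eq_zero hX hB hz hz0 (fun z' h' => by_contra fun h'' =>
    hzv ((key z z' h' h'').2 v hv)) x (y := y - (polar Q₂ z y / polar Q₂ v z) • v)
    (by simp [polar_comm Q₂ z v, hzv])
  have h2 : cR (polarBilin Q₂) U v (B (x ⊗ₜ z)) = 0 := hS.big.nd.1 _ fun x' => by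
    rw [← tB_cR, hsk, hv, map_zero, neg_zero]
  simpa [h2] using h1

/-- Every proper overgroup of `Ω(U) ⊗ Ω(W)` in `Ω(U ⊗ W)` preserves the tensor decomposition. -/
theorem exists_eq_map (hg : InG X g) :
    ∃ (α : End F U) (β : End F W), g = TensorProduct.map α β := by
  obtain ⟨g', hg', e1, e2⟩ := inG_exists_inv hg
  have := hS.tc.nt
  have : Nontrivial W := nontrivial_of_finrank_pos (R := F) (by have := hS.five; omega)
  let C : Submodule F (End F W) :=
    { carrier := {γ | ∃ γ' : End F W, g * γ.lTensor U = γ'.lTensor U * g}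
      add_mem' := fun {a b} ⟨a', ha⟩ ⟨b', hb⟩ => ⟨a' + b', by
        simp only [LinearMap.lTensor_add, mul_add, add_mul, ha, hb]⟩
      zero_mem' := ⟨0, by simp⟩
      smul_mem' := fun c a ⟨a', ha⟩ => ⟨c • a', by
        simp only [LinearMap.lTensor_smul, mul_smul_comm, smul_mul_assoc, ha]⟩ }
  have hmul : ∀ a ∈ C, ∀ b ∈ C, a * b ∈ C := fun a ⟨a', ha⟩ b ⟨b', hb⟩ => ⟨a' * b', by
    rw [LinearMap.lTensor_mul, ← mul_assoc, ha, mul_assoc, hb, LinearMap.lTensor_mul, mul_assoc]⟩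
  have key : ∀ z z', TL Q₂ z z' → sk (polarBilin Q₂) z z' ∈ C := fun z z' h => by
    obtain ⟨γ, hγ⟩ := hS.cls_eq hX ((cls_self ⟨z, z', h, rfl⟩).conj hg e1 e2)
    exact ⟨γ, by rw [← hγ, mul_assoc, e2, mul_one]⟩
  refine exists_eq_map_of_lTensor hS.nd e1 e2 (ro_mem_of_singular hS.nd
    (exists_isHyp_of_three_le hS.nd (by have := hS.five; omega)) C hmul fun z hz => ?_)
  by_cases hz0 : z = 0
  · convert C.zero_mem
    ext
    simp [hz0]
  obtain ⟨e, e', h1, h2, h3⟩ := hS.exists_tl hz hz0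
  convert C.neg_mem (hmul _ (key z e h1) _ (key z e' (TL.of_notMem hS.nd hz h2.right h3 hz0
    fun h => ?_))) using 1
  · ext w
    simp [polar_comm Q₂ e' z, h3, h2.pol', polar_self', hz, h1.o]
  · obtain ⟨c, rfl⟩ := Submodule.mem_span_singleton.1 h
    simpa [polar_comm Q₂ e z, h1.o] using h2.pol

end TO

section Bridge

omit [FiniteDimensional F U] [FiniteDimensional F W] in
/-- `O(U) × O(W) → O(U ⊗ W)`. -/
noncomputable def oTensor (h2 : (2 : F) ≠ 0)
    (pol : ∀ p q, polar Q p q = tB (polarBilin Q₁) (polarBilin Q₂) p q) : O Q₁ × O Q₂ →* O Q where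
  toFun g := ⟨TensorProduct.congr g.1.1 g.2.1, fun p => mul_left_cancel₀ h2 (by
    rw [← polar_self', ← polar_self', pol, pol]
    change tB _ _ (TensorProduct.map g.1.1.toLinearMap g.2.1.toLinearMap p)
      (TensorProduct.map g.1.1.toLinearMap g.2.1.toLinearMap p) = _
    rw [← LinearMap.lTensor_comp_rTensor, LinearMap.comp_apply, tB_iso_lTensor (O_polar g.2),
      tB_iso_rTensor (O_polar g.1)])⟩
  map_one' := Subtype.ext (LinearEquiv.toLinearMap_injective (TensorProduct.ext' fun _ _ => rfl))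
  map_mul' _ _ := Subtype.ext (LinearEquiv.toLinearMap_injective (TensorProduct.ext' fun _ _ => rfl))

theorem map_mem_eichGroup [Finite F] (h2 : (2 : F) ≠ 0) (h₁ : (polarBilin Q₁).Nondegenerate)
    (h₂ : (polarBilin Q₂).Nondegenerate) (h3 : 3 ≤ finrank F U) (h3' : 3 ≤ finrank F W)
    (φ : O Q₁ →* O Q₂) {σ : O Q₁} (hσ : σ ∈ eichGroup Q₁) : φ σ ∈ eichGroup Q₂ := by
  rw [← commutator_eq_eichGroup h₁ (not_isExc_of_two h2) h3] at hσ
  rw [← commutator_eq_eichGroup h₂ (not_isExc_of_two h2) h3']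
  have := Subgroup.mem_map_of_mem φ hσ
  rw [_root_.commutator_def, Subgroup.map_commutator] at this
  exact Subgroup.commutator_mono le_top le_top this

theorem exists_mul_self_ne_one {F : Type*} [Field F] [Fintype F] (h2 : (2 : F) ≠ 0)
    (h3 : Fintype.card F ≠ 3) : ∃ t : F, t ≠ 0 ∧ t * t ≠ 1 := by
  classical
  by_contra! H
  refine h3 ((Finset.card_univ (α := F)).symm.trans (Finset.card_eq_three.2 ⟨0, 1, -1, zero_ne_one,
    by simp, fun e => h2 (by linear_combination e), Finset.ext fun t => ?_⟩))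
  simpa [mul_self_eq_one_iff, or_iff_not_imp_left (a := t = 0)] using H t

variable {F : Type*} [Field F] [Fintype F] {ι : Type} [Fintype ι] [DecidableEq ι] {n₁ n₂ : ℕ}
  {f₁ : (Fin n₁ → F) → (Fin n₁ → F) → F} {f₂ : (Fin n₂ → F) → (Fin n₂ → F) → F}

omit [Fintype F] in
theorem tensorProductSubgroup_swap (e : ι ≃ Fin n₁ × Fin n₂) (P : GL ι F) :
    Geo.tensorProductSubgroup n₂ n₁ (e.trans (Equiv.prodComm _ _)) P =
      Geo.tensorProductSubgroup n₁ n₂ e P := by
  ext g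
  rw [H25.mem_tensorProductSubgroup, H25.mem_tensorProductSubgroup, exists_comm]
  refine exists_congr fun a => exists_congr fun b => Eq.congr_right ?_
  exact H25.conjT_swap (H25.frameEquiv e P) _ _

omit [Fintype F] in
theorem isTensorFormStructure_swap {σ : F → F} {f : (ι → F) → (ι → F) → F} {e : ι ≃ Fin n₁ × Fin n₂}
    {P : GL ι F} (h : Geo.IsTensorFormStructure σ f f₁ f₂ e P) :
    Geo.IsTensorFormStructure σ f f₂ f₁ (e.trans (Equiv.prodComm _ _)) P := by
  obtain ⟨c, hc, h⟩ := h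
  refine ⟨c, hc, fun x y => (h (x ∘ Prod.swap) (y ∘ Prod.swap)).trans ?_⟩
  congr 1
  refine Fintype.sum_equiv (Equiv.prodComm _ _) _ _ fun p => ?_
  refine Fintype.sum_equiv (Equiv.prodComm _ _) _ _ fun q => ?_
  simp [mul_comm (Geo.gramMatrix f₁ _ _)]

/-- The stabiliser in `Ω` of a tensor decomposition into two orthogonal spaces of dimensions
`3 ≤ n₁ < n₂`, `5 ≤ n₂`, `q` odd, is maximal unless `q = n₁ = 3` or the first factor is `O₄⁺`. -/
theorem isMaximalIn_tensor_o (hodd : Odd (Fintype.card F)) (Q : QuadraticForm F (ι → F))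
    (h3 : 3 ≤ n₁) (h5 : 5 ≤ n₂) (h12 : n₁ < n₂) (hex : ¬ (Fintype.card F = 3 ∧ n₁ = 3))
    (h4 : n₁ = 4 → ¬ Geo.IsPlusTypeOn (fun v => f₁ v v) ⊤)
    (e : ι ≃ Fin n₁ × Fin n₂) (P : GL ι F) (hf₁ : Geo.IsSymmetricForm f₁)
    (hf₂ : Geo.IsSymmetricForm f₂) (hT : Geo.IsTensorFormStructure id (polar ⇑Q) f₁ f₂ e P) :
    Geo.IsMaximalIn (Geo.omegaGL ⇑Q) (Geo.tensorProductSubgroup n₁ n₂ e P ⊓ Geo.omegaGL ⇑Q) := by
  have h2 : (2 : F) ≠ 0 := Ring.two_ne_zero fun h =>
    Nat.not_even_iff_odd.2 hodd (Nat.even_iff.2 (FiniteField.even_card_of_char_two h))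
  obtain ⟨c, hc, h⟩ := exists_tenFrame_form hf₁.bilinear hf₂.bilinear hT
  have hnd := geoBilin_nondegenerate hf₁.bilinear hf₁.nondegenerate
  have e₁ := polarBilin_halfQ (h := c • geoBilin hf₁.bilinear) h2 fun x y => by
    simp [geoBilin_apply, hf₁.symm x]
  have e₂ := polarBilin_halfQ (h := geoBilin hf₂.bilinear) h2 hf₂.symm
  have hv₁ : ∀ v, halfQ (c • geoBilin hf₁.bilinear) v = 0 → f₁ v v = 0 := fun v hv => by
    simpa [halfQ, h2, hc, geoBilin_apply] using hv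
  generalize halfQ (c • geoBilin hf₁.bilinear) = Q₁ at e₁ hv₁
  generalize halfQ (geoBilin hf₂.bilinear) = Q₂ at e₂
  have hf : (polarBilin Q₁).Nondegenerate := e₁ ▸
    ⟨fun x hx => hnd.1 x fun y => by simpa [hc] using hx y,
      fun x hx => hnd.2 x fun y => by simpa [hc] using hx y⟩
  have hh : (polarBilin Q₂).Nondegenerate :=
    e₂ ▸ geoBilin_nondegenerate hf₂.bilinear hf₂.nondegenerate
  have hpol : ∀ p q, polar (Q.comp (tenFrame e P).toLinearMap) p q =
      tB (polarBilin Q₁) (polarBilin Q₂) p q := fun p q => by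
    rw [e₁, e₂, ← h]
    simp [polar]
  have hQ : (polarBilin (Q.comp (tenFrame e P).toLinearMap)).Nondegenerate := by
    convert tB_nondegenerate hf hh
    exact LinearMap.ext₂ hpol
  have h3' : 3 ≤ finrank F (Fin n₁ → F) := by simpa
  have h5' : 5 ≤ finrank F (Fin n₂ → F) := by simpa
  have h6 : 3 ≤ finrank F ((Fin n₁ → F) ⊗[F] (Fin n₂ → F)) := by
    rw [finrank_tensorProduct]
    nlinarith
  refine isMaximalIn_tensor e P ?_ hQ ?_ fun X h7 h8 h9 g => TO.exists_eq_map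
    ⟨⟨hf, h2, h3', ?_, exists_isHyp_of_three_le hf h3'⟩, fun u d hu hd hud hu0 hd0 => ?_, hh, h5',
      by simpa, hpol, h7, fun σ hσ => h8 _ (map_mem_eichGroup h2 hf hQ h3' h6
        ((oTensor h2 hpol).comp (MonoidHom.inl _ _)) hσ) _ _ rfl, fun σ hσ => h8 _
        (map_mem_eichGroup h2 hh hQ (by omega) h6
          ((oTensor h2 hpol).comp (MonoidHom.inr _ _)) hσ) _ _ rfl⟩ h9
  · rw [Fintype.card_congr e, Fintype.card_prod, Fintype.card_fin, Fintype.card_fin]
    nlinarith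
  · obtain ⟨u, hu0, hu⟩ := exists_singular Q₁ h3'
    obtain ⟨z, hz0, hz⟩ := exists_singular Q₂ (by omega)
    obtain ⟨z', hz'⟩ := exists_apply_eq_one' hh hz0
    obtain ⟨v, a2, a3, a4⟩ := exists_orth_notMem (polarBilin Q₂) h5' z z' z z
    exact ⟨_, _, eich_ne_map hf hpol hu0 (fun x => by rw [Q_tmul h2 hpol, hz, mul_zero])
      (polarBilin_isRefl _ _ _ a2) a2 (by simp [polar_self', hz]) hz' (polarBilin_isRefl _ _ _ a3)
      (fun c e => a4 (e ▸ Submodule.smul_mem _ _ (Submodule.subset_span (by simp))))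
      (y := u) (by simp [polar_self', hu]) hu0⟩
  · by_cases hq : Fintype.card F = 3
    · left
      rw [finrank_fin_fun]
      omega
    · exact Or.inr (exists_mul_self_ne_one h2 hq)
  · have a1 : ∀ w ∈ Submodule.span F {u, d}, Q₁ w = 0 := fun w hw => by
      obtain ⟨a, b, rfl⟩ := Submodule.mem_span_pair.1 hw
      simp [Q_add, Q_smul, hu, hd, hud]
    have a2 : finrank F (Submodule.span F {u, d}) = 2 := by
      have := finrank_span_eq_card
        ((LinearIndependent.pair_iff' hu0).2 fun a e => hd0 (Submodule.mem_span_singleton.2 ⟨a, e⟩))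
      rwa [Matrix.range_cons_cons_empty] at this
    have a3 := finrank_add_finrank_perp hf (Submodule.span F {u, d})
    have a4 := Submodule.finrank_mono (show Submodule.span F {u, d} ≤
      perp Q₁ (Submodule.span F {u, d}) from fun a ha => mem_perp.2 fun b hb => by
        simp [polar, a1 _ ha, a1 _ hb, a1 _ (add_mem hb ha)])
    rw [finrank_fin_fun] at a3 ⊢
    by_contra a5
    exact h4 (by omega) ⟨_, le_top, fun w hw => hv₁ w (a1 w hw), by
      rw [a2, finrank_top, finrank_fin_fun]; omega⟩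

end Bridge

end Cfsg.Agent.H79
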