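import Cfsg.Agent.H63.AnDefs2

/-!
# Project AN, piece S4O: the split normal form
-/

set_option autoImplicit false
set_option linter.unusedSectionVars false

namespace Cfsg.Agent.H79.AnS4o

open Cfsg Cfsg.Agent.H63 Cfsg.Agent.H63.SL Cfsg.Agent.H63.AN Subgroup
open Cfsg.Agent.H7.AA
open Cfsg.Agent.H78 (c3 altOn symOn)
open Equiv (swap Perm)
open Equiv.Perm (sign)
open scoped commutatorElement

universe u

section Perm

variable {α : Type} [Fintype α] [DecidableEq α]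

theorem mem_supp (x : Fin 10 ↪ α) (i : Fin 10) (h : zz i ≠ i) : x i ∈ (em x zz).support := by
  rw [Equiv.Perm.mem_support, em_apply]; exact fun e => h (x.injective e)

theorem sym_two (x : Fin 10 ↪ α) (h10 : Fintype.card α = 10) {σ : Perm α}
    (hσ : σ ∈ symOn (em x zz).supportᶜ) : ∃ l : Bool, σ = em x (pw l s0) := by
  have hb : Function.Bijective x :=
    (Fintype.bijective_iff_injective_and_card x).2 ⟨x.injective, by simp [h10]⟩
  have hf : ∀ i : Fin 10, zz i ≠ i → σ (x i) = x i := fun i hi =>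
    hσ _ (by simpa using mem_supp x i hi)
  have hz : ∀ k : Fin 10, zz k ≠ k ∨ k = 8 ∨ k = 9 := by decide
  have key : ∀ i : Fin 10, zz i = i → σ (x i) = x 8 ∨ σ (x i) = x 9 := fun i hi => by
    obtain ⟨k, hk⟩ := hb.2 (σ (x i))
    rcases hz k with h | rfl | rfl
    · have := σ.injective ((hf k h).trans hk)
      rw [x.injective this] at h; exact (h hi).elim
    · exact Or.inl hk.symm
    · exact Or.inr hk.symm
  have n89 : x 8 ≠ x 9 := x.injective.ne (by decide)
  rcases key 8 (by decide) with h8 | h8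
  · have h9 : σ (x 9) = x 9 := (key 9 (by decide)).resolve_left fun h =>
      n89 (σ.injective (h8.trans h.symm))
    refine ⟨false, Equiv.ext fun y => ?_⟩
    obtain ⟨k, rfl⟩ := hb.2 y
    rw [em_apply]
    rcases hz k with h | rfl | rfl
    · exact hf k h
    · exact h8
    · exact h9
  · have h9 : σ (x 9) = x 8 := (key 9 (by decide)).resolve_right fun h =>
      n89 (σ.injective (h8.trans h.symm))
    refine ⟨true, Equiv.ext fun y => ?_⟩
    obtain ⟨k, rfl⟩ := hb.2 y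
    rw [em_apply]
    rcases hz k with h | rfl | rfl
    · rw [hf k h]
      have : ∀ k : Fin 10, zz k ≠ k → pw true s0 k = k := by decide
      rw [this k h]
    · exact h8
    · exact h9

theorem comm_swap {q : Perm α} {a b : α} (ha : q a = a ∨ q a = b) (hb : q b = b ∨ q b = a) :
    Commute (swap a b) q := by
  have h : q * swap a b * q⁻¹ = swap a b := by
    rw [← Equiv.swap_apply_apply]
    rcases ha with ha | ha <;> rcases hb with hb | hb
    · rw [ha, hb]
    · have := q.injective (ha.trans hb.symm); subst this; rw [ha]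
    · have := q.injective (ha.trans hb.symm); subst this; rw [ha]
    · rw [ha, hb, Equiv.swap_comm]
  exact (mul_inv_eq_iff_eq_mul.1 h).symm

theorem t4_comm (x : Fin 10 ↪ α) {q : Perm α} (hq : q ∈ PP (em x zz)) : Commute (em x t4) q := by
  rw [t4, em_swap]
  have h6 := hq.2 (x 6)
  have h7 := hq.2 (x 7)
  rw [em_apply] at h6 h7
  exact comm_swap h6 h7

theorem s0_comm (x : Fin 10 ↪ α) {q : Perm α} (hq : q ∈ PP (em x zz)) : Commute (em x s0) q := by
  rw [s0, em_swap]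
  have h6 := hq.2 (x 8)
  have h7 := hq.2 (x 9)
  rw [em_apply] at h6 h7
  exact comm_swap (Or.inl (h6.elim id id)) (Or.inl (h7.elim id id))

theorem em_PP (x : Fin 10 ↪ α) {a : Perm (Fin 10)} (hs : sign a = 1)
    (ha : ∀ i, a i = i ∨ a i = zz i) : em x a ∈ PP (em x zz) := by
  refine ⟨by rw [sign_em, hs], fun y => ?_⟩
  by_cases h : ∃ k, x k = y
  · obtain ⟨k, rfl⟩ := h
    rw [em_apply, em_apply]
    exact (ha k).imp (congrArg x) (congrArg x)
  · push Not at h
    exact Or.inl (em_of_not x a h)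

theorem em_CA (x : Fin 10 ↪ α) {a : Perm (Fin 10)} (hs : sign a = 1) (ha : a * zz = zz * a) :
    em x a ∈ CA (em x zz) :=
  mem_CA.2 ⟨Commute.map (ha : Commute a zz) (em x), by rw [sign_em, hs]⟩

theorem PP_sq {p q : Perm α} (hp : p * p = 1) (hq : q ∈ PP p) : q * q = 1 := by
  ext y
  have hpp : ∀ y, p (p y) = y := fun y => by rw [← Equiv.Perm.mul_apply, hp]; rfl
  rw [Equiv.Perm.mul_apply, Equiv.Perm.one_apply]
  rcases hq.2 y with h | h
  · rw [h, h]
  · rcases hq.2 (p y) with h' | h'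
    · have := q.injective (h.trans h'.symm)
      rw [h, h', ← this]
    · rw [h, h', hpp]

theorem PP_CA {p q : Perm α} (hp : p * p = 1) (hq : q ∈ PP p) : q ∈ CA p := by
  refine mem_CA.2 ⟨?_, hq.1⟩
  have hpp : ∀ y, p (p y) = y := fun y => by rw [← Equiv.Perm.mul_apply, hp]; rfl
  ext y
  rw [Equiv.Perm.mul_apply, Equiv.Perm.mul_apply]
  rcases hq.2 y with h | h <;> rcases hq.2 (p y) with h' | h'
  · rw [h, h']
  · rw [hpp] at h'
    have := q.injective (h.trans h'.symm)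
    rw [h', h, ← this]
  · have := q.injective (h.trans h'.symm)
    rw [h', h, hpp, ← this]
  · rw [h', h]

end Perm

section Group

variable {G : Type u} [Group G] [Finite G] {α : Type} [Fintype α] [DecidableEq α]
  {ψ : alternatingGroup α →* G} {t : G} {j : Perm α →* G}

theorem pw_comm {a : Bool} {y : G} (h : Commute y t) : Commute y (pw a t) := by
  cases a
  · exact Commute.one_right y
  · exact h

theorem pw_mul (h : t * t = 1) (a b : Bool) : pw a t * pw b t = pw (xor a b) t := by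
  cases a <;> cases b <;> simp [pw, h]

theorem act_sq (B : Bs ψ t) {m : G} {ρ : Perm α} (h2 : m * m = 1) (ha : Acts ψ m ρ) :
    ρ * ρ = 1 := by
  have := ha.mul ha
  rw [h2] at this
  exact this.uniq (by have := B.nine; omega) B.inj acts_one

theorem even_form (K : Kit ψ t) (S : Sec ψ t j) {m : G} {ρ : Perm α} (hm : Commute m t)
    (h2 : m * m = 1) (ha : Acts ψ m ρ) (hs : sign ρ = 1) : ∃ a, m = pw a t * j ρ := by
  rcases K.ev2 m ρ hm ⟨1, by simpa [pow_two] using h2⟩ ha hs with h | h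
  · exact ⟨false, by rw [S.ev ρ hs, h]; simp [pw]⟩
  · exact ⟨true, by rw [S.ev ρ hs, h]; simp [pw]⟩

theorem one_form (B : Bs ψ t) (K : Kit ψ t) (S : Sec ψ t j) {m : G} {ρ : Perm α}
    (hm : Commute m t) (h2 : m * m = 1) (ha : Acts ψ m ρ) :
    ∃ o ∈ KA ψ, Commute o t ∧ ∃ a, o * m * o⁻¹ = pw a t * j ρ := by
  obtain ⟨O, hodd, hOt, hOK, -, hO⟩ := K.odd
  have hk : m * (j ρ)⁻¹ ∈ KA ψ := by
    have := ha.mul (S.ac ρ).inv
    rw [mul_inv_cancel] at this
    exact this.KA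
  have hkt : Commute (m * (j ρ)⁻¹) t := hm.mul_left (S.cm ρ).inv_left
  have hρ := act_sq B h2 ha
  have hj : j ρ * j ρ = 1 := by rw [← map_mul, hρ, map_one]
  obtain ⟨a, o, hoO, ho⟩ : ∃ a, ∃ o ∈ O, m = o * (pw a t * j ρ) := by
    rcases hO _ hk hkt with h | h
    · exact ⟨false, _, h, by simp [pw]⟩
    · refine ⟨true, _, h, ?_⟩
      simp only [pw, if_true]
      rw [mul_assoc, ← mul_assoc t t, B.t2]; group
  set s := pw a t * j ρ with hs
  have hs2 : s * s = 1 := by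
    have hc : Commute (j ρ) (pw a t) := pw_comm (S.cm ρ)
    rw [hs, mul_assoc, ← mul_assoc (j ρ), hc.eq, mul_assoc, hj, mul_one, pw_mul B.t2]
    simp [pw]
  have hsi : s⁻¹ = s := inv_eq_of_mul_eq_one_right hs2
  have hinv : s * o⁻¹ * s⁻¹ = o := by
    rw [ho] at h2
    have : s * o * s⁻¹ = o⁻¹ := by
      rw [hsi]; exact eq_inv_of_mul_eq_one_right (by rw [← h2]; group)
    rw [show s * o⁻¹ * s⁻¹ = (s * o * s⁻¹)⁻¹ by group, this, inv_inv]
  obtain ⟨n, hn⟩ := hodd
  have hon : o ^ (2 * n + 1) = 1 := by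
    rw [← hn]
    exact congrArg Subtype.val (pow_card_eq_one' (G := O) (x := ⟨o, hoO⟩))
  refine ⟨o ^ n, hOK (O.pow_mem hoO n), ?_, a, ?_⟩
  · exact mem_centralizer_singleton_iff.1 (hOt (O.pow_mem hoO n))
  · have h3 : s * (o ^ n)⁻¹ * s⁻¹ = o ^ n := by
      rw [← inv_pow, ← conj_pow, hinv]
    calc o ^ n * m * (o ^ n)⁻¹ = o ^ n * o * (s * (o ^ n)⁻¹ * s⁻¹) * s := by rw [ho]; group
      _ = o ^ (2 * n + 1) * s := by rw [h3]; group
      _ = s := by rw [hon, one_mul]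

theorem all_form (B : Bs ψ t) (K : Kit ψ t) (S : Sec ψ t j) (M : G → Prop)
    (hM : ∀ m, M m → Commute m t ∧ m * m = 1) (hc : ∀ m m', M m → M m' → Commute m m') :
    ∃ o ∈ KA ψ, Commute o t ∧
      ∀ m, M m → ∀ ρ, Acts ψ m ρ → ∃ a, o * m * o⁻¹ = pw a t * j ρ := by
  have fixe : ∀ o ∈ KA ψ, Commute o t → ∀ (a : Bool) (ρ : Perm α), sign ρ = 1 →
      o * (pw a t * j ρ) * o⁻¹ = pw a t * j ρ := fun o ho hot a ρ hs => by
    have : Commute o (pw a t * j ρ) :=
      (pw_comm hot).mul_right (by rw [S.ev ρ hs]; exact KA_ev ho ρ)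
    rw [this.eq, mul_inv_cancel_right]
  by_cases h : ∃ m0 ρ0, M m0 ∧ Acts ψ m0 ρ0 ∧ sign ρ0 ≠ 1
  · obtain ⟨m0, ρ0, h0, ha0, hs0⟩ := h
    obtain ⟨o, ho, hot, a0, e0⟩ := one_form B K S (hM _ h0).1 (hM _ h0).2 ha0
    refine ⟨o, ho, hot, fun m hm ρ ha => ?_⟩
    by_cases hs : sign ρ = 1
    · obtain ⟨a, e⟩ := even_form K S (hM _ hm).1 (hM _ hm).2 ha hs
      exact ⟨a, by rw [e, fixe o ho hot a ρ hs]⟩
    · have hs' : sign (ρ0 * ρ) = 1 := by
        rw [Equiv.Perm.sign_mul, (Int.units_eq_one_or _).resolve_left hs0,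
          (Int.units_eq_one_or _).resolve_left hs]; decide
      have hsq : m0 * m * (m0 * m) = 1 := by
        rw [mul_assoc, ← mul_assoc m, ← (hc _ _ h0 hm).eq, mul_assoc m0, (hM _ hm).2, mul_one,
          (hM _ h0).2]
      obtain ⟨b, e⟩ := even_form K S ((hM _ h0).1.mul_left (hM _ hm).1) hsq (ha0.mul ha) hs'
      refine ⟨xor a0 b, ?_⟩
      have hρ := act_sq B (hM _ h0).2 ha0
      have hcj : Commute (j ρ0) (pw b t) := pw_comm (S.cm ρ0)
      calc o * m * o⁻¹ = (o * m0 * o⁻¹) * (o * (m0 * m) * o⁻¹) := by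
            rw [show (o * m0 * o⁻¹) * (o * (m0 * m) * o⁻¹) = o * ((m0 * m0) * m) * o⁻¹ by group,
              (hM _ h0).2, one_mul]
        _ = pw a0 t * (j ρ0 * pw b t) * j (ρ0 * ρ) := by
            rw [e0, e, fixe o ho hot b _ hs']; group
        _ = _ := by
            rw [hcj.eq, ← mul_assoc, pw_mul B.t2, mul_assoc, ← map_mul, ← mul_assoc, hρ, one_mul]
  · refine ⟨1, one_mem _, Commute.one_left t, fun m hm ρ ha => ?_⟩
    have hs : sign ρ = 1 := by
      by_contra hs; exact h ⟨m, ρ, hm, ha, hs⟩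
    simpa using even_form K S (hM _ hm).1 (hM _ hm).2 ha hs

end Group

theorem s4o (sec : SecStmt.{u}) (d : P4dStmt) (e : P4eStmt) (kp : KpStmt) : S4oStmt.{u} := by
  intro G _ _ α _ _ ψ t B K hA g x φ φ' W T4 h10 hodd
  have h5 : 5 ≤ Fintype.card α := by omega
  have z2 : em x zz * em x zz = 1 := W.tw.1.p2
  have ze : sign (em x zz) = 1 := W.tw.1.pe
  -- `g` centralises `i(PP z)`
  have gq : ∀ q ∈ PP (em x zz), g⁻¹ * ev ψ q * g = ev ψ q := fun q hq => by
    have hid := T4.id q hq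
    have hi := W.tw.1.inv q ((kp α B.nine).2 _ z2 ze q hq) (PP_sq z2 hq)
    have := W.ex q (PP_CA z2 hq) (PP_sq z2 hq) (by rw [hid]; exact hq.1) hi
    rwa [hid] at this
  have zPP : em x zz ∈ PP (em x zz) := ⟨ze, fun _ => Or.inr rfl⟩
  have iz2 : ev ψ (em x zz) * ev ψ (em x zz) = 1 := by rw [← ev_mul ze ze, z2, ev_one]
  have gt' : g⁻¹ * t * g = t * ev ψ (em x zz) := by
    have h1 : t = g * t * g⁻¹ * ev ψ (em x zz) := by rw [W.gt, mul_assoc, iz2, mul_one]
    calc g⁻¹ * t * g = g⁻¹ * (g * t * g⁻¹ * ev ψ (em x zz)) * g := by rw [← h1]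
      _ = t * (g⁻¹ * ev ψ (em x zz) * g) := by group
      _ = _ := by rw [gq _ zPP]
  have cmt : ∀ y, Commute y t → Commute y (ev ψ (em x zz)) → Commute (g⁻¹ * y * g) t :=
    fun y h1 h2 => by
      have h := (h1.mul_right h2).eq
      rw [← W.gt] at h
      calc g⁻¹ * y * g * t = g⁻¹ * (y * (g * t * g⁻¹)) * g := by group
        _ = t * (g⁻¹ * y * g) := by rw [h]; group
  have c12 : em x s12 ∈ CA (em x zz) := em_CA x (by decide) (by decide)
  have c23 : em x s23 ∈ CA (em x zz) := em_CA x (by decide) (by decide)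
  have c34 : em x s34 ∈ CA (em x zz) := em_CA x (by decide) (by decide)
  have cyy : em x yy ∈ CA (em x zz) := em_CA x (by decide) (by decide)
  have csq : ∀ y : G, y * y = 1 → g⁻¹ * y * g * (g⁻¹ * y * g) = 1 := fun y hy => by
    rw [show g⁻¹ * y * g * (g⁻¹ * y * g) = g⁻¹ * (y * y) * g by group, hy]; group
  have ccm : ∀ y y' : G, Commute y y' → Commute (g⁻¹ * y * g) (g⁻¹ * y' * g) := fun y y' h => by
    calc g⁻¹ * y * g * (g⁻¹ * y' * g) = g⁻¹ * (y * y') * g := by group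
      _ = g⁻¹ * y' * g * (g⁻¹ * y * g) := by rw [h.eq]; group
  -- the section
  obtain ⟨j, S⟩ : ∃ j, Sec ψ t j := by
    have key : ∀ a ∈ CA (em x zz), a * a = 1 → sign (φ a) ≠ 1 → ∃ j, Sec ψ t j :=
      fun a ha h2 hs => by
        have ha' := mem_CA.1 ha
        obtain ⟨j, S, -⟩ := sec ψ t B K hA (g⁻¹ * ev ψ a * g) (φ a)
          (cmt _ (KA_ev B.tK a).symm (ev_comm ha'.2 ze ha'.1.eq))
          (csq _ (by rw [← ev_mul ha'.2 ha'.2, h2, ev_one])) (W.a1 a ha) hs
        exact ⟨j, S⟩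
    rcases hodd with h | h
    · exact key _ c12 (by rw [← map_mul, show s12 * s12 = 1 by decide, map_one]) h
    · exact key _ cyy (by rw [← map_mul, show yy * yy = 1 by decide, map_one]) h
  have jc : ∀ a b : Perm (Fin 10), a * b = b * a → Commute (j (em x a)) (j (em x b)) :=
    fun a b h => Commute.map (Commute.map (h : Commute a b) (em x)) j
  have jt : ∀ a : Perm (Fin 10), a * zz = zz * a → Commute (g⁻¹ * j (em x a) * g) t :=
    fun a h => cmt _ (S.cm _) (by rw [← S.ev _ ze]; exact jc a zz h)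
  have ja : ∀ a ∈ CA (em x zz), Acts ψ (g⁻¹ * j a * g) (φ a) := fun a ha => by
    rw [S.ev a (mem_CA.1 ha).2]; exact W.a1 a ha
  obtain ⟨eL, ⟨ε, δ, σ1, hσ1, e1, -⟩, -⟩ := e α x φ φ' _ T4
  have actc : ∀ {y y' : G} {ρ ρ' : Perm α}, Commute y y' → Acts ψ y ρ → Acts ψ y' ρ' →
      Commute ρ ρ' := fun h h1 h2 => by
    have := h1.mul h2
    rw [h.eq] at this
    exact this.uniq h5 B.inj (h2.mul h1)
  -- the action of the conjugates of `j t4`, `j s0`
  have shape : ∀ a : Perm (Fin 10), a * zz = zz * a → a * s12 = s12 * a → a * s23 = s23 * a →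
      (∀ q ∈ PP (em x zz), Commute (em x a) q) → em x ⁅a, s34⁆ ∈ PP (em x zz) →
      ∃ r i l : Bool, Acts ψ (g⁻¹ * j (em x a) * g) (em x (pw r t4 * pw i zz * pw l s0)) ∧
        (r = true ↔ em x ⁅a, s34⁆ ∉ symOn (em x zz).supportᶜ) := fun a hz h1 h2 hq hv => by
    obtain ⟨b, hb⟩ := K.act _ (jt a hz)
    have hbq : ∀ q ∈ PP (em x zz), Commute b q := fun q hq' => by
      have := ccm _ _ (Commute.map (hq q hq') j)
      rw [S.ev q hq'.1, gq q hq'] at this
      exact hb.comm_perm B.inj hq'.1 this.eq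
    have hL : Like (em x zz) 1 b := ⟨hbq _ zPP, fun q hq' => by
      rw [(hbq q hq').eq]; group⟩
    obtain ⟨r, i, σ, hσ, eb, hr⟩ := (d α x).2 b _ _ _ hL (eL _ c12) (eL _ c23) (eL _ c34)
      (actc (ccm _ _ (jc a s12 h1)) hb (ja _ c12)) (actc (ccm _ _ (jc a s23 h2)) hb (ja _ c23))
    obtain ⟨l, rfl⟩ := sym_two x h10 hσ
    refine ⟨r, i, l, by rw [map_mul, ← eb]; exact hb, ?_⟩
    have hcm : ⁅b, φ (em x s34)⁆ = em x ⁅a, s34⁆ := by
      have h3 := ((hb.mul (ja _ c34)).mul hb.inv).mul (ja _ c34).inv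
      have h4 : g⁻¹ * j (em x a) * g * (g⁻¹ * j (em x s34) * g) * (g⁻¹ * j (em x a) * g)⁻¹ *
          (g⁻¹ * j (em x s34) * g)⁻¹ = ev ψ (em x ⁅a, s34⁆) := by
        rw [← gq _ hv, ← S.ev _ hv.1, map_commutatorElement, map_commutatorElement,
          commutatorElement_def]; group
      rw [h4] at h3
      exact h3.uniq h5 B.inj (acts_ev hv.1)
    rw [← hcm]; exact hr
  have vPP : em x vv ∈ PP (em x zz) := em_PP x (by decide) (by decide)
  have wPP : em x ww ∈ PP (em x zz) := em_PP x (by decide) (by decide)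
  have k4 : ⁅t4, s34⁆ = vv := by decide
  have k0 : ⁅s0, s34⁆ = 1 := by decide
  obtain ⟨r4, i4, l4, a4, hr4⟩ := shape t4 (by decide) (by decide) (by decide)
    (fun q hq => t4_comm x hq) (by rw [k4]; exact vPP)
  obtain ⟨r0, i0, l0, a0, hr0⟩ := shape s0 (by decide) (by decide) (by decide)
    (fun q hq => s0_comm x hq) (by rw [k0]; exact em_PP x (by decide) (by decide))
  obtain rfl : r4 = true := hr4.2 fun h => by
    have := h (x 4) (by simpa using mem_supp x 4 (by decide))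
    rw [k4, em_apply] at this
    exact absurd (x.injective this) (by decide)
  obtain rfl : r0 = false := by
    cases r0
    · rfl
    · exact (hr0.1 rfl (by rw [k0, map_one]; exact one_mem _)).elim
  obtain ⟨l1, rfl⟩ := sym_two x h10 hσ1
  have a1 : Acts ψ (g⁻¹ * j (em x s12) * g) (em x (s12 * pw ε ww * pw δ vv * pw l1 s0)) := by
    rw [map_mul, ← e1]; exact ja _ c12
  obtain ⟨o, ho, hot, hf⟩ := all_form B K S
    (fun m => ∃ a ∈ [s12, t4, s0], m = g⁻¹ * j (em x a) * g)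
    (by
      rintro _ ⟨a, ha, rfl⟩
      have h : ∀ a ∈ [s12, t4, s0], a * zz = zz * a ∧ a * a = 1 := by
        simp only [List.forall_mem_cons, List.not_mem_nil, false_imp_iff, implies_true, and_true]
        refine ⟨⟨?_, ?_⟩, ⟨?_, ?_⟩, ?_, ?_⟩ <;> decide
      exact ⟨jt a (h a ha).1, csq _ (by rw [← map_mul, ← map_mul, (h a ha).2, map_one, map_one])⟩)
    (by
      rintro _ _ ⟨a, ha, rfl⟩ ⟨b, hb, rfl⟩
      have h : ∀ a ∈ [s12, t4, s0], ∀ b ∈ [s12, t4, s0], a * b = b * a := by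
        simp only [List.forall_mem_cons, List.not_mem_nil, false_imp_iff, implies_true, and_true,
          true_and]
        refine ⟨⟨?_, ?_⟩, ⟨?_, ?_⟩, ?_, ?_⟩ <;> decide
      exact ccm _ _ (jc a b (h a ha b hb)))
  have cj' : ∀ y, o * g⁻¹ * y * (o * g⁻¹)⁻¹ = o * (g⁻¹ * y * g) * o⁻¹ := fun y => by group
  have fq : ∀ q ∈ PP (em x zz), o * g⁻¹ * ev ψ q * (o * g⁻¹)⁻¹ = ev ψ q := fun q hq => by
    rw [cj', gq q hq, KA_ev ho, mul_inv_cancel_right]
  refine ⟨o * g⁻¹, j, ⟨?_, fq _ wPP, fq _ vPP⟩, S, ?_, ?_, ?_⟩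
  · rw [cj', gt', ← mul_assoc, hot.eq, mul_assoc t, KA_ev ho]; group
  · obtain ⟨a, ha⟩ := hf _ ⟨s12, by simp, rfl⟩ _ a1
    exact ⟨a, ε, δ, l1, by rw [cj', ha]⟩
  · obtain ⟨a, ha⟩ := hf _ ⟨t4, by simp, rfl⟩ _ a4
    exact ⟨a, i4, l4, by rw [cj', ha]; rfl⟩
  · obtain ⟨a, ha⟩ := hf _ ⟨s0, by simp, rfl⟩ _ a0
    exact ⟨a, i0, l0, by rw [cj', ha, show pw false t4 = 1 from rfl, one_mul]⟩

end Cfsg.Agent.H79.AnS4o
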