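import Mathlib
import Cfsg.Agent.H30.OrthCount
import Cfsg.Agent.H79.Embed
import Cfsg.Agent.H28.SymO

/-! Quadratic forms over the field with two elements: translation by a linear form, types by zero
counts, and the form "half the weight". -/

set_option autoImplicit false
open Cfsg Module QuadraticMap

namespace Cfsg.Agent.H79

section General
variable {V : Type*} [AddCommGroup V] [Module (ZMod 2) V]

theorem zmod2_cases (a : ZMod 2) : a = 0 ∨ a = 1 := by revert a; decide

theorem zmod2_mul_self (a : ZMod 2) : a * a = a := by revert a; decide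

theorem zmod2_add_self (a : ZMod 2) : a + a = 0 := by revert a; decide

/-- A function with bilinear polarization is a quadratic form (over `𝔽₂`). -/
def f2Form (q : V → ZMod 2) (B : LinearMap.BilinForm (ZMod 2) V)
    (h : ∀ u v, q (u + v) = q u + q v + B u v) : QuadraticForm (ZMod 2) V where
  toFun := q
  toFun_smul a x := by
    have h0 : q 0 = 0 := by
      have := h 0 0
      simp only [add_zero, map_zero] at this
      linear_combination -this
    rcases zmod2_cases a with rfl | rfl <;> simp [h0]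
  exists_companion' := ⟨B, h⟩

theorem f2Form_apply (q : V → ZMod 2) (B : LinearMap.BilinForm (ZMod 2) V)
    (h : ∀ u v, q (u + v) = q u + q v + B u v) (v : V) : f2Form q B h v = q v := rfl

theorem polar_f2Form (q : V → ZMod 2) (B : LinearMap.BilinForm (ZMod 2) V)
    (h : ∀ u v, q (u + v) = q u + q v + B u v) (u v : V) : polar (f2Form q B h) u v = B u v := by
  simp only [polar, f2Form_apply, h]; ring

theorem polar_self_f2 (Q : QuadraticForm (ZMod 2) V) (w : V) : polar Q w w = 0 := by
  rw [polar_self, two_smul, zmod2_add_self]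

theorem iso_shift_of_zero (Q : QuadraticForm (ZMod 2) V) {w : V} (hw : Q w = 0) :
    ∃ g : V ≃ₗ[ZMod 2] V, ∀ v, Q v + polar Q v w = Q (g v) := by
  let t : V →ₗ[ZMod 2] V := LinearMap.id + (polarBilin Q w).smulRight w
  have ht : ∀ v, t v = v + polar Q v w • w := fun v => by
    simp [t, polar_comm]
  have hinv : Function.Involutive t := fun v => by
    rw [ht, ht, polar_add_left, polar_smul_left, polar_self_f2, smul_zero, add_zero, add_assoc,
      ← add_smul, zmod2_add_self, zero_smul, add_zero]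
  refine ⟨LinearEquiv.ofInvolutive t hinv, fun v => ?_⟩
  change _ = Q (t v)
  rw [ht, QuadraticMap.map_add Q, QuadraticMap.map_smul, hw, polar_smul_right, smul_eq_mul,
    smul_eq_mul, zmod2_mul_self]
  ring

theorem nc_zero_add_nc_one [FiniteDimensional (ZMod 2) V] (Q : QuadraticForm (ZMod 2) V) :
    H30.nc Q 0 + H30.nc Q 1 = 2 ^ finrank (ZMod 2) V := by
  have := H30.sum_nc (Q := Q)
  rw [Nat.card_zmod] at this
  rw [← this]
  exact (Fin.sum_univ_two (fun c : Fin 2 => H30.nc Q c)).symm

theorem nc_zero_ne_nc_one [FiniteDimensional (ZMod 2) V] {Q : QuadraticForm (ZMod 2) V}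
    (hQ : (polarBilin Q).Nondegenerate) {m : ℕ} (hV : finrank (ZMod 2) V = 2 * m + 2) :
    (IsPlus (F := ZMod 2) Q → H30.nc Q 1 < H30.nc Q 0) ∧
      (¬ IsPlus (F := ZMod 2) Q → H30.nc Q 0 < H30.nc Q 1) := by
  have h2 : (0 : ℤ) < 2 ^ m := by positivity
  constructor
  · intro hp
    have h0 := H30.nc_plus_zero_int hQ hV hp
    have h1 := H30.nc_plus_ne_zero_int hQ hV hp one_ne_zero
    simp only [Nat.card_zmod, Nat.cast_ofNat, pow_succ] at h0 h1
    omega
  · intro hp
    have h0 := H30.nc_minus_int hQ hV hp 0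
    have h1 := H30.nc_minus_int hQ hV hp 1
    simp only [Nat.card_zmod, Nat.cast_ofNat, pow_succ, if_true, if_neg one_ne_zero] at h0 h1
    omega

theorem zero_of_iso_shift [FiniteDimensional (ZMod 2) V] {Q : QuadraticForm (ZMod 2) V}
    (hQ : (polarBilin Q).Nondegenerate) {m : ℕ} (hV : finrank (ZMod 2) V = 2 * m + 2) {w : V}
    (g : V ≃ₗ[ZMod 2] V) (hg : ∀ v, Q v + polar Q v w = Q (g v)) : Q w = 0 := by
  by_contra hw
  have hw1 : Q w = 1 := (zmod2_cases _).resolve_left hw
  have key : ∀ v, Q (g (v + w)) = Q v + 1 := fun v => by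
    rw [← hg, QuadraticMap.map_add Q, polar_add_left, polar_self_f2, hw1]
    linear_combination zmod2_add_self (polar Q v w)
  have h : H30.nc Q 1 = H30.nc Q 0 := by
    refine Nat.card_congr (((Equiv.addRight w).trans g.toEquiv).subtypeEquiv fun v => ?_)
    change Q v = 1 ↔ Q (g (v + w)) = 0
    rw [key]
    generalize Q v = a
    revert a; decide
  obtain ⟨h1, h2⟩ := nc_zero_ne_nc_one hQ hV
  by_cases hp : IsPlus (F := ZMod 2) Q
  · have := h1 hp; omega
  · have := h2 hp; omega

theorem iso_shift_iff [FiniteDimensional (ZMod 2) V] {Q : QuadraticForm (ZMod 2) V}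
    (hQ : (polarBilin Q).Nondegenerate) {m : ℕ} (hV : finrank (ZMod 2) V = 2 * m + 2) (w : V) :
    (∃ g : V ≃ₗ[ZMod 2] V, ∀ v, Q v + polar Q v w = Q (g v)) ↔ Q w = 0 :=
  ⟨fun ⟨g, hg⟩ => zero_of_iso_shift hQ hV g hg, iso_shift_of_zero Q⟩

/-- Every function polarizing to the polar form of `Q` is `Q + f(·, w)` for a unique `w`. -/
theorem exists_shift [FiniteDimensional (ZMod 2) V] {Q : QuadraticForm (ZMod 2) V}
    (hQ : (polarBilin Q).Nondegenerate) (q : V → ZMod 2)
    (hq : ∀ u v, q (u + v) = q u + q v + polar Q u v) : ∃ w, ∀ v, q v = Q v + polar Q v w := by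
  let l : V →+ ZMod 2 := AddMonoidHom.mk' (fun v => q v - Q v) fun u v => by
    rw [hq, QuadraticMap.map_add Q]; ring
  refine ⟨(LinearMap.BilinForm.toDual (polarBilin Q) hQ).symm (l.toZModLinearMap 2), fun v => ?_⟩
  have := LinearMap.BilinForm.apply_toDual_symm_apply (hB := hQ) (l.toZModLinearMap 2) v
  rw [polarBilin_apply_apply] at this
  rw [polar_comm, this]
  change _ = _ + (q v - Q v)
  ring

theorem shift_injective {Q : QuadraticForm (ZMod 2) V} (hQ : (polarBilin Q).Nondegenerate) :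
    Function.Injective fun (w v : V) => Q v + polar Q v w := by
  intro w w' h
  rw [← sub_eq_zero]
  refine H30.eq_zero_of_polar hQ fun y => ?_
  have := congrFun h y
  rw [polar_sub_left, polar_comm _ w, polar_comm _ w']
  linear_combination this

theorem card_shift [FiniteDimensional (ZMod 2) V] {Q : QuadraticForm (ZMod 2) V}
    (hQ : (polarBilin Q).Nondegenerate) (P : (V → ZMod 2) → Prop) :
    Nat.card {q : V → ZMod 2 // (∀ u v, q (u + v) = q u + q v + polar Q u v) ∧ P q} =
      Nat.card {w : V // P fun v => Q v + polar Q v w} := by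
  refine (Nat.card_congr (Equiv.ofBijective
    (fun w : {w : V // P fun v => Q v + polar Q v w} =>
      (⟨fun v => Q v + polar Q v w.1, fun u v => ?_, w.2⟩ :
        {q : V → ZMod 2 // (∀ u v, q (u + v) = q u + q v + polar Q u v) ∧ P q})) ⟨?_, ?_⟩)).symm
  · beta_reduce
    rw [QuadraticMap.map_add Q, polar_add_left]; ring
  · intro w w' h
    exact Subtype.ext (shift_injective hQ (congrArg Subtype.val h))
  · rintro ⟨q, hq, hP⟩
    obtain ⟨w, hw⟩ := exists_shift hQ q hq
    obtain rfl : q = fun v => Q v + polar Q v w := funext hw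
    exact ⟨⟨w, hP⟩, rfl⟩

end General

section HalfWeight
open H28

theorem wt_add_mul {n : ℕ} (u v : Fin n → ZMod 2) :
    wt (u + v) + 2 * wt (u * v) = wt u + wt v := by
  simp only [wt, Finset.mul_sum, ← Finset.sum_add_distrib, Pi.add_apply, Pi.mul_apply]
  refine Finset.sum_congr rfl fun i _ => ?_
  generalize u i = a; generalize v i = b
  revert a b; decide

theorem cast_wt {n : ℕ} (u : Fin n → ZMod 2) : ((wt u : ℕ) : ZMod 2) = ∑ i, u i := by
  simp [wt]

theorem val_sum_eq {n : ℕ} (u : Fin n → ZMod 2) : (∑ i, u i).val = wt u % 2 := by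
  rw [← cast_wt, ZMod.val_natCast]

/-- The form `⌈wt / 2⌉ mod 2`. -/
def halfWt (n : ℕ) (v : Fin n → ZMod 2) : ZMod 2 := (((wt v + 1) / 2 : ℕ) : ZMod 2)

/-- Its polar form. -/
def halfWtB (n : ℕ) : LinearMap.BilinForm (ZMod 2) (Fin n → ZMod 2) :=
  LinearMap.mk₂ (ZMod 2) (fun u v => (∑ i, u i) * (∑ i, v i) + ∑ i, u i * v i)
    (fun _ _ _ => by simp only [Pi.add_apply, add_mul, Finset.sum_add_distrib]; ring)
    (fun _ _ _ => by
      simp only [Pi.smul_apply, smul_eq_mul, mul_assoc, ← Finset.mul_sum]; ring)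
    (fun _ _ _ => by simp only [Pi.add_apply, mul_add, Finset.sum_add_distrib]; ring)
    (fun c _ _ => by
      simp only [Pi.smul_apply, smul_eq_mul, mul_left_comm _ c, ← Finset.mul_sum]; ring)

theorem halfWt_add (n : ℕ) (u v : Fin n → ZMod 2) :
    halfWt n (u + v) = halfWt n u + halfWt n v + halfWtB n u v := by
  have h := wt_add_mul u v
  have h1 : (∑ i, u i * v i) = ((wt (u * v) : ℕ) : ZMod 2) := (cast_wt (u * v)).symm
  simp only [halfWt, halfWtB, LinearMap.mk₂_apply, h1, ← cast_wt, ← Nat.cast_mul, ← Nat.cast_add]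
  rw [ZMod.natCast_eq_natCast_iff']
  generalize wt (u + v) = s at *
  generalize wt (u * v) = c at *
  generalize wt u = a at *
  generalize wt v = b at *
  have h2 : a * b % 2 = (a % 2) * (b % 2) % 2 := Nat.mul_mod _ _ _
  rcases Nat.mod_two_eq_zero_or_one a with ha | ha <;>
    rcases Nat.mod_two_eq_zero_or_one b with hb | hb <;>
    rw [ha, hb] at h2 <;> omega

/-- `halfWt` as a quadratic form. -/
def halfWtQ (n : ℕ) : QuadraticForm (ZMod 2) (Fin n → ZMod 2) :=
  f2Form (halfWt n) (halfWtB n) (halfWt_add n)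

theorem halfWtQ_nondegenerate {n : ℕ} (hn : Even n) : (polarBilin (halfWtQ n)).Nondegenerate := by
  refine H30.nondegenerate_of_forall fun x hx => ?_
  have h : ∀ j, x j = ∑ i, x i := fun j => by
    have := hx (Pi.single j 1)
    rw [halfWtQ, polar_f2Form] at this
    simp [halfWtB, Pi.single_apply] at this
    linear_combination this - zmod2_add_self (∑ i, x i)
  have h0 : ∑ i, x i = 0 := by
    rw [Finset.sum_congr rfl fun j _ => h j]
    obtain ⟨k, rfl⟩ := hn
    simp only [Finset.sum_const, Finset.card_univ, Fintype.card_fin, add_smul, zmod2_add_self]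
  funext j
  rw [h, h0]; rfl

theorem gauss_aux (w : ℕ) : ((⟨1, 1⟩ : GaussianInt) * (⟨0, 1⟩ : GaussianInt) ^ w).re =
    if (((w + 1) / 2 : ℕ) : ZMod 2) = 0 then 1 else -1 := by
  have h4 : (⟨0, 1⟩ : GaussianInt) ^ 4 = 1 := by decide
  rw [← Nat.div_add_mod w 4, pow_add, pow_mul, h4, one_pow, one_mul]
  have h1 : (4 * (w / 4) + w % 4 + 1) / 2 = 2 * (w / 4) + (w % 4 + 1) / 2 := by omega
  have h2 : (2 : ZMod 2) = 0 := rfl
  rw [h1, Nat.cast_add, Nat.cast_mul, Nat.cast_ofNat, h2, zero_mul, zero_add]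
  have : w % 4 < 4 := Nat.mod_lt _ (by norm_num)
  generalize w % 4 = r at *
  interval_cases r <;> decide

theorem nc_halfWt (n : ℕ) : (H30.nc (halfWtQ n) 0 : ℤ) - H30.nc (halfWtQ n) 1 =
    ((⟨1, 1⟩ : GaussianInt) ^ (n + 1)).re := by
  classical
  have h1 : ∑ v : Fin n → ZMod 2, (⟨0, 1⟩ : GaussianInt) ^ wt v = (⟨1, 1⟩ : GaussianInt) ^ n := by
    simp only [wt, ← Finset.prod_pow_eq_pow_sum]
    rw [← Fintype.sum_pow (fun a : ZMod 2 => (⟨0, 1⟩ : GaussianInt) ^ a.val)]
    congr 1
  let re : GaussianInt →+ ℤ := AddMonoidHom.mk' Zsqrtd.re fun _ _ => rfl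
  rw [pow_succ', ← h1, Finset.mul_sum]
  change _ = re _
  rw [map_sum]
  simp only [re, AddMonoidHom.mk'_apply, gauss_aux]
  rw [Finset.sum_ite]
  simp only [H30.nc, Nat.card_eq_fintype_card, Fintype.card_subtype, Finset.sum_const,
    smul_neg, nsmul_eq_mul, mul_one, sub_eq_add_neg]
  congr 4
  ext v
  simp only [Finset.mem_filter, Finset.mem_univ, true_and]
  change halfWt n v = 1 ↔ ¬ halfWt n v = 0
  generalize halfWt n v = a
  revert a; decide

theorem isPlus_halfWt (k : ℕ) : IsPlus (F := ZMod 2) (halfWtQ (4 * k + 2)) ↔ Odd k := by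
  have h := nc_halfWt (4 * k + 2)
  have h4 : (⟨1, 1⟩ : GaussianInt) ^ 4 = ((-4 : ℤ) : GaussianInt) := by decide
  have h3 : (⟨1, 1⟩ : GaussianInt) ^ 3 = ⟨-2, 2⟩ := by decide
  rw [add_assoc, pow_add, pow_mul, h4, h3, ← Int.cast_pow] at h
  simp only [Zsqrtd.re_mul, Zsqrtd.re_intCast, Zsqrtd.im_intCast] at h
  obtain ⟨h1, h2⟩ := nc_zero_ne_nc_one (halfWtQ_nondegenerate (n := 4 * k + 2) ⟨2 * k + 1, by ring⟩)
    (m := 2 * k) (by simp; ring)
  have hp : (0 : ℤ) < 4 ^ k := by positivity
  constructor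
  · intro hh
    have := h1 hh
    by_contra hk
    rw [(Nat.not_odd_iff_even.1 hk).neg_pow] at h
    omega
  · intro hk
    by_contra hh
    have := h2 hh
    rw [hk.neg_pow] at h
    omega

theorem exists_perm_halfWt {n : ℕ} (hn : n % 4 = 2) (h3 : 3 ≤ n) :
    ∃ φ : Equiv.Perm (Fin (n + 2)) →* isometryGroup (ZMod 2) (halfWtQ n),
      Function.Injective φ := by
  let A : Fin (n + 2) → Fin n → ZMod 2 := Fin.cons 0 (Fin.cons 1 fun i => Pi.single i 1)
  have hA : ∀ v : Fin n → ZMod 2, (fun i => ∑ k, A i k * v k) =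
      (Fin.cons 0 (Fin.cons (∑ k, v k) v) : Fin (n + 2) → ZMod 2) := fun v => by
    funext i
    refine Fin.cases ?_ (fun i => Fin.cases ?_ (fun i => ?_) i) i
    · simp [A]
    · simp [A]
    · simp [A, Pi.single_apply]
  have hwt : ∀ v : Fin n → ZMod 2,
      wt (Fin.cons 0 (Fin.cons (∑ k, v k) v) : Fin (n + 2) → ZMod 2) = wt v % 2 + wt v := fun v => by
    rw [wt, Fin.sum_univ_succ, Fin.sum_univ_succ, ← val_sum_eq]
    simp [wt]
  have hQ : ∀ v : Fin n → ZMod 2, halfWtQ n v =
      (wt (Fin.cons 0 (Fin.cons (∑ k, v k) v) : Fin (n + 2) → ZMod 2) / 2 : ℕ) := fun v => by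
    rw [hwt]
    change (((wt v + 1) / 2 : ℕ) : ZMod 2) = _
    congr 1
    omega
  refine exists_perm_isometry (by omega) 1 A _ (fun x k => x k.succ.succ - x 0) (fun v => ?_)
    fun x hx => ?_
  · rw [hA]
    refine ⟨by rw [hwt]; omega, hQ v, fun h k => ?_⟩
    have := h k.succ.succ 0
    rw [congrFun (hA v), congrFun (hA v)] at this
    simpa using this
  · have hs : ∑ i, x i = 0 := by
      rw [← cast_wt, ← ZMod.natCast_mod, hx, Nat.cast_zero]
    have hn2 : (n : ZMod 2) = 0 := by
      rw [← ZMod.natCast_mod, show n % 2 = 0 by omega, Nat.cast_zero]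
    have he : (Fin.cons 0 (Fin.cons (∑ k : Fin n, (x k.succ.succ - x 0))
        fun k : Fin n => x k.succ.succ - x 0) : Fin (n + 2) → ZMod 2) = fun i => x i - x 0 := by
      funext i
      refine Fin.cases ?_ (fun i => Fin.cases ?_ (fun i => ?_) i) i
      · simp
      · rw [Fin.sum_univ_succ, Fin.sum_univ_succ] at hs
        simp only [Fin.cons_succ, Fin.cons_zero, Finset.sum_sub_distrib, Finset.sum_const,
          Finset.card_univ, Fintype.card_fin, nsmul_eq_mul, hn2]
        linear_combination hs - zmod2_add_self (x (Fin.succ 0))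
      · simp
    refine ⟨fun i j => ?_, ?_⟩
    · rw [congrFun (hA _), congrFun (hA _), he]
      ring
    · rw [hQ, he]
      rcases zmod2_cases (x 0) with h0 | h0
      · simp [h0]
      · have h1 : wt (fun i => x i - x 0) + wt x = n + 2 := by
          simp only [wt, h0, ← Finset.sum_add_distrib]
          rw [Finset.sum_congr rfl (g := fun _ => 1)]
          · simp
          · intro i _
            generalize x i = a
            revert a; decide
        rw [ZMod.natCast_eq_natCast_iff']
        omega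

end HalfWeight

end Cfsg.Agent.H79
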