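import Cfsg.Agent.H97.JmDefs

/-!
# The normaliser of a subgroup of order `43` is maximal
-/

set_option autoImplicit false

namespace Cfsg.Agent.H97.JM

open Subgroup

universe u

namespace P43

def t1 (n : ℕ) : Bool :=
  n % 602 != 0 || n % 23 != 0 || n % 37 != 0 || n / 602 % 43 != 1 || !ok n ||
    n == 86775571046077562880

def t2 (r : ℕ) : Bool :=
  r % 86 != 0 || r % 3 == 0 || r % 5 == 0 || r % 11 == 0 || r % 23 == 0 || r % 31 == 0 ||
    r % 37 == 0 || r % 7 != 2 || 7 * r / 602 % 43 != 1 || !ok (7 * r) || r == 86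

theorem a1 : allD t1 = true := by decide +kernel

theorem a2 : allD t2 = true := by decide +kernel

end P43

theorem pP43 (hALLD : ALLD) (hOK : OK.{u}) (hSYL : SYL.{u}) (hNC : NC.{u}) (hFIX : FIX.{u})
    (hINV : INV.{u}) : P43.{u} := by
  intro G _ _ C ⟨g, h, og, oh, hg, hc⟩
  refine ⟨g, og, ?_⟩
  have : Fact (Nat.Prime 43) := ⟨by norm_num⟩
  have cM : Nat.card (normalizer ((zpowers g : Subgroup G) : Set G)) = 602 :=
    (C.big 43 14 (by simp) g og).2
  have sylw : ∀ (p k : ℕ) [Fact p.Prime] (A : Subgroup G), Nat.card A = p ^ k →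
      (86775571046077562880 : ℕ).factorization p = k → ∃ S : Sylow p G, (S : Subgroup G) = A :=
    fun p k _ A hA hk => ⟨Sylow.ofCard A (by rw [C.card, hk, hA]), rfl⟩
  have fac : ∀ p k : ℕ, p.Prime → p ^ k ∣ 86775571046077562880 →
      ¬ p ^ (k + 1) ∣ 86775571046077562880 → (86775571046077562880 : ℕ).factorization p = k :=
    fun p k hp h1 h2 => by
      have a := (hp.pow_dvd_iff_le_factorization (by norm_num)).1 h1
      have b := mt (hp.pow_dvd_iff_le_factorization (k := k + 1) (by norm_num)).2 h2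
      omega
  obtain ⟨S, hS⟩ := sylw 43 1 (zpowers g) (by rw [Nat.card_zpowers, og]; rfl)
    (fac 43 1 (by norm_num) (by norm_num) (by norm_num))
  refine ⟨fun e => ?_, fun H hH => ?_⟩
  · rw [e, card_top, C.card] at cM; norm_num at cM
  have hgH : g ∈ H := hH.le (le_normalizer (mem_zpowers g))
  have hhH : h ∈ H := hH.le (mem_normalizer_fintype (by
    rintro _ ⟨k, rfl⟩
    simp only
    rw [← conj_zpow]
    exact zpow_mem hg k))
  have dG : ∀ A : Subgroup G, Nat.card A ∣ 86775571046077562880 := fun A => by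
    rw [← C.card]; exact card_subgroup_dvd_card A
  have d602 : 602 ∣ Nat.card H := by rw [← cM]; exact card_dvd_of_le hH.le
  have s43 : Nat.card H / 602 % 43 = 1 := by
    rw [← cM]
    exact hSYL G 43 S _ H (by rw [hS]; exact le_normalizer) hH.le (by rw [hS]; exact inf_le_right)
  have okH := hOK G C H
  by_cases hd : 23 ∣ Nat.card H ∧ 37 ∣ Nat.card H
  · have := hALLD _ P43.a1 _ (dG H)
    simp only [P43.t1, Nat.mod_eq_zero_of_dvd d602, Nat.mod_eq_zero_of_dvd hd.1,
      Nat.mod_eq_zero_of_dvd hd.2, s43, okH, bne_self_eq_false, Bool.not_true, Bool.false_or,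
      beq_iff_eq] at this
    exact eq_top_of_card_eq H (by rw [this, C.card])
  exfalso
  have ox : orderOf (h ^ 2) = 7 := by rw [orderOf_pow' _ (by norm_num), oh]; rfl
  have hN : H ⊓ normalizer ((zpowers (h ^ 2) : Subgroup G) : Set G) ≤ zpowers h := fun n hn =>
    (hc H hgH hhH n hn.1 ((mem_normalizer_iff.1 hn.2 _).1 (mem_zpowers _))).resolve_right hd
  have hC : H ⊓ centralizer ({h ^ 2} : Set G) ≤ zpowers h := fun n hn =>
    (hc H hgH hhH n hn.1 (by
      rw [mem_centralizer_singleton_iff.1 hn.2, mul_inv_cancel_right]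
      exact mem_zpowers _)).resolve_right hd
  have hZ : zpowers h ≤ centralizer ({h ^ 2} : Set G) := by
    rw [zpowers_le, mem_centralizer_singleton_iff]; exact (Commute.self_pow h 2).eq
  have d14 : ∀ A : Subgroup G, A ≤ H → Nat.card ↥(A ⊓ centralizer ({h ^ 2} : Set G)) ∣ 14 :=
    fun A hA => by
      rw [← oh, ← Nat.card_zpowers]
      exact card_dvd_of_le ((inf_le_inf_right _ hA).trans hC)
  obtain ⟨R, hRH, hHR, cR, n7⟩ := hNC G H 7 (h ^ 2) (by norm_num) (pow_mem hhH 2) ox
    (hN.trans hZ) fun e => absurd (e.trans (d14 H le_rfl)) (by norm_num)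
  have xR : h ^ 2 ∈ normalizer (R : Set G) := hHR (pow_mem hhH 2)
  have uR : h ^ 7 ∈ R := by
    have hn : (R.subgroupOf H).Normal := (normal_subgroupOf_iff_le_normalizer hRH).2 hHR
    have hi : (R.subgroupOf H).index = 7 := by
      have := (R.subgroupOf H).card_mul_index
      rw [Nat.card_congr (subgroupOfEquivOfLe hRH).toEquiv, cR, mul_comm] at this
      exact Nat.eq_of_mul_eq_mul_right Nat.card_pos this
    have := (R.subgroupOf H).pow_index_mem ⟨h, hhH⟩
    rw [hi] at this
    exact this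
  have r7 : Nat.card R % 7 = 2 := by
    rw [hFIX G R 7 (h ^ 2) (by norm_num) ox xR]
    have h1 := d14 R hRH
    have h2 : 2 ∣ Nat.card ↥(R ⊓ centralizer ({h ^ 2} : Set G)) := by
      have o2 : orderOf (h ^ 7) = 2 := by rw [orderOf_pow' _ (by norm_num), oh]; rfl
      have := Subgroup.orderOf_dvd_natCard _ (mem_inf.2 ⟨uR, hZ (pow_mem (mem_zpowers h) 7)⟩)
      rwa [o2] at this
    have h3 : ¬ 7 ∣ Nat.card ↥(R ⊓ centralizer ({h ^ 2} : Set G)) := fun e =>
      n7 (e.trans (card_dvd_of_le inf_le_left))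
    have h4 := Nat.le_of_dvd (by norm_num) h1
    generalize Nat.card ↥(R ⊓ centralizer ({h ^ 2} : Set G)) = m at *
    interval_cases m <;> omega
  have part : ∀ q K : ℕ, q.Prime → q.Coprime 14 → ¬ q ^ (K + 1) ∣ 86775571046077562880 →
      q ∣ Nat.card R → ∃ k, 1 ≤ k ∧ k ≤ K ∧ q ^ k % 7 = 1 ∧
        ∃ A : Subgroup G, Nat.card A = q ^ k ∧ h ^ 2 ∈ normalizer (A : Set G) :=
    fun q K hq hco hK hqR => by
      obtain ⟨A, hAR, cA, xA⟩ := hINV G R 7 q (h ^ 2) (by norm_num) hq ox xR n7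
      refine ⟨_, hq.factorization_pos_of_dvd Nat.card_pos.ne' hqR, ?_, ?_, A, cA, xA⟩
      · by_contra hlt
        exact hK ((pow_dvd_pow q (by omega)).trans (cA ▸ dG A))
      · rw [← cA, hFIX G A 7 (h ^ 2) (by norm_num) ox xA]
        have h1 := d14 A (hAR.trans hRH)
        have h2 : Nat.card ↥(A ⊓ centralizer ({h ^ 2} : Set G)) ∣ q ^ (Nat.card R).factorization q :=
          cA ▸ card_dvd_of_le inf_le_left
        rw [Nat.eq_one_of_dvd_coprimes (hco.pow_left _) h2 h1]
  have no : ∀ q K : ℕ, q.Prime → q.Coprime 14 → ¬ q ^ (K + 1) ∣ 86775571046077562880 →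
      (∀ k ≤ K, 1 ≤ k → q ^ k % 7 ≠ 1) → Nat.card R % q ≠ 0 := fun q K hq hco hK hk e => by
    obtain ⟨k, h1, h2, h3, -⟩ := part q K hq hco hK (Nat.dvd_of_mod_eq_zero e)
    exact hk k h2 h1 h3
  have n3 := no 3 3 (by norm_num) (by norm_num) (by norm_num) (by decide)
  have n5 := no 5 1 (by norm_num) (by norm_num) (by norm_num) (by decide)
  have n23 := no 23 1 (by norm_num) (by norm_num) (by norm_num) (by decide)
  have n31 := no 31 1 (by norm_num) (by norm_num) (by norm_num) (by decide)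
  have n37 := no 37 1 (by norm_num) (by norm_num) (by norm_num) (by decide)
  have n11 : Nat.card R % 11 ≠ 0 := fun e => by
    obtain ⟨k, h1, h2, h3, A, cA, xA⟩ := part 11 3 (by norm_num) (by norm_num) (by norm_num)
      (Nat.dvd_of_mod_eq_zero e)
    have : Fact (Nat.Prime 11) := ⟨by norm_num⟩
    obtain rfl : k = 3 := by interval_cases k <;> simp_all
    obtain ⟨U, hU⟩ := sylw 11 3 A cA (fac 11 3 (by norm_num) (by norm_num) (by norm_num))
    have := Subgroup.orderOf_dvd_natCard _ xA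
    rw [ox, ← hU, (C.n11 U).2] at this
    norm_num at this
  have d86 : Nat.card R % 86 = 0 := by rw [cR] at d602; omega
  have := hALLD _ P43.a2 _ (dG R)
  rw [cR] at s43 okH
  simp only [P43.t2, d86, r7, s43, okH, bne_self_eq_false, Bool.not_true, Bool.false_or,
    Bool.or_false, Bool.or_eq_true, beq_iff_eq, n3, n5, n11, n23, n31, n37, false_or] at this
  exact hH.ne (eq_of_le_of_card_ge hH.le (by rw [cR, this, cM]))

end Cfsg.Agent.H97.JM
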