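import Mathlib
import Cfsg.Agent.H41.JU3Defs
import Cfsg.Agent.H33.JmFIX
import Cfsg.Agent.H55.JmFR
import Cfsg.Agent.H33.J4Odd1

/-!
# The subgroup of order 6048 is simple
-/

set_option autoImplicit false

namespace Cfsg.Agent.H41.JU3

open Subgroup Cfsg.Agent.H97.JM Cfsg.Agent.H33.J4O

universe u

theorem pSIM : SIM.{u} := by
  intro G _ _ ctx M F x y v w s rel cM cR hRM hBM cls cy so sM cs cF hN
  have hxR : x ∈ RR x y v := subset_closure (by simp)
  have hyR : y ∈ RR x y v := subset_closure (by simp)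
  have hvR : v ∈ RR x y v := subset_closure (by simp)
  have y1 : y ≠ 1 := by
    intro e
    apply rel.x1
    have := rel.vy
    rw [e, mul_one, one_mul] at this
    exact (mul_eq_left.1 this.symm)
  haveI : Nontrivial M := Finite.one_lt_card_iff_nontrivial.1 (by rw [cM]; norm_num)
  refine ⟨fun N0 hN0 => ?_⟩
  set N : Subgroup G := N0.map M.subtype with hNdef
  have hNM : N ≤ M := map_subtype_le N0
  have hMN : M ≤ normalizer (N : Set G) := by
    intro m hm
    refine mem_norm_of ?_
    rintro _ ⟨a, ha, rfl⟩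
    exact ⟨⟨m, hm⟩ * a * ⟨m, hm⟩⁻¹, hN0.conj_mem a ha _, rfl⟩
  have cN : Nat.card N = Nat.card N0 := card_map_of_injective M.subtype_injective
  by_cases hb : N ⊓ RR x y v = ⊥
  · left
    have h27 : 27 ∣ N0.index := by
      have h1 := relIndex_dvd_index_of_normal N0 ((RR x y v).subgroupOf M)
      have h2 : N0 ⊓ (RR x y v).subgroupOf M = ⊥ := by
        rw [eq_bot_iff]
        intro a ha
        have : (a : G) ∈ N ⊓ RR x y v := ⟨⟨a, ha.1, rfl⟩, ha.2⟩
        rw [hb, mem_bot] at this
        exact mem_bot.2 (Subtype.ext this)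
      rw [← inf_relIndex_right, h2, relIndex_bot_left,
        Nat.card_congr (subgroupOfEquivOfLe hRM).toEquiv, cR] at h1
      exact h1
    have h224 : Nat.card N ∣ 224 := by
      obtain ⟨k, hk⟩ := h27
      have := N0.card_mul_index
      rw [cM, hk, ← cN] at this
      exact ⟨k, by nlinarith⟩
    have h7 : ¬ 7 ∣ Nat.card N := by
      intro h7
      haveI : Fact (Nat.Prime 7) := ⟨by norm_num⟩
      obtain ⟨a, ha, ao⟩ := exists_ord (by norm_num) h7
      obtain ⟨P, hP⟩ := exists_sylow (p := 7) (A := zpowers a) (k := 1)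
        (by rw [Nat.card_zpowers, ao]; norm_num) (by rw [ctx.card]; norm_num)
      have h := pFR G 7 P N M (by rw [hP]; exact zpowers_le.2 ha) hNM hMN
      rw [hP, ctx.n7 a ao, cM] at h
      have := h.trans (Nat.mul_dvd_mul_right h224 2520)
      norm_num at this
    have h32 : Nat.card N ∣ 32 := by
      have hc : (Nat.card N).Coprime 7 :=
        ((Nat.Prime.coprime_iff_not_dvd (by norm_num)).2 h7).symm
      exact hc.dvd_of_dvd_mul_right (show Nat.card N ∣ 32 * 7 from h224)
    have f7 := pFIX G N 7 s (by norm_num) so (hMN sM)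
    have c7 : Nat.card ↥(N ⊓ centralizer ({s} : Set G)) = 1 := by
      have h1 : Nat.card ↥(N ⊓ centralizer ({s} : Set G)) ∣ 21 := by
        rw [← cF]; exact card_dvd_of_le ((inf_le_inf_right _ hNM).trans cs)
      have h2 : Nat.card ↥(N ⊓ centralizer ({s} : Set G)) ∣ 32 :=
        (card_dvd_of_le inf_le_left).trans h32
      exact Nat.eq_one_of_dvd_coprimes (by norm_num) h1 h2
    have yo : orderOf y = 3 := by
      haveI : Fact (Nat.Prime 3) := ⟨by norm_num⟩
      exact orderOf_eq_prime rel.y3 y1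
    have f3 := pFIX G N 3 y (by norm_num) yo (hMN (hRM hyR))
    have c3 : Nat.card ↥(N ⊓ centralizer ({y} : Set G)) = 1 := by
      rw [card_eq_one, eq_bot_iff, ← hb]
      exact le_inf inf_le_left ((inf_le_inf_right _ hNM).trans cy)
    rw [c7] at f7
    rw [c3] at f3
    have hle := Nat.le_of_dvd (by norm_num) h32
    have h1 : Nat.card N = 1 := by
      have : Nat.card N = 1 ∨ Nat.card N = 22 := by omega
      rcases this with h | h
      · exact h
      · rw [h] at h32; norm_num at h32
    rw [cN] at h1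
    exact card_eq_one.1 h1
  · right
    obtain ⟨⟨g, hg⟩, g1⟩ := (ne_bot_iff_exists_ne_one).1 hb
    have g1' : g ≠ 1 := fun e => g1 (Subtype.ext e)
    obtain ⟨b, hbB, e⟩ := cls g hg.2 g1'
    have hc : b * g * b⁻¹ ∈ N := norm_mem (hMN (hBM hbB)) hg.1
    have hx : x ∈ N := by
      rcases e with e | e
      · rwa [e] at hc
      · rw [e] at hc
        have h1 : v * y * v⁻¹ ∈ N := norm_mem (hMN (hRM hvR)) hc
        have e2 : x = y⁻¹ * (v * y * v⁻¹) := by
          rw [rel.vy, mul_assoc y v x, ← rel.xv]; group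
        rw [e2]; exact mul_mem (inv_mem hc) h1
    have hle := hN N hMN hx
    rw [eq_top_iff]
    intro m _
    obtain ⟨a, ha, e⟩ := hle m.2
    have : a = m := Subtype.ext e
    rwa [← this]

end Cfsg.Agent.H41.JU3
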