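/-
The orthogonal groups `Ω` are generated by two elements.
-/
import Cfsg.Agent.H30.DecCore
import Cfsg.Agent.H30.OrthBridge
import Cfsg.Agent.H78.TwoGen
import Cfsg.Agent.H30.OrthMaxTS
import Cfsg.Agent.H79.QuadWitt

set_option autoImplicit false

namespace Cfsg.Agent.H79

open QuadraticMap Module Polynomial Cfsg.Agent.H30

variable {F V : Type*} [Field F] [AddCommGroup V] [Module F V] {Q : QuadraticForm F V}

/-- The vectors `z` such that all `eich d (t z)` lie in `M`. -/
def AS (M : Subgroup (O Q)) {d : V} (hd : Q d = 0) : Submodule F V where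
  carrier := {z | polar Q d z = 0 ∧ ∀ t : F, eich Q d (t • z) ∈ M}
  zero_mem' := ⟨polar_zero_right _ _, fun t => by rw [smul_zero, eich_zero]; exact M.one_mem⟩
  add_mem' := fun {y z} hy hz => ⟨by rw [polar_add_right, hy.1, hz.1, add_zero], fun t => by
    rw [smul_add, ← eich_mul hd (by rw [polar_smul_right', hy.1, mul_zero])
      (by rw [polar_smul_right', hz.1, mul_zero])]
    exact M.mul_mem (hy.2 t) (hz.2 t)⟩
  smul_mem' := fun c z hz => ⟨by rw [polar_smul_right', hz.1, mul_zero], fun t => by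
    rw [smul_smul]; exact hz.2 _⟩

section AS

variable {M : Subgroup (O Q)} {d d' z a b : V}

theorem AS_map {hd : Q d = 0} (hd' : Q d' = 0) {g : O Q} (hg : g ∈ M) (h : g.1 d = d')
    (hz : z ∈ AS M hd) : g.1 z ∈ AS M hd' := by
  subst h
  refine ⟨by rw [O_polar, hz.1], fun t => ?_⟩
  rw [← map_smul]
  exact eich_conj_mem hg (hz.2 t)

theorem AS_swap {hd : Q d = 0} (hz0 : Q z = 0) (hz : z ∈ AS M hd) : d ∈ AS M hz0 := by
  refine ⟨by rw [polar_comm, hz.1], fun t => ?_⟩
  by_cases ht : t = 0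
  · rw [ht, zero_smul, eich_zero]; exact M.one_mem
  · rw [eich_swap hz0 (by rw [Q_smul, hd, mul_zero]), eich_smul_left ht, smul_neg, ← neg_smul]
    exact hz.2 _

theorem self_mem_AS (hd : Q d = 0) : d ∈ AS M hd :=
  ⟨by rw [polar_self', hd, mul_zero], fun t => by rw [eich_smul_self]; exact M.one_mem⟩

theorem AS_rule {hd : Q d = 0} (ha : Q a = 0) (hab : polar Q a b = 0) (hg : eich Q a b ∈ M)
    (hda : polar Q d a = 0) (hdb : polar Q d b = 0) (hz : z ∈ AS M hd) (hza : polar Q z a ≠ 0)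
    (h : a ∈ AS M hd ∨ (Q b = 0 ∧ polar Q z b = 0)) : b ∈ AS M hd := by
  have h1 := AS_map hd hg (eich_apply_of_orth hda hdb) hz
  rw [eich_apply ha hab] at h1
  have h2 : polar Q z a • b ∈ AS M hd := by
    rcases h with h | ⟨h, h'⟩
    · have := (AS M hd).add_mem ((AS M hd).add_mem ((AS M hd).sub_mem h1 hz)
        ((AS M hd).smul_mem (polar Q z b) h)) ((AS M hd).smul_mem (Q b * polar Q z a) h)
      convert this using 1
      abel
    · have := (AS M hd).sub_mem h1 hz
      rw [h, h'] at this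
      convert this using 1
      simp
  exact ((AS M hd).smul_mem_iff hza).1 h2

end AS

theorem eich_pow {u v : V} (hu : Q u = 0) (hv : polar Q u v = 0) (k : ℕ) :
    eich Q u v ^ k = eich Q u ((k : F) • v) := by
  induction k with
  | zero => simp [eich_zero]
  | succ k ih =>
    rw [pow_succ, ih, eich_mul hu (by rw [polar_smul_right', hv, mul_zero]) hv, Nat.cast_succ,
      add_smul, one_smul]

theorem coprime_orderOf_of_aeval [Finite F] [FiniteDimensional F V] {p : ℕ} [Fact p.Prime]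
    [CharP F p] (t : O Q) {P : F[X]} (hP : Squarefree P)
    (h : aeval (t.1 : V →ₗ[F] V) P = 0) : p.Coprime (orderOf t) := by
  have : Finite (O Q) := finite_O
  have hs := Module.End.isSemisimple_of_squarefree_aeval_eq_zero hP h
  rw [(Fact.out : p.Prime).coprime_iff_not_dvd]
  rintro ⟨k, hk⟩
  have hpos : 0 < orderOf t := orderOf_pos t
  have hk0 : k ≠ 0 := by rintro rfl; omega
  have hlt : k < orderOf t := by
    rw [hk]; exact lt_mul_of_one_lt_left (Nat.pos_of_ne_zero hk0) (Fact.out : p.Prime).one_lt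
  have hpow : ∀ j : ℕ, ((t ^ j).1 : V →ₗ[F] V) = (t.1 : V →ₗ[F] V) ^ j := fun j => by
    induction j with
    | zero => rfl
    | succ j ih => rw [pow_succ, pow_succ, ← ih]; rfl
  have h1 : IsNilpotent (aeval (t.1 : V →ₗ[F] V) (X ^ k - 1 : F[X])) := by
    refine ⟨p, ?_⟩
    rw [← map_pow, sub_pow_char, one_pow, ← pow_mul, mul_comm, ← hk, map_sub, map_pow, aeval_X,
      ← hpow, pow_orderOf_eq_one, map_one]
    exact sub_self _
  have h2 := Module.End.eq_zero_of_isNilpotent_isSemisimple h1 (hs.aeval _)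
  rw [map_sub, map_pow, aeval_X, map_one, sub_eq_zero, ← hpow] at h2
  exact pow_ne_one_of_lt_orderOf hk0 hlt (O_ext fun v => LinearMap.congr_fun h2 v)

theorem squarefree_cubic {s : F} (h1 : s - 2 ≠ 0) (h2 : s + 2 ≠ 0) :
    Squarefree ((X ^ 2 - C s * X + 1) * (X - 1) : F[X]) := by
  apply Separable.squarefree
  have h4 : 4 - s ^ 2 ≠ 0 := fun h => mul_ne_zero h1 h2 (by linear_combination -h)
  refine Separable.mul ?_ (by simpa using separable_X_sub_C (x := (1 : F))) ?_
  · refine ⟨C (4 - s ^ 2)⁻¹ * 4, -(C (4 - s ^ 2)⁻¹ * (2 * X - C s)), ?_⟩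
    have e : (C (4 - s ^ 2)⁻¹ * C (4 - s ^ 2) : F[X]) = 1 := by
      rw [← map_mul, inv_mul_cancel₀ h4, map_one]
    simp only [derivative_add, derivative_sub, derivative_X_pow, derivative_mul, derivative_C,
      derivative_X, derivative_one, Nat.cast_ofNat, map_ofNat]
    simp only [map_sub, map_pow, map_ofNat] at e
    linear_combination e
  · refine ⟨-C (s - 2)⁻¹, C (s - 2)⁻¹ * (X + 1 - C s), ?_⟩
    have e : (C (s - 2)⁻¹ * C (s - 2) : F[X]) = 1 := by
      rw [← map_mul, inv_mul_cancel₀ h1, map_one]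
    simp only [map_sub, map_ofNat] at e
    linear_combination e

theorem exists_trace_elt [Finite F] [FiniteDimensional F V] {p : ℕ} [Fact p.Prime] [CharP F p]
    {e₁ e₂ f₁ f₂ : V} (h₁ : H30.IsHyp Q e₁ f₁) (h₂ : H30.IsHyp Q e₂ f₂) (hee : polar Q e₁ e₂ = 0)
    (hef : polar Q e₁ f₂ = 0) (hfe : polar Q f₁ e₂ = 0) (hff : polar Q f₁ f₂ = 0) {s : F}
    (h1 : s - 2 ≠ 0) (h2 : s + 2 ≠ 0) :
    ∃ t ∈ eichGroup Q, (∀ x, polar Q x e₁ = 0 → polar Q x e₂ = 0 → polar Q x f₁ = 0 →
      polar Q x f₂ = 0 → t.1 x = x) ∧ t.1 e₁ = (s - 1) • e₁ + e₂ ∧ t.1 e₂ = (s - 2) • e₁ + e₂ ∧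
      p.Coprime (orderOf t) := by
  set t := eich Q e₁ ((2 - s) • f₂) * eich Q e₂ (-f₁) with ht
  have a11 : polar Q e₁ e₁ = 0 := by rw [polar_self', h₁.left, mul_zero]
  have a22 : polar Q e₂ e₂ = 0 := by rw [polar_self', h₂.left, mul_zero]
  have b11 : polar Q f₁ f₁ = 0 := by rw [polar_self', h₁.right, mul_zero]
  have b22 : polar Q f₂ f₂ = 0 := by rw [polar_self', h₂.right, mul_zero]
  have c1 := h₁.pol
  have c2 := h₂.pol
  have c1' : polar Q f₁ e₁ = 1 := by rw [polar_comm, c1]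
  have c2' : polar Q f₂ e₂ = 1 := by rw [polar_comm, c2]
  have hee' : polar Q e₂ e₁ = 0 := by rw [polar_comm, hee]
  have hef' : polar Q f₂ e₁ = 0 := by rw [polar_comm, hef]
  have hfe' : polar Q e₂ f₁ = 0 := by rw [polar_comm, hfe]
  have hff' : polar Q f₂ f₁ = 0 := by rw [polar_comm, hff]
  have key : ∀ x, t.1 x = x + ((2 - s) * polar Q x e₁) • f₂ - ((2 - s) * polar Q x f₂) • e₁
      - polar Q x e₂ • (f₁ + (2 - s) • f₂) + polar Q x f₁ • (e₂ - (2 - s) • e₁) := by
    intro x
    rw [ht, O_mul_apply, eich_apply h₂.left (by rw [polar_neg_right, hfe', neg_zero]),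
      eich_apply h₁.left (by rw [polar_smul_right', hef, mul_zero])]
    simp only [polar_add_left, polar_sub_left, polar_smul_left', polar_smul_right', polar_neg_left,
      polar_neg_right, QuadraticMap.map_neg, Q_smul, h₁.right, h₂.right, c1', c2, hee', hff]
    module
  have t1 : t.1 e₁ = (s - 1) • e₁ + e₂ := by rw [key, a11, hef, hee, c1]; module
  have t2 : t.1 e₂ = (s - 2) • e₁ + e₂ := by rw [key, hee', c2, a22, hfe']; module
  have t3 : t.1 f₁ = f₁ + (2 - s) • f₂ := by rw [key, c1', hff, hfe, b11]; module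
  have t4 : t.1 f₂ = (s - 1) • f₂ - f₁ := by rw [key, hef', b22, c2', hff']; module
  refine ⟨t, mul_mem (eich_mem_eichGroup _ _) (eich_mem_eichGroup _ _), fun x x1 x2 x3 x4 => ?_,
    t1, t2, coprime_orderOf_of_aeval t (squarefree_cubic h1 h2) ?_⟩
  · rw [key, x1, x2, x3, x4]; module
  · ext x
    have e : t.1 x - x = ((2 - s) * polar Q x e₁) • f₂ - ((2 - s) * polar Q x f₂) • e₁
        - polar Q x e₂ • (f₁ + (2 - s) • f₂) + polar Q x f₁ • (e₂ - (2 - s) • e₁) := by
      rw [key]; abel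
    simp only [map_mul, map_add, map_sub, map_pow, aeval_X, aeval_C, map_one, Module.End.mul_apply,
      LinearMap.sub_apply, LinearMap.add_apply, Module.End.one_apply, LinearEquiv.coe_coe, pow_two,
      Module.algebraMap_end_apply, LinearMap.zero_apply]
    have : t.1 (t.1 (t.1 x - x)) - s • t.1 (t.1 x - x) + (t.1 x - x) = 0 := by
      rw [e]
      simp only [map_add, map_sub, map_smul, t1, t2, t3, t4]
      module
    rw [← this]
    simp only [map_sub]
    module

theorem exists_good_trace (F : Type*) [Field F] [Finite F] :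
    ∃ s : F, s - 2 ≠ 0 ∧ s + 2 ≠ 0 ∧ ∀ U : AddSubgroup F, ∀ c ∈ U, c ≠ 0 →
      (∀ x ∈ U, s * x ∈ U) → ∀ x, x ∈ U := by
  obtain ⟨ζ, h0, hζ⟩ := H78.exists_generator_field F
  have key : ∀ U : AddSubgroup F, ∀ c ∈ U, c ≠ 0 → (∀ x ∈ U, ζ * x ∈ U) → ∀ x, x ∈ U := by
    intro U c hc hc0 hU x
    by_cases hx : x = 0
    · rw [hx]; exact U.zero_mem
    obtain ⟨k, hk⟩ := hζ (x / c) (div_ne_zero hx hc0)
    have : ∀ j : ℕ, ζ ^ j * c ∈ U := fun j => by
      induction j with
      | zero => simpa using hc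
      | succ j ih => rw [pow_succ', mul_assoc]; exact hU _ ih
    have := this k
    rwa [hk, div_mul_cancel₀ _ hc0] at this
  by_cases h : ζ - 2 ≠ 0 ∧ ζ + 2 ≠ 0
  · exact ⟨ζ, h.1, h.2, key⟩
  · have h' : ζ = 2 ∨ ζ = -2 := by
      by_contra hn
      push Not at hn
      exact h ⟨sub_ne_zero.2 hn.1, fun e => hn.2 (by linear_combination e)⟩
    have h2 : (2 : F) ≠ 0 := by
      rcases h' with e | e
      · rwa [← e]
      · intro h2; apply h0; rw [e, h2, neg_zero]
    refine ⟨0, by simpa using h2, by simpa using h2, fun U c hc hc0 _ => key U c hc hc0 ?_⟩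
    intro x hx
    rcases h' with e | e
    · rw [e, two_mul]; exact U.add_mem hx hx
    · rw [e, neg_mul, two_mul]; exact U.neg_mem (U.add_mem hx hx)

theorem two_gen_core [Finite F] [FiniteDimensional F V] (hQ : (polarBilin Q).Nondegenerate)
    {n : ℕ} (hn : 3 ≤ n) {w : O Q} (hw : w ∈ eichGroup Q) {a y : ℕ → V}
    (ha : ∀ k, a (k + 1) = w.1 (a k)) (hy : ∀ k, y (k + 1) = w.1 (y k)) (h0 : Q (a 0) = 0)
    (hβ : ∀ j < 2 * n, j ≠ n → polar Q (a 0) (a j) = 0) (hβn : polar Q (a 0) (a n) ≠ 0)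
    (hper : a (2 * n) = a 0) (hay : ∀ k, polar Q (a 0) (y k) = 0) (hy0 : y 0 ≠ 0)
    (hspan : ∀ S : Submodule F V, (∀ j < 2 * n, a j ∈ S) → y 1 ∈ S → y 2 ∈ S → ∀ x, x ∈ S) :
    ∃ x ∈ eichGroup Q, ∃ z ∈ eichGroup Q, ∀ M : Subgroup (O Q), x ∈ M → z ∈ M →
      eichGroup Q ≤ M := by
  obtain ⟨p, hp⟩ := CharP.exists F
  have : Fact p.Prime := ⟨CharP.char_is_prime F p⟩
  have hQa : ∀ k, Q (a k) = 0 := fun k => by
    induction k with
    | zero => exact h0
    | succ k ih => rw [ha, O_map, ih]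
  have shift : ∀ (b c : ℕ → V), (∀ k, b (k + 1) = w.1 (b k)) → (∀ k, c (k + 1) = w.1 (c k)) →
      ∀ i j k, polar Q (b (i + k)) (c (j + k)) = polar Q (b i) (c j) := by
    intro b c hb hc i j k
    induction k with
    | zero => rfl
    | succ k ih => rw [← add_assoc, ← add_assoc, hb, hc, O_polar, ih]
  have per : ∀ k, a (2 * n + k) = a k := fun k => by
    induction k with
    | zero => exact hper
    | succ k ih => rw [← add_assoc, ha, ih, ha]
  have per' : ∀ k, a (2 * n * k) = a 0 := fun k => by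
    induction k with
    | zero => rfl
    | succ k ih => rw [mul_add, mul_one, add_comm, per, ih]
  have paa : ∀ i j, i ≤ j → j < i + 2 * n → j ≠ i + n → polar Q (a i) (a j) = 0 := by
    intro i j h1 h2 h3
    have := shift a a ha ha 0 (j - i) i
    rw [zero_add, Nat.sub_add_cancel h1] at this
    rw [this]
    exact hβ _ (by omega) (by omega)
  have paa' : ∀ i j, i ≤ j → j < i + 2 * n → j ≠ i + n → polar Q (a j) (a i) = 0 := by
    intro i j h1 h2 h3
    rw [polar_comm, paa i j h1 h2 h3]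
  have pan : ∀ i, polar Q (a i) (a (i + n)) = polar Q (a 0) (a n) := fun i => by
    have := shift a a ha ha 0 n i
    rwa [zero_add, add_comm n i] at this
  have pay : ∀ i j, polar Q (a i) (y j) = 0 := fun i j => by
    have h1 : i ≤ 2 * n * i := Nat.le_mul_of_pos_left i (by omega)
    have := shift a y ha hy i j (2 * n * i - i)
    rw [Nat.add_sub_cancel' h1, per'] at this
    rw [← this, hay]
  set β := polar Q (a 0) (a n) with hβdef
  have hyp : ∀ i, H30.IsHyp Q (a i) (β⁻¹ • a (i + n)) := fun i =>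
    ⟨hQa i, by rw [Q_smul, hQa, mul_zero], by rw [polar_smul_right', pan, inv_mul_cancel₀ hβn]⟩
  obtain ⟨s, hs1, hs2, hs⟩ := exists_good_trace F
  obtain ⟨t, htE, hfix, t1, t2, hcop⟩ := exists_trace_elt (p := p) (hyp 1) (hyp 2)
    (paa 1 2 (by omega) (by omega) (by omega))
    (by rw [polar_smul_right', paa 1 _ (by omega) (by omega) (by omega), mul_zero])
    (by rw [polar_smul_left', paa' 2 _ (by omega) (by omega) (by omega), mul_zero])
    (by rw [polar_smul_left', polar_smul_right', paa _ _ (by omega) (by omega) (by omega),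
      mul_zero, mul_zero]) hs1 hs2
  have ta : t.1 (a 0) = a 0 := hfix _ (hβ 1 (by omega) (by omega)) (hβ 2 (by omega) (by omega))
    (by rw [polar_smul_right', hβ _ (by omega) (by omega), mul_zero])
    (by rw [polar_smul_right', hβ _ (by omega) (by omega), mul_zero])
  have ty : t.1 (y 0) = y 0 := hfix _ (by rw [polar_comm, pay]) (by rw [polar_comm, pay])
    (by rw [polar_smul_right', polar_comm, pay, mul_zero])
    (by rw [polar_smul_right', polar_comm, pay, mul_zero])
  refine ⟨eich Q (a 0) (y 0) * t, mul_mem (eich_mem_eichGroup _ _) htE, w, hw, fun M hx hwM => ?_⟩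
  have hcomm : Commute (eich Q (a 0) (y 0)) t := by
    have := eich_conj t (a 0) (y 0)
    rw [ta, ty, mul_inv_eq_iff_eq_mul] at this
    exact this.symm
  have htM : t ∈ M := by
    have h1 := M.pow_mem hx p
    rw [hcomm.mul_pow, eich_pow h0 (hay 0), CharP.cast_eq_zero, zero_smul, eich_zero, one_mul] at h1
    obtain ⟨m, hm⟩ := exists_pow_eq_self_of_coprime hcop
    rw [← hm]
    exact M.pow_mem h1 m
  have hx0 : eich Q (a 0) (y 0) ∈ M := (M.mul_mem_cancel_right htM).1 hx
  have hxk : ∀ k, eich Q (a k) (y k) ∈ M := fun k => by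
    induction k with
    | zero => exact hx0
    | succ k ih => rw [ha, hy]; exact eich_conj_mem hwM ih
  -- the additive group attached to `a 0`
  let A : AddSubgroup V :=
    { carrier := {z | polar Q (a 0) z = 0 ∧ eich Q (a 0) z ∈ M}
      zero_mem' := ⟨polar_zero_right _ _, by rw [eich_zero]; exact M.one_mem⟩
      add_mem' := fun {u v} hu hv => ⟨by rw [polar_add_right, hu.1, hv.1, add_zero], by
        rw [← eich_mul h0 hu.1 hv.1]; exact M.mul_mem hu.2 hv.2⟩
      neg_mem' := fun {u} hu => ⟨by rw [polar_neg_right, hu.1, neg_zero], by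
        rw [← eich_inv]; exact M.inv_mem hu.2⟩ }
  have Amap : ∀ g ∈ M, g.1 (a 0) = a 0 → ∀ z ∈ A, g.1 z ∈ A := fun g hg hg0 z hz =>
    ⟨by rw [← hg0, O_polar, hz.1], by rw [← hg0]; exact eich_conj_mem hg hz.2⟩
  have At := Amap t htM ta
  have At' := Amap t⁻¹ (M.inv_mem htM) (O_inv_apply_eq.2 ta.symm)
  have first : ∀ j, j < 2 * n → j ≠ n → polar Q (y 0) (y j) • a j ∈ A := by
    intro j h1 h2
    have h3 := Amap _ (hxk j) (eich_apply_of_orth (hβ j h1 h2) (hay j)) _ ⟨hay 0, hx0⟩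
    rw [eich_apply_of_orth_left (hQa j) (pay j j) (by rw [polar_comm, pay])] at h3
    have := A.sub_mem (show y 0 ∈ A from ⟨hay 0, hx0⟩) h3
    rwa [sub_sub_cancel] at this
  have line : ∀ v : V, t.1 v + (t⁻¹).1 v = s • v → ∀ c : F, c ≠ 0 → c • v ∈ A →
      ∀ x : F, x • v ∈ A := by
    intro v hv c hc hcA
    let U : AddSubgroup F :=
      { carrier := {x | x • v ∈ A}
        zero_mem' := by simp
        add_mem' := fun {x x'} hx hx' => by simpa [add_smul] using A.add_mem hx hx'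
        neg_mem' := fun {x} hx => by simpa using hx }
    refine hs U c hcA hc fun x hx => ?_
    have := A.add_mem (At _ hx) (At' _ hx)
    rw [map_smul, map_smul, ← smul_add, hv, smul_smul, mul_comm] at this
    exact this
  have l1 : t.1 (a 1) + (t⁻¹).1 (a 1) = s • a 1 := by
    have : (t⁻¹).1 (a 1) = a 1 - a 2 := O_inv_apply_eq.2 (by rw [map_sub, t1, t2]; module)
    rw [this, t1]; module
  have l2 : t.1 (a 2) + (t⁻¹).1 (a 2) = s • a 2 := by
    have : (t⁻¹).1 (a 2) = (s - 1) • a 2 - (s - 2) • a 1 :=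
      O_inv_apply_eq.2 (by rw [map_sub, map_smul, map_smul, t1, t2]; module)
    rw [this, t2]; module
  have both : (∀ x : F, x • a 1 ∈ A) ∧ ∀ x : F, x • a 2 ∈ A := by
    by_cases c1 : polar Q (y 0) (y 1) = 0
    · have c2 : polar Q (y 0) (y 2) ≠ 0 := by
        intro c2
        apply hy0
        apply eq_zero_of_polar hQ
        exact hspan (LinearMap.ker (polarBilin Q (y 0)))
          (fun j _ => (polar_comm _ _ _).trans (pay j 0)) c1 c2
      have h2 := line _ l2 _ c2 (first 2 (by omega) (by omega))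
      refine ⟨fun x => ?_, h2⟩
      have := A.sub_mem (At _ (h2 (x / (s - 2)))) (h2 (x / (s - 2)))
      rw [map_smul, t2, smul_add, add_sub_cancel_right, smul_smul, div_mul_cancel₀ _ hs1] at this
      exact this
    · have h1 := line _ l1 _ c1 (first 1 (by omega) (by omega))
      refine ⟨h1, fun x => ?_⟩
      have := A.sub_mem (At _ (h1 x)) (h1 (x * (s - 1)))
      rw [map_smul, t1, smul_add, smul_smul, add_sub_cancel_left] at this
      exact this
  let S : ℕ → ℕ → Prop := fun i j => a j ∈ AS M (hQa i)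
  have Sshift : ∀ i j k, S i j → S (i + k) (j + k) := by
    intro i j k h
    induction k with
    | zero => exact h
    | succ k ih =>
      change a (j + k + 1) ∈ AS M (hQa (i + k + 1))
      rw [ha (j + k)]
      exact AS_map _ hwM (ha _).symm ih
  have S1 : S 0 1 := ⟨hβ 1 (by omega) (by omega), fun x => (both.1 x).2⟩
  have S2 : S 0 2 := ⟨hβ 2 (by omega) (by omega), fun x => (both.2 x).2⟩
  have Srule : ∀ i j k, S 0 i → S k j → polar Q (a 0) (a k) = 0 → polar Q (a 0) (a j) = 0 →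
      polar Q (a i) (a k) ≠ 0 → polar Q (a i) (a j) = 0 → S 0 j := by
    intro i j k h1 h2 h3 h4 h5 h6
    exact AS_rule (hQa k) h2.1 (by simpa using h2.2 1) h3 h4 h1 h5 (Or.inr ⟨hQa j, h6⟩)
  have S3 : S 0 (n + 1) := by
    refine Srule 2 _ (2 + n) S2 (AS_swap (hd := hQa _) _ ?_) (hβ _ (by omega) (by omega))
      (hβ _ (by omega) (by omega)) (by rwa [pan]) (paa _ _ (by omega) (by omega) (by omega))
    have := Sshift 0 1 (n + 1) S1
    rwa [zero_add, show 1 + (n + 1) = 2 + n by omega] at this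
  have Sstep : ∀ i, 0 < i → i + 1 < 2 * n → i + 1 ≠ n → i ≠ n → S 0 i → S 0 (i + 1) := by
    intro i h1 h2 h3 h4 h
    refine Srule i _ (i + n) h ?_ ?_ (hβ _ h2 h3) (by rwa [pan])
      (paa _ _ (by omega) (by omega) (by omega))
    · have := Sshift 0 (n + 1) (i + n) S3
      change a _ ∈ _ at this
      rw [show n + 1 + (i + n) = 2 * n + (i + 1) by omega, per] at this
      simpa only [zero_add] using this
    · by_cases h5 : i < n
      · exact hβ _ (by omega) (by omega)
      · rw [show i + n = 2 * n + (i - n) by omega, per]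
        exact hβ _ (by omega) (by omega)
  have Sall : ∀ j, j < 2 * n → j ≠ n → S 0 j := by
    intro j
    induction j with
    | zero => exact fun _ _ => self_mem_AS _
    | succ j ih =>
      intro h1 h2
      by_cases h3 : j = 0
      · subst h3; exact S1
      by_cases h4 : j = n
      · subst h4; exact S3
      exact Sstep j (by omega) h1 h2 h4 (ih (by omega) h4)
  have Sy : ∀ j, 0 < j → j < n → y j ∈ AS M (hQa 0) := fun j h1 h2 =>
    AS_rule (hQa j) (pay j j) (hxk j) (hβ j (by omega) (by omega)) (hay j)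
      (Sall (j + n) (by omega) (by omega)) (by rwa [polar_comm, pan])
      (Or.inl (Sall j (by omega) (by omega)))
  have full : FullAt M (a 0) := by
    refine ⟨h0, fun z hz => ?_⟩
    have h1 := hspan (AS M (hQa 0) ⊔ Submodule.span F {a n}) (fun j hj => by
      by_cases h : j = n
      · exact Submodule.mem_sup_right (h ▸ Submodule.mem_span_singleton_self _)
      · exact Submodule.mem_sup_left (Sall j hj h))
      (Submodule.mem_sup_left (Sy 1 (by omega) (by omega)))
      (Submodule.mem_sup_left (Sy 2 (by omega) (by omega))) z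
    obtain ⟨u, hu, v, hv, rfl⟩ := Submodule.mem_sup.1 h1
    obtain ⟨c, rfl⟩ := Submodule.mem_span_singleton.1 hv
    rw [polar_add_right, hu.1, zero_add, polar_smul_right', mul_eq_zero, or_iff_left hβn] at hz
    rw [hz, zero_smul, add_zero]
    simpa using hu.2 1
  have full' : ∀ k, FullAt M (a k) := fun k => by
    induction k with
    | zero => exact full
    | succ k ih => rw [ha]; exact ih.conj hwM
  exact full.eichGroup_le hQ (full' n) hβn

theorem exists_swap_pairs {e₁ e₂ f₁ f₂ : V} (h₁ : H30.IsHyp Q e₁ f₁) (h₂ : H30.IsHyp Q e₂ f₂)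
    (hee : polar Q e₁ e₂ = 0) (hef : polar Q e₁ f₂ = 0) (hfe : polar Q f₁ e₂ = 0)
    (hff : polar Q f₁ f₂ = 0) :
    ∃ g ∈ eichGroup Q, (∀ x, polar Q x e₁ = 0 → polar Q x e₂ = 0 → polar Q x f₁ = 0 →
      polar Q x f₂ = 0 → g.1 x = x) ∧ g.1 e₁ = e₂ ∧ g.1 e₂ = -e₁ ∧ g.1 f₁ = f₂ ∧ g.1 f₂ = -f₁ := by
  have a11 : polar Q e₁ e₁ = 0 := by rw [polar_self', h₁.left, mul_zero]
  have a22 : polar Q e₂ e₂ = 0 := by rw [polar_self', h₂.left, mul_zero]
  have b11 : polar Q f₁ f₁ = 0 := by rw [polar_self', h₁.right, mul_zero]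
  have b22 : polar Q f₂ f₂ = 0 := by rw [polar_self', h₂.right, mul_zero]
  have c1 := h₁.pol
  have c2 := h₂.pol
  have c1' : polar Q f₁ e₁ = 1 := by rw [polar_comm, c1]
  have c2' : polar Q f₂ e₂ = 1 := by rw [polar_comm, c2]
  have hee' : polar Q e₂ e₁ = 0 := by rw [polar_comm, hee]
  have hef' : polar Q f₂ e₁ = 0 := by rw [polar_comm, hef]
  have hfe' : polar Q e₂ f₁ = 0 := by rw [polar_comm, hfe]
  have hff' : polar Q f₂ f₁ = 0 := by rw [polar_comm, hff]
  have hA : ∀ x, (eich Q e₂ (-f₁)).1 x = x - polar Q x e₂ • f₁ + polar Q x f₁ • e₂ := fun x => by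
    rw [eich_apply h₂.left (by rw [polar_neg_right, hfe', neg_zero]), QuadraticMap.map_neg,
      h₁.right, polar_neg_right]
    module
  have hC : ∀ x, (eich Q e₁ f₂).1 x = x + polar Q x e₁ • f₂ - polar Q x f₂ • e₁ := fun x => by
    rw [eich_apply h₁.left hef, h₂.right]
    module
  have A1 : (eich Q e₂ (-f₁)).1 e₁ = e₁ + e₂ := by rw [hA, hee, c1]; module
  have A2 : (eich Q e₂ (-f₁)).1 e₂ = e₂ := by rw [hA, a22, hfe']; module
  have A3 : (eich Q e₂ (-f₁)).1 f₁ = f₁ := by rw [hA, hfe, b11]; module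
  have A4 : (eich Q e₂ (-f₁)).1 f₂ = f₂ - f₁ := by rw [hA, c2', hff']; module
  have C1 : (eich Q e₁ f₂).1 e₁ = e₁ := by rw [hC, a11, hef]; module
  have C2 : (eich Q e₁ f₂).1 e₂ = e₂ - e₁ := by rw [hC, hee', c2]; module
  have C3 : (eich Q e₁ f₂).1 f₁ = f₁ + f₂ := by rw [hC, c1', hff]; module
  have C4 : (eich Q e₁ f₂).1 f₂ = f₂ := by rw [hC, hef', b22]; module
  refine ⟨eich Q e₂ (-f₁) * eich Q e₁ f₂ * eich Q e₂ (-f₁), mul_mem (mul_mem
    (eich_mem_eichGroup _ _) (eich_mem_eichGroup _ _)) (eich_mem_eichGroup _ _),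
    fun x x1 x2 x3 x4 => ?_, ?_, ?_, ?_, ?_⟩
  · have hAx : (eich Q e₂ (-f₁)).1 x = x := by rw [hA, x2, x3]; module
    have hCx : (eich Q e₁ f₂).1 x = x := by rw [hC, x1, x4]; module
    simp only [O_mul_apply, hAx, hCx]
  all_goals
    simp only [O_mul_apply, map_add, map_sub, A1, A2, A3, A4, C1, C2, C3, C4]
    abel

theorem two_gen_of_frame [Finite F] [FiniteDimensional F V] (hQ : (polarBilin Q).Nondegenerate)
    {n : ℕ} (hn : 3 ≤ n) {e f : Fin n → V} (h : IsHyp Q e f) {u y : V} (hu : u ∈ hypPerp Q e f)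
    (hy : y ∈ hypPerp Q e f) (hQu : Q u ≠ 0) (hyu : polar Q y u ≠ 0)
    (hspan : hypPerp Q e f ≤ Submodule.span F {y, u}) :
    ∃ x ∈ eichGroup Q, ∃ z ∈ eichGroup Q, ∀ M : Subgroup (O Q), x ∈ M → z ∈ M →
      eichGroup Q ≤ M := by
  let E : ℕ → V := fun k => if hk : k < n then e ⟨k, hk⟩ else 0
  let G : ℕ → V := fun k => if hk : k < n then f ⟨k, hk⟩ else 0
  have hEE : ∀ i j, polar Q (E i) (E j) = 0 := fun i j => by
    simp only [E]; split_ifs <;> simp [h.ee]
  have hGG : ∀ i j, polar Q (G i) (G j) = 0 := fun i j => by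
    simp only [G]; split_ifs <;> simp [h.ff]
  have hEG : ∀ i j, i ≠ j → polar Q (E i) (G j) = 0 := fun i j hij => by
    simp only [E, G]; split_ifs <;> simp [h.ef, hij]
  have hGE : ∀ i j, i ≠ j → polar Q (G i) (E j) = 0 := fun i j hij => by
    rw [polar_comm, hEG _ _ hij.symm]
  have hyp : ∀ i, i < n → H30.IsHyp Q (E i) (G i) := fun i hi => by
    simp only [E, G, dif_pos hi]
    exact ⟨h.qe _, h.qf _, by simp [h.ef]⟩
  have hPE : ∀ x ∈ hypPerp Q e f, ∀ i, polar Q x (E i) = 0 := fun x hx i => by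
    simp only [E]; split_ifs <;> simp [(hx _).1]
  have hPG : ∀ x ∈ hypPerp Q e f, ∀ i, polar Q x (G i) = 0 := fun x hx i => by
    simp only [G]; split_ifs <;> simp [(hx _).2]
  have cyc : ∀ k, k < n → ∃ π ∈ eichGroup Q, ∃ ε : F, ε * ε = 1 ∧
      (∀ i < k, π.1 (E i) = E (i + 1) ∧ π.1 (G i) = G (i + 1)) ∧ π.1 (E k) = ε • E 0 ∧
      π.1 (G k) = ε • G 0 ∧
      ∀ x, (∀ i ≤ k, polar Q x (E i) = 0 ∧ polar Q x (G i) = 0) → π.1 x = x := by
    intro k
    induction k with
    | zero => exact fun _ => ⟨1, one_mem _, 1, one_mul _, fun i hi => absurd hi (by omega),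
        (one_smul _ _).symm, (one_smul _ _).symm, fun _ _ => rfl⟩
    | succ k ih =>
      intro hk
      obtain ⟨π, hπ, ε, hε, h1, h2, h3, h4⟩ := ih (by omega)
      obtain ⟨g, hg, g0, g1, g2, g3, g4⟩ := exists_swap_pairs (hyp k (by omega)) (hyp (k + 1) hk)
        (hEE _ _) (hEG _ _ (by omega)) (hGE _ _ (by omega)) (hGG _ _)
      refine ⟨π * g, mul_mem hπ hg, -ε, by rw [neg_mul_neg, hε], fun i hi => ?_, ?_, ?_,
        fun x hx => ?_⟩
      · rw [O_mul_apply, O_mul_apply]
        by_cases hik : i = k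
        · subst hik
          rw [g1, g3]
          exact ⟨h4 _ fun j hj => ⟨hEE _ _, hEG _ _ (by omega)⟩,
            h4 _ fun j hj => ⟨hGE _ _ (by omega), hGG _ _⟩⟩
        · rw [g0 _ (hEE _ _) (hEE _ _) (hEG _ _ hik) (hEG _ _ (by omega)),
            g0 _ (hGE _ _ hik) (hGE _ _ (by omega)) (hGG _ _) (hGG _ _)]
          exact h1 i (by omega)
      · rw [O_mul_apply, g2, map_neg, h2, neg_smul]
      · rw [O_mul_apply, g4, map_neg, h3, neg_smul]
      · rw [O_mul_apply, g0 _ (hx k (by omega)).1 (hx _ le_rfl).1 (hx k (by omega)).2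
          (hx _ le_rfl).2]
        exact h4 x fun i hi => hx i (by omega)
  obtain ⟨m, rfl⟩ : ∃ m, n = m + 1 := ⟨n - 1, by omega⟩
  obtain ⟨π, hπ, ε, hε, h1, h2, h3, h4⟩ := cyc m (by omega)
  have hε0 : ε ≠ 0 := left_ne_zero_of_mul_eq_one hε
  have hy0 := hyp 0 (by omega)
  set v := E 0 + Q u • G 0 with hv
  have hQv : Q v = Q u := by
    rw [hv, Q_add, Q_smul, polar_smul_right', hy0.left, hy0.right, hy0.pol]; ring
  have h3le : 3 ≤ finrank F V := by
    have := h.two_mul_card_le
    rw [Fintype.card_fin] at this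
    omega
  have hρ := refl_mul_refl_mem_eichGroup hQ hy0 h3le hQu hQv.symm
  have uE : ∀ i, (refl Q u).1 (E i) = E i := fun i =>
    refl_apply_of_orth (by rw [polar_comm, hPE u hu])
  have uG : ∀ i, (refl Q u).1 (G i) = G i := fun i =>
    refl_apply_of_orth (by rw [polar_comm, hPG u hu])
  have vE : ∀ i, i ≠ 0 → (refl Q v).1 (E i) = E i := fun i hi => refl_apply_of_orth (by
    rw [hv, polar_add_right, polar_smul_right', hEE, hEG _ _ hi]; ring)
  have vG : ∀ i, i ≠ 0 → (refl Q v).1 (G i) = G i := fun i hi => refl_apply_of_orth (by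
    rw [hv, polar_add_right, polar_smul_right', hGG, hGE _ _ hi]; ring)
  have vE0 : (refl Q v).1 (E 0) = -(Q u • G 0) := by
    rw [refl_apply, hQv, hv, polar_add_right, polar_smul_right', hEE, hy0.pol, zero_add, mul_one,
      inv_mul_cancel₀ hQu, one_smul]
    abel
  have vG0 : (refl Q v).1 (G 0) = -((Q u)⁻¹ • E 0) := by
    rw [refl_apply, hQv, hv, polar_add_right, polar_smul_right', hGG, polar_comm, hy0.pol, mul_zero,
      add_zero, mul_one, smul_add, smul_smul, inv_mul_cancel₀ hQu, one_smul]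
    abel
  have vP : ∀ x ∈ hypPerp Q e f, (refl Q v).1 x = x := fun x hx => refl_apply_of_orth (by
    rw [hv, polar_add_right, polar_smul_right', hPE x hx, hPG x hx]; ring)
  set w := refl Q u * refl Q v * π with hw
  have wP : ∀ x ∈ hypPerp Q e f, w.1 x = (refl Q u).1 x := fun x hx => by
    rw [hw, O_mul_apply, O_mul_apply, h4 x fun i _ => ⟨hPE x hx i, hPG x hx i⟩, vP x hx]
  let a : ℕ → V := fun k => (w ^ k).1 (E 0)
  let b : ℕ → V := fun k => (w ^ k).1 y
  have ha : ∀ k, a (k + 1) = w.1 (a k) := fun k => by simp only [a, pow_succ', O_mul_apply]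
  have hb : ∀ k, b (k + 1) = w.1 (b k) := fun k => by simp only [b, pow_succ', O_mul_apply]
  have a1 : ∀ k, k ≤ m → a k = E k := fun k => by
    induction k with
    | zero => exact fun _ => rfl
    | succ k ih =>
      intro hk
      rw [ha, ih (by omega), hw, O_mul_apply, O_mul_apply, (h1 k (by omega)).1, vE _ (by omega), uE]
  have a2 : ∀ k, k ≤ m → a (m + 1 + k) = (-(ε * Q u)) • G k := fun k => by
    induction k with
    | zero =>
      intro _
      rw [add_zero, ha, a1 m le_rfl, hw, O_mul_apply, O_mul_apply, h2, map_smul, vE0, map_smul,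
        map_neg, map_smul, uG]
      module
    | succ k ih =>
      intro hk
      rw [← add_assoc, ha, ih (by omega), map_smul, hw, O_mul_apply, O_mul_apply,
        (h1 k (by omega)).2, vG _ (by omega), uG]
  have hc : -(ε * Q u) ≠ 0 := neg_ne_zero.2 (mul_ne_zero hε0 hQu)
  have hry : (refl Q u).1 y ∈ hypPerp Q e f := by
    rw [refl_apply]
    exact Submodule.sub_mem _ hy (Submodule.smul_mem _ _ hu)
  have hbP : ∀ k, b k ∈ hypPerp Q e f := fun k => by
    induction k with
    | zero => exact hy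
    | succ k ih =>
      rw [hb, wP _ ih, refl_apply]
      exact Submodule.sub_mem _ ih (Submodule.smul_mem _ _ hu)
  have b1 : b 1 = (refl Q u).1 y := by rw [hb, wP _ (hbP 0)]; rfl
  have b2 : b 2 = y := by rw [hb, wP _ (hbP 1), b1, refl_refl]
  refine two_gen_core hQ hn (mul_mem hρ hπ) ha hb hy0.left (fun j hj hjn => ?_) ?_ ?_
    (fun k => ?_) ?_ fun S hS s1 s2 x => ?_
  · by_cases hjm : j ≤ m
    · rw [a1 j hjm]; exact hEE 0 _
    · obtain ⟨k, rfl⟩ : ∃ k, j = m + 1 + k := ⟨j - (m + 1), by omega⟩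
      rw [a2 k (by omega), polar_smul_right']
      exact mul_eq_zero_of_right _ (hEG 0 _ (by omega))
  · have := a2 0 (by omega)
    rw [add_zero] at this
    rw [this, polar_smul_right']
    exact mul_ne_zero hc (by rw [a1 0 (by omega), hy0.pol]; exact one_ne_zero)
  · rw [show 2 * (m + 1) = m + 1 + m + 1 by ring, ha, a2 m le_rfl, map_smul, hw, O_mul_apply,
      O_mul_apply, h3, map_smul, vG0, map_smul, map_neg, map_smul, uE, a1 0 (by omega), smul_neg,
      smul_neg, smul_smul, smul_smul, ← neg_smul]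
    rw [show -(-(ε * Q u) * ε * (Q u)⁻¹) = (ε * ε) * (Q u * (Q u)⁻¹) by ring, hε,
      mul_inv_cancel₀ hQu, one_mul, one_smul]
  · rw [polar_comm]; exact hPE _ (hbP k) 0
  · rintro (h0 : y = 0)
    exact hyu (by rw [h0, polar_zero_left])
  · rw [b2] at s2
    rw [b1, refl_apply] at s1
    have su : u ∈ S := by
      have := S.sub_mem s2 s1
      rw [sub_sub_cancel] at this
      exact (S.smul_mem_iff (mul_ne_zero (inv_ne_zero hQu) hyu)).1 this
    have hP : hypPerp Q e f ≤ S := hspan.trans (Submodule.span_le.2 (by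
      rintro _ (rfl | rfl)
      exacts [s2, su]))
    have := S.add_mem (hP (h.sub_mem x)) (show hypComb e f (hypCoord Q e f x) ∈ S from ?_)
    · rwa [sub_add_cancel] at this
    rw [hypComb_apply]
    refine S.add_mem (S.sum_mem fun i _ => S.smul_mem _ ?_) (S.sum_mem fun i _ => S.smul_mem _ ?_)
    · have := hS i (by omega)
      rw [a1 i (by omega)] at this
      simpa only [E, dif_pos i.2] using this
    · have := hS (m + 1 + i) (by omega)
      rw [a2 i (by omega), S.smul_mem_iff hc] at this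
      simpa only [G, dif_pos i.2] using this

theorem pomega_two_gen_of_frame {F : Type*} [Field F] [Finite F] {ι : Type} [Fintype ι]
    [DecidableEq ι] {Q : QuadraticForm F (ι → F)} (hQ : (polarBilin Q).Nondegenerate)
    {n : ℕ} (hn : 3 ≤ n) {e f : Fin n → ι → F} (h : IsHyp Q e f) {u y : ι → F}
    (hu : u ∈ hypPerp Q e f) (hy : y ∈ hypPerp Q e f) (hQu : Q u ≠ 0) (hyu : polar Q y u ≠ 0)
    (hspan : hypPerp Q e f ≤ Submodule.span F {y, u}) :
    ∃ a b : POmega F ⇑Q, Subgroup.closure {a, b} = ⊤ := by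
  have h6 := h.two_mul_card_le
  rw [Fintype.card_fin] at h6
  exact H78.exists_two_gen (two_gen_of_frame hQ hn h hu hy hQu hyu hspan)
    ((QuotientGroup.mk' _).comp (omegaEquivEich hQ (not_isExc_of_finrank (by omega))
      (by rw [finrank_pi'] at h6; omega)).symm.toMonoidHom)
    ((QuotientGroup.mk'_surjective _).comp (MulEquiv.surjective _))

end Cfsg.Agent.H79
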