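import Mathlib
import Cfsg.Agent.H45.OnDefs

/-!
# A component has one base point
-/

set_option autoImplicit false

namespace Cfsg.Agent.H79.OnUq

open Cfsg.Agent.H45.On

universe u v

section
variable {G : Type u} {Ω : Type v} [Group G] [Finite G] [MulAction G Ω] (S : S0 G Ω)

/-- The components at both points. -/
def I (z w : Ω) : Set (Subgroup G) := {M | S.C z M ∧ S.C w M}

theorem I_le {z w z' w' : Ω} (h : z ≠ w) (h' : z' ≠ w') : (I S z w).ncard ≤ (I S z' w').ncard := by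
  obtain ⟨g, e1, e2⟩ := S.tr2 z w z' w' h h'
  refine Set.ncard_le_ncard_of_injOn (fun M => cj g M) (fun M hM => ?_) (fun M _ M' _ e => cj_inj e)
    (Set.toFinite _)
  exact ⟨e1 ▸ S.conj g hM.1, e2 ▸ S.conj g hM.2⟩

theorem I_eq {z w z' w' : Ω} (h : z ≠ w) (h' : z' ≠ w') (hs : I S z w ⊆ I S z' w') :
    I S z w = I S z' w' :=
  Set.eq_of_subset_of_ncard_le hs (I_le S h' h) (Set.toFinite _)

end

theorem uq : UqStmt.{u, v} := by
  intro G Ω _ _ _ _ S x y M hx hy
  by_contra hxy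
  obtain ⟨g, hg, g1⟩ : ∃ g ∈ M, g ≠ 1 := by
    by_contra h
    push Not at h
    exact S.nab hx fun a ha b hb => by rw [h a ha, h b hb]
  obtain ⟨w, hw⟩ : ∃ w : Ω, g • w ≠ w := by
    by_contra h
    push Not at h
    exact g1 (S.faith g h)
  have ne : ∀ z, S.C z M → z ≠ w := by
    rintro z hz rfl
    exact hw (S.fx hz g hg)
  have key : ∀ z, S.C z M → I S z w = I S w (g • w) := by
    intro z hz
    refine I_eq S (ne z hz) hw.symm fun M' hM' => ⟨hM'.2, ?_⟩
    have hne : M ≠ M' := by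
      rintro rfl
      exact hw (S.fx hM'.2 g hg)
    have e : cj g M' = M' := cj_of_comm (S.comm hz hM'.1 hne g hg)
    exact e ▸ S.conj g hM'.2
  have e1 : I S x w = I S y w := (key x hx).trans (key y hy).symm
  have e2 : I S x w = I S x y :=
    I_eq S (ne x hx) hxy fun M' hM' => ⟨hM'.1, (show M' ∈ I S y w from e1 ▸ hM').1⟩
  have : M ∈ I S x w := e2 ▸ (⟨hx, hy⟩ : M ∈ I S x y)
  exact hw (S.fx this.2 g hg)

end Cfsg.Agent.H79.OnUq
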