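/-
Centralisers of semisimple elements of odd prime order in conformal orthogonal groups.
-/
import Cfsg.Agent.H79.DescLang
import Cfsg.Agent.H76.FConj
import Cfsg.Agent.H76.Zass
import Cfsg.Agent.H76.Classes
import Cfsg.Agent.H28.EloBr

set_option autoImplicit false

namespace Cfsg.Agent.H79

open QuadraticMap Module Polynomial Cfsg.Agent.H30 Cfsg.Agent.H28 Cfsg.Agent.H76 Matrix

theorem twist_comm {S : Type*} [CommRing S] [Finite S] (ι : S →+* S) (hι : ∀ a, ι (ι a) = a)
    {g z ε : S} (hg : g * ι g = 1) (hθ : IsUnit (g * g - ι g * ι g)) (hz : IsUnit z)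
    (hε : ε = 1 ∨ ε = -1) : ∃ d, d * ι d = 1 ∧ IsUnit (z * (d * d) + ε * ι (z * (d * d))) := by
  have hε1 : ι ε = ε := by rcases hε with rfl | rfl <;> simp
  have hε2 : ε * ε = 1 := by rcases hε with rfl | rfl <;> simp
  set s := z - ε * -ι z with hs
  have h1 : ι s = ε * s := by
    rw [hs, map_sub, map_mul, map_neg, hι, hε1]; linear_combination (-ι z) * hε2
  obtain ⟨k, hk, he⟩ := exists_idempotent_pow (s * ι s)
  set e := (s * ι s) ^ k with he'
  have hιe : ι e = e := by rw [he', map_pow, map_mul, hι, mul_comm]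
  refine ⟨e + (1 - e) * g, ?_, ?_⟩
  · simp only [map_add, map_mul, map_sub, map_one, hιe]
    linear_combination (1 - e) * (1 - e) * hg + (2 - g - ι g) * he
  · by_contra hw
    obtain ⟨m, hm, hwm⟩ := exists_max_ideal_of_mem_nonunits (mem_nonunits_iff.2 hw)
    have hmp := hm.isPrime
    rw [← Ideal.Quotient.eq_zero_iff_mem] at hwm
    simp only [map_add, map_mul, map_sub, map_one, hιe] at hwm
    by_cases h2 : s ∈ m
    · have h3 : e ∈ m := m.pow_mem_of_mem (m.mul_mem_right _ h2) k hk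
      rw [← Ideal.Quotient.eq_zero_iff_mem] at h2 h3
      rw [hs] at h2
      simp only [map_mul, map_sub, map_neg] at h2
      have h4 : z * (g * g - ι g * ι g) ∈ m := by
        rw [← Ideal.Quotient.eq_zero_iff_mem]
        simp only [map_mul, map_sub]
        rw [h3] at hwm
        linear_combination hwm - Ideal.Quotient.mk m (ι g) * Ideal.Quotient.mk m (ι g) * h2
      exact hm.ne_top (m.eq_top_of_isUnit_mem h4 (hz.mul hθ))
    · have h3 : e ∉ m := by
        intro h3
        rcases hmp.mem_or_mem (hmp.mem_of_pow_mem k h3) with h4 | h4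
        · exact h2 h4
        · rw [h1] at h4
          have := m.mul_mem_left ε h4
          rw [← mul_assoc, hε2, one_mul] at this
          exact h2 this
      have h4 : 1 - e ∈ m := by
        have : e * (1 - e) ∈ m := by rw [mul_sub, mul_one, he, sub_self]; exact m.zero_mem
        exact (hmp.mem_or_mem this).resolve_left h3
      apply h2
      rw [← Ideal.Quotient.eq_zero_iff_mem] at h4 ⊢
      rw [map_sub, map_one, sub_eq_zero] at h4
      rw [← h4] at hwm
      rw [hs]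
      simp only [map_mul, map_sub, map_neg]
      linear_combination hwm

theorem exists_twist {R : Type*} [Ring R] [Finite R] {τ : R → R} (h : IsAnti τ)
    (hτ : ∀ a, τ (τ a) = a) {g z : R} (hg : g * τ g = 1) (hθ : IsUnit (g * g - τ g * τ g))
    (hz : IsUnit z) (h1 : Commute z g) (h2 : Commute z (τ g)) (h3 : Commute z (τ z)) (ε : ℤˣ) :
    ∃ d, d * τ d = 1 ∧ Commute d g ∧ Commute (z * (d * d)) (τ (z * (d * d))) ∧ Commute z d ∧
      Commute z (τ d) ∧ IsUnit (z * (d * d) + ε • τ (z * (d * d))) := by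
  have a1 : Commute g (τ g) := hg.trans (mul_eq_one_comm.1 hg).symm
  have a2 : Commute (τ z) (τ g) := h.commute h1
  have a3 : Commute (τ z) g := by simpa [hτ] using h.commute h2
  obtain ⟨S, hX, hc, hS, -⟩ := h.exists_subring {z, τ z, g, τ g} (by
    rintro a (rfl | rfl | rfl | rfl) b (rfl | rfl | rfl | rfl) <;>
      first | exact Commute.refl _ | assumption | (symm; assumption)) (by
    rintro a (rfl | rfl | rfl | rfl) <;> simp [hτ])
  let _ : CommRing S := { (inferInstance : Ring S) with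
    mul_comm := fun a b => Subtype.ext (hc a a.2 b b.2).eq }
  obtain ⟨d, hd, hd'⟩ := twist_comm (h.restrict S hc hS) (fun a => Subtype.ext (hS a a.2).2)
    (g := ⟨g, hX (by simp)⟩) (z := ⟨z, hX (by simp)⟩) (ε := ((ε : ℤ) : S)) (Subtype.ext hg)
    (isUnit_subring_of_finite S hθ) (isUnit_subring_of_finite S hz) (by
      rcases Int.units_eq_one_or ε with rfl | rfl <;> simp)
  have hzd : z * (d * d) ∈ S := S.mul_mem (hX (by simp)) (S.mul_mem d.2 d.2)
  refine ⟨d, congrArg Subtype.val hd, hc _ d.2 _ (hX (by simp)), hc _ hzd _ (hS _ hzd).1,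
    hc _ (hX (by simp)) _ d.2, hc _ (hX (by simp)) _ (hS _ d.2).1, ?_⟩
  have := hd'.map S.subtype
  rw [Units.smul_def, zsmul_eq_mul]
  rw [map_add, map_mul S.subtype (_ : S) (h.restrict S hc hS _), map_intCast] at this
  exact this

section Abstract

variable {F V : Type*} [Field F] [AddCommGroup V] [Module F V] [FiniteDimensional F V]
  {Q : QuadraticForm F V} (hQ : (polarBilin Q).Nondegenerate)

include hQ

theorem toMatrix_adj {κ : Type*} [Fintype κ] [DecidableEq κ] (b : Basis κ F V) (x : End F V) :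
    (LinearMap.toMatrix b b x)ᵀ * LinearMap.BilinForm.toMatrix b (polarBilin Q) =
      LinearMap.BilinForm.toMatrix b (polarBilin Q) *
        LinearMap.toMatrix b b (adj (polarBilin Q) x) := by
  rw [← LinearMap.BilinForm.toMatrix_compLeft, ← LinearMap.BilinForm.toMatrix_compRight]
  congr 1
  ext v w
  exact (isEForm_polar hQ).sep.adj_spec x v w

theorem det_toMatrix_ne {κ : Type*} [Fintype κ] [DecidableEq κ] (b : Basis κ F V) :
    (LinearMap.BilinForm.toMatrix b (polarBilin Q)).det ≠ 0 :=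
  (LinearMap.BilinForm.nondegenerate_iff_det_ne_zero b).1 hQ

theorem det_adj_polar (x : End F V) : LinearMap.det (adj (polarBilin Q) x) = LinearMap.det x := by
  let b := Module.finBasis F V
  have := congrArg Matrix.det (toMatrix_adj hQ b x)
  rw [det_mul, det_mul, det_transpose, LinearMap.det_toMatrix, LinearMap.det_toMatrix,
    mul_comm] at this
  exact (mul_left_cancel₀ (det_toMatrix_ne hQ b) this).symm

theorem det_eq_of_isUnit_sub {z : End F V} {μ : F} {m : ℕ} (hm : finrank F V = 2 * m)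
    (hz : adj (polarBilin Q) z * z = μ • 1) (hu : IsUnit z)
    (hs : IsUnit (z - adj (polarBilin Q) z)) : LinearMap.det z = μ ^ m := by
  let b := Module.finBasis F V
  let L := AlgebraicClosure F
  let φ := algebraMap F L
  obtain ⟨t, ht⟩ := IsAlgClosed.exists_eq_mul_self (φ μ)
  let ψ : End F V →+* Matrix (Fin (finrank F V)) (Fin (finrank F V)) L :=
    φ.mapMatrix.comp (LinearMap.toMatrixAlgEquiv b).toRingEquiv.toRingHom
  have hψ : ∀ x, ψ x = (LinearMap.toMatrix b b x).map φ := fun _ => rfl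
  have hdet : ∀ x, (ψ x).det = φ (LinearMap.det x) := fun x => by
    rw [hψ, ← LinearMap.det_toMatrix b, RingHom.map_det]; rfl
  set P := (LinearMap.BilinForm.toMatrix b (polarBilin Q)).map φ with hP
  have hP0 : P.det ≠ 0 := by
    have := (map_ne_zero φ).2 (det_toMatrix_ne hQ b)
    rwa [RingHom.map_det] at this
  have h1 : (ψ z)ᵀ * P = P * ψ (adj (polarBilin Q) z) := by
    rw [hψ, hψ, hP, ← Matrix.transpose_map, ← Matrix.map_mul, toMatrix_adj hQ, Matrix.map_mul]
  have h2 : ψ (adj (polarBilin Q) z) * ψ z = (t * t) • 1 := by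
    rw [← map_mul, hz, ← ht, hψ, map_smul, LinearMap.toMatrix_one]
    ext i j
    by_cases hij : i = j <;> simp [hij]
  have h3 : (ψ z + t • 1)ᵀ * P * ψ z = t • (P * (ψ z + t • 1)) := by
    rw [transpose_add, add_mul, h1, add_mul, mul_assoc, h2]
    simp only [transpose_smul, transpose_one, smul_mul_assoc, one_mul, mul_add, mul_smul_comm,
      mul_one, smul_add, smul_smul]
    abel
  have h4 : (ψ z + t • 1).det ≠ 0 := by
    have h5 : (ψ z - ψ (adj (polarBilin Q) z)) * ψ z = (ψ z - t • 1) * (ψ z + t • 1) := by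
      rw [sub_mul, h2]
      simp only [sub_mul, mul_add, smul_mul_assoc, one_mul, mul_smul_comm, mul_one]
      module
    have h6 : IsUnit ((ψ z - ψ (adj (polarBilin Q) z)) * ψ z) := by
      rw [← map_sub, ← map_mul]; exact (hs.mul hu).map ψ
    rw [h5, isUnit_iff_isUnit_det, det_mul] at h6
    exact right_ne_zero_of_mul h6.ne_zero
  have h5 := congrArg Matrix.det h3
  have h6 : t ^ finrank F V = φ (μ ^ m) := by rw [hm, pow_mul, pow_two, ← ht, map_pow]
  rw [det_mul, det_mul, det_transpose, det_smul, det_mul, hdet, Fintype.card_fin, h6] at h5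
  apply φ.injective
  apply mul_left_cancel₀ (mul_ne_zero h4 hP0)
  rw [h5]; ring

variable [Finite F] {g : End F V} (hg : Pres (polarBilin Q) g)
  (hθ : IsUnit (g * g - adj (polarBilin Q) g * adj (polarBilin Q) g))

include hg hθ

/-- A similarity commuting with an isometry `g` with `g ^ 4 - 1` invertible is proper. -/
theorem det_of_commute {z : End F V} {μ : F} (hμ : μ ≠ 0) {m : ℕ} (hm : finrank F V = 2 * m)
    (hz : adj (polarBilin Q) z * z = μ • 1) (hc : Commute z g) : LinearMap.det z = μ ^ m := by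
  have := finite_end (F := F) (V := V)
  have hE := isEForm_polar hQ
  have hA := hE.sep.isAnti
  have h0 : (μ⁻¹ • adj (polarBilin Q) z) * z = 1 := by
    rw [smul_mul_assoc, hz, smul_smul, inv_mul_cancel₀ hμ, one_smul]
  have hu : IsUnit z := (IsUnit.of_mul_eq_one _ (mul_eq_one_comm.1 h0))
  have hn : Commute z (adj (polarBilin Q) z) := by
    have h1 := mul_eq_one_comm.1 h0
    rw [mul_smul_comm] at h1
    rw [smul_mul_assoc] at h0
    exact smul_right_injective _ (inv_ne_zero hμ) (h1.trans h0.symm)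
  obtain ⟨d, d1, -, -, d4, d5, d6⟩ := exists_twist hA hE.adj_adj (hE.sep.mul_adj_self hg) hθ hu hc
    (hE.sep.commute_adj hg hc) hn (-1)
  have d1' := mul_eq_one_comm.1 d1
  have hd : IsUnit d := IsUnit.of_mul_eq_one _ d1
  have h1 := det_eq_of_isUnit_sub hQ (z := z * (d * d)) (μ := μ) hm (by
    rw [hA.mul, hA.mul, mul_assoc, ← mul_assoc (adj _ z), hz, smul_mul_assoc, one_mul,
      mul_smul_comm, mul_assoc, ← mul_assoc (adj _ d) d, d1', one_mul, d1'])
    (hu.mul (hd.mul hd)) (by simpa [sub_eq_add_neg] using d6)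
  have h2 := congrArg LinearMap.det d1
  rw [map_mul, det_adj_polar hQ, map_one] at h2
  rwa [map_mul, map_mul, h2, mul_one] at h1

theorem exists_spinor_of_commute (h2 : (2 : F) ≠ 0) {m : ℕ} (hm : finrank F V = 2 * m)
    (hθ' : IsUnit (g - adj (polarBilin Q) g)) {c : End F V} (hc : Commute c g) {μ : Fˣ}
    (hd : LinearMap.det c = μ) : ∃ k : O Q, Commute (k.1 : End F V) g ∧ dickson hQ k = 1 ∧
      spinorNorm hQ k = μ := by
  have := finite_end (F := F) (V := V)
  have hE := isEForm_polar hQ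
  have hA := hE.sep.isAnti
  have hu : IsUnit c := (LinearMap.isUnit_iff_isUnit_det _).2 (hd ▸ μ.isUnit)
  have c1 := hE.sep.commute_adj hg hc
  have c2 := hE.sep.adj_commute hg hc
  have c3 := hE.sep.commute_adj hg c2
  have c4 := hE.sep.commute_adj hg (Commute.refl g)
  have norm : ∀ y : End F V, IsUnit y → adj (polarBilin Q) y = y → Commute y g →
      ∃ z : End F V, IsUnit z ∧ adj (polarBilin Q) z * z = y ∧ Commute z g ∧
        Commute z (adj (polarBilin Q) z) := by
    intro y hy1 hy2 hy3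
    obtain ⟨z, z1, z2, z3⟩ := hA.exists_norm hy1 hy2 (hE.adj_adj g) hθ' hy3
      (hE.sep.commute_adj hg hy3) c4
    have z4 : Commute z g := (z3 g hy3.symm (Commute.refl g) c4).symm
    have z5 : Commute z y := (z3 y (Commute.refl y) hy3 (hE.sep.commute_adj hg hy3)).symm
    refine ⟨z, z1, z2, z4, (z3 _ ?_ (hE.sep.adj_commute hg z4)
      (hE.sep.commute_adj hg (hE.sep.adj_commute hg z4))).symm⟩
    simpa [hy2] using hA.commute z5
  obtain ⟨z, z1, z2, z3, z4⟩ := norm (adj (polarBilin Q) c * c) ((hA.isUnit hu).mul hu)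
    (by rw [hA.mul, hE.adj_adj]) (c2.mul_left hc)
  have hzd : LinearMap.det z = μ := by
    obtain ⟨z, rfl⟩ := z1
    have h1 := det_of_commute hQ hg hθ (z := c * ↑z⁻¹) one_ne_zero hm (by
      rw [hA.mul, mul_assoc, ← mul_assoc (adj _ c), ← z2, mul_assoc, Units.mul_inv, mul_one,
        ← hA.mul, Units.mul_inv, hA.one, one_smul]) (hc.mul_left z3.units_inv_left)
    have h3 := congrArg LinearMap.det z.inv_mul
    rw [map_mul, map_one] at h3
    rw [map_mul, one_pow, hd] at h1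
    linear_combination (-LinearMap.det (z : End F V)) * h1 + (μ : F) * h3
  obtain ⟨d, d1, d2, d3, d4, d5, d6⟩ := exists_twist hA hE.adj_adj (hE.sep.mul_adj_self hg) hθ z1 z3
    (hE.sep.commute_adj hg z3) z4 1
  have hd' : IsUnit d := IsUnit.of_mul_eq_one _ d1
  have h3 := congrArg LinearMap.det d1
  rw [map_mul, det_adj_polar hQ, map_one] at h3
  have w1 : IsUnit (z * (d * d)) := z1.mul (hd'.mul hd')
  have w2 : LinearMap.det (z * (d * d)) = μ := by rw [map_mul, map_mul, h3, mul_one, hzd]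
  have w3 : Commute (z * (d * d)) g := z3.mul_left (d2.mul_left d2)
  generalize z * (d * d) = w at d3 d6 w1 w2 w3
  rw [one_smul] at d6
  obtain ⟨u, hu'⟩ := hA.isUnit w1
  have hk : adj (polarBilin Q) (w * ↑u⁻¹) * (w * ↑u⁻¹) = 1 := by
    have e1 : adj (polarBilin Q) (↑u⁻¹ : End F V) * w = 1 := by
      rw [← hE.adj_adj w, ← hu', ← hA.mul, Units.mul_inv, hA.one]
    rw [hA.mul, mul_assoc, ← mul_assoc (adj _ w), ← d3.eq, ← hu', mul_assoc, Units.mul_inv,
      mul_one, e1]
  have hkP : Pres (polarBilin Q) (w * ↑u⁻¹) := hE.sep.pres_iff.2 hk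
  have hku : IsUnit (w * ↑u⁻¹) := w1.mul (Units.isUnit _)
  let k : O Q := ⟨LinearEquiv.ofBijective (w * ↑u⁻¹ : End F V) ((End.isUnit_iff _).1 hku),
    fun v => by
      have := hkP v v
      simp only [polarBilin_apply_apply, polar_self'] at this
      exact mul_left_cancel₀ h2 this⟩
  have hkc : (k.1 : End F V) = w * ↑u⁻¹ := rfl
  have hdu : LinearMap.det (↑u⁻¹ : End F V) * μ = 1 := by
    rw [← w2, ← det_adj_polar hQ w, ← hu', ← map_mul, Units.inv_mul, map_one]
  have w4 : Commute (u : End F V) g := hu' ▸ hE.sep.adj_commute hg w3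
  obtain ⟨y, y1, y2, -, -⟩ := norm (w + adj (polarBilin Q) w) d6
    (by rw [hA.add, hE.adj_adj, add_comm]) (w3.add_left (hE.sep.adj_commute hg w3))
  have y3 := ((LinearMap.isUnit_iff_isUnit_det _).1 y1).ne_zero
  refine ⟨k, ?_, ?_, ?_⟩
  · rw [hkc]; exact w3.mul_left w4.units_inv_left
  · rw [← det_eq_one_iff_dickson hQ h2, hkc, map_mul, w2, mul_comm, hdu]
  · rw [spinorNorm_of_det_one_add h2 hQ k (c := μ⁻¹ * (Units.mk0 _ y3 * (Units.mk0 2 h2)⁻¹ ^ m) ^ 2)
      (by
        have e : (1 + (k.1 : End F V)) = (w + adj (polarBilin Q) w) * ↑u⁻¹ := by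
          rw [hkc, add_mul, ← hu', Units.mul_inv, add_comm]
        rw [e, LinearMap.det_smul, map_mul, ← y2, map_mul, det_adj_polar hQ, hm,
          eq_inv_of_mul_eq_one_left hdu]
        simp only [Units.val_mul, Units.val_inv_eq_inv_val, Units.val_pow_eq_pow_val, Units.val_mk0]
        ring), sqCl_mk_eq_iff]
    exact ⟨_, by
      rw [Units.val_mul, mul_right_comm, Units.inv_mul, one_mul, Units.val_pow_eq_pow_val, pow_two]⟩

omit hg hθ

omit hQ [Finite F] in
theorem isUnit_pow_sub_one {g : O Q} {r k : ℕ} (hr : g ^ r = 1) (hk : k.Coprime r)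
    (h0 : fixSp g = ⊥) : IsUnit ((g.1 : End F V) ^ k - 1) := by
  rw [LinearMap.isUnit_iff_ker_eq_bot, eq_bot_iff, ← h0]
  intro x hx
  have hpow : ∀ j : ℕ, ((g ^ j).1 : V →ₗ[F] V) = (g.1 : V →ₗ[F] V) ^ j := fun j => by
    induction j with
    | zero => rfl
    | succ j ih => rw [pow_succ, pow_succ, ← ih]; rfl
  rw [LinearMap.mem_ker, ← hpow, LinearMap.sub_apply, sub_eq_zero] at hx
  obtain ⟨j, hj⟩ := exists_pow_eq_self_of_coprime
    (hk.coprime_dvd_right (orderOf_dvd_of_pow_eq_one hr))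
  have : ∀ i : ℕ, ((g ^ k) ^ i).1 x = x := fun i => by
    induction i with
    | zero => rfl
    | succ i ih => rw [pow_succ, O_mul_apply]; exact (congrArg _ hx).trans ih
  rw [mem_fixSp, ← hj]
  exact this j

omit [Finite F] in
theorem free_units {g : O Q} {r : ℕ} (hr : g ^ r = 1) (ho : Odd r) (h0 : fixSp g = ⊥) :
    IsUnit ((g.1 : End F V) - adj (polarBilin Q) g.1) ∧
    IsUnit ((g.1 : End F V) * g.1 - adj (polarBilin Q) g.1 * adj (polarBilin Q) g.1) := by
  have hE := isEForm_polar hQ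
  have h1 := hE.sep.adj_mul_self (pres_O g)
  have h2 := hE.sep.isAnti.isUnit (hE.sep.isUnit_of_pres (pres_O g))
  have h3 := isUnit_pow_sub_one hr (k := 2) (Nat.coprime_two_left.2 ho) h0
  have h4 := isUnit_pow_sub_one hr (k := 2 ^ 2) ((Nat.coprime_two_left.2 ho).pow_left 2) h0
  generalize adj (polarBilin Q) (g.1 : End F V) = a at h1 h2
  generalize (g.1 : End F V) = b at h1 h3 h4
  constructor
  · have := h2.mul h3
    rwa [mul_sub, pow_two, ← mul_assoc, h1, one_mul, mul_one] at this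
  · have := (h2.mul h2).mul h4
    rwa [mul_sub, mul_one, show b ^ 2 ^ 2 = b * (b * (b * b)) by norm_num [pow_succ, mul_assoc],
      mul_assoc, ← mul_assoc a b, h1, one_mul, ← mul_assoc a b, h1, one_mul] at this

end Abstract

section Main

variable {F : Type*} [Field F] [Finite F] {ι : Type} [Fintype ι] [DecidableEq ι]
  {Q : QuadraticForm F (ι → F)} (hQ : (polarBilin Q).Nondegenerate) (h5 : 5 ≤ Fintype.card ι)
  {p : ℕ} [Fact p.Prime] [CharP F p] {r : ℕ}

include hQ h5

theorem exists_lift_odd (ho : Odd r) {s : Sim Q} (hs : diagO Q s ^ r = 1) :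
    ∃ g : O Q, g ^ r = 1 ∧ diagO Q s = diagO Q (isoS Q g) := by
  rw [← map_pow, diagO_eq_one_iff hQ h5] at hs
  obtain ⟨c, hc⟩ := hs
  obtain ⟨k, hk⟩ := id ho
  have h1 := congrArg (multS hQ h5) hc
  rw [map_pow, multS_scalS, hk] at h1
  obtain ⟨g, hg⟩ := exists_eq_scalS_mul_isoS hQ h5 (s := s) (c := c * (multS hQ h5 s ^ k)⁻¹) (by
    rw [mul_mul_mul_comm, ← h1]; group)
  generalize c * _ = d at hg
  subst hg
  rw [(show Commute (scalS Q d) (isoS Q g) from (scalS_comm d _).symm).mul_pow, ← map_pow, ← map_pow, ← eq_inv_mul_iff_mul_eq,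
    ← map_inv, ← map_mul] at hc
  rw [map_mul, diagO_scalS, one_mul]
  rcases scalS_mul_isoS_eq hQ h5 hc.symm with h | h
  · exact ⟨g, h, rfl⟩
  · refine ⟨negOne Q * g, ?_, by rw [map_mul, map_mul, isoS_negOne, diagO_scalS, one_mul]⟩
    rw [(show Commute (negOne Q) g from (negOne_comm g).symm).mul_pow, h, negOne_pow_odd ho, negOne_mul_self]

theorem exists_conj_actO (ho : Odd r) (hr : r.Coprime p) {g : O Q} (hg : g ^ r = 1) (s : Sim Q) :
    ∃ k : O Q, isoS Q k * isoS Q g * (isoS Q k)⁻¹ = s * isoS Q g * s⁻¹ := by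
  have := Fintype.ofFinite F
  have h1 : orderOf ((isoEquiv Q).symm g) ∣ r :=
    orderOf_dvd_of_pow_eq_one (by rw [← map_pow, hg, map_one])
  have h2 := isConj_o_of_odd hQ p (g := (isoEquiv Q).symm g)
    (h := (isoEquiv Q).symm (actO Q (simO Q s) g)) (ho.of_dvd_nat h1) (hr.coprime_dvd_left h1)
    (isConj_iff.2 ⟨s.1, (congrArg Subtype.val (isoS_actO s g)).symm⟩)
  obtain ⟨k, hk⟩ := isConj_iff.1 h2
  refine ⟨isoEquiv Q k, ?_⟩
  rw [← isoS_actO s, ← map_inv, ← map_mul, ← map_mul]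
  congr 1
  apply (isoEquiv Q).symm.injective
  rw [← hk, map_mul, map_mul, map_inv, MulEquiv.symm_apply_apply]

theorem exists_cent (h2 : (2 : F) ≠ 0) (hn : Even (Fintype.card ι)) (hr : r.Prime) (ho : Odd r)
    (hrp : r ≠ p) {g : O Q} (hg : g ^ r = 1) :
    (∃ k : O Q, dickson hQ k = 1 ∧ spinorNorm hQ k ≠ 1 ∧ Commute k g) ∧
    ∃ z : Sim Q, cl hQ h5 z = 1 ∧ ¬ IsSquare (multS hQ h5 z : F) ∧ Commute z (isoS Q g) := by
  have : Fact r.Prime := ⟨hr⟩
  obtain ⟨μ, hμ⟩ := exists_not_isSquare h2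
  have hμ0 : μ ≠ 0 := fun h => hμ (h ▸ IsSquare.zero)
  obtain ⟨m, hm⟩ := id hn
  rw [← two_mul] at hm
  have hm' : finrank F (ι → F) = 2 * m := by rw [finrank_pi', hm]
  obtain ⟨δ, -, hδ⟩ := exists_cl_multS_eq hQ h5 hn (Units.mk0 μ hμ0)
  obtain ⟨k, hk⟩ := exists_conj_actO hQ h5 ho ((Nat.coprime_primes hr Fact.out).2 hrp) hg δ
  have z1 : Commute ((isoS Q k)⁻¹ * δ) (isoS Q g) := by
    have : δ * isoS Q g = isoS Q k * isoS Q g * (isoS Q k)⁻¹ * δ := by
      rw [hk, inv_mul_cancel_right]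
    rw [Commute, SemiconjBy, mul_assoc, this]
    group
  have z2 : (multS hQ h5 ((isoS Q k)⁻¹ * δ) : F) = μ := by
    rw [map_mul, map_inv, multS_isoS, inv_one, one_mul, hδ]; rfl
  generalize (isoS Q k)⁻¹ * δ = z at z1 z2
  have hnd := (ndOn_fix_mov hQ (disjoint_fix_mov (cast_ne_zero_of_ne hrp) hg)).1
  by_cases h0 : fixSp g = ⊥
  · obtain ⟨u1, u2⟩ := free_units hQ hg ho h0
    have hE := isEForm_polar hQ
    refine ⟨?_, z, ?_, z2 ▸ hμ, z1⟩
    · have hA : aeval ((toGL Q g : GL ι F) : Matrix ι ι F) (X ^ r - 1 : F[X]) = 0 := by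
        rw [map_sub, map_pow, aeval_X, map_one, ← Units.val_pow_eq_pow_val, ← map_pow, hg, map_one,
          Units.val_one, sub_self]
      obtain ⟨x, hx⟩ : ∃ x, x ∈ med ((toGL Q g : GL ι F) : Matrix ι ι F) := by
        apply Multiset.exists_mem_of_ne_zero
        intro h
        have := congrArg natDegree (charpoly_eq_prod_med ((toGL Q g : GL ι F) : Matrix ι ι F))
        rw [h, charpoly_natDegree_eq_dim] at this
        simp at this
        omega
      have hx1 : x.2 = 1 := by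
        obtain ⟨-, a2, a3⟩ := valid_med _ x hx
        have a4 := (aeval_eq_zero_iff_med _ _).1 hA x hx
        have a5 : Squarefree (X ^ r - 1 : F[X]) :=
          (X_pow_sub_one_separable_iff.2 (cast_ne_zero_of_ne hrp)).squarefree
        by_contra a6
        have a7 := (pow_dvd_pow x.1 (show 2 ≤ x.2 by omega)).trans a4
        exact a2.not_isUnit (a5 _ (by rwa [pow_two] at a7))
      obtain ⟨B, hB1, hB2⟩ := exists_commute_det_eq _ hx μ
      rw [hx1, pow_one] at hB2
      obtain ⟨k, k1, k2, k3⟩ := exists_spinor_of_commute hQ (pres_O g) u2 h2 hm' u1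
        (c := toLin' B) (LinearMap.ext fun v => by
          simp only [End.mul_apply, toLin'_apply, LinearEquiv.coe_coe, ← toGL_mulVec,
            mulVec_mulVec, hB1]) (μ := Units.mk0 μ hμ0) (by rw [LinearMap.det_toLin', hB2]; rfl)
      refine ⟨k, k2, ?_, O_ext fun v => LinearMap.congr_fun k1 v⟩
      rw [k3, Ne, sqCl_mk_eq_one_iff]
      exact hμ
    · rw [cl_of_even hQ h5 hn]
      refine cls_eq_of_detS hQ h5 hn h2 ?_
      have := det_of_commute hQ (pres_O g) u2 (z := toLin' z.1.1) hμ0 hm' (hE.sep.ext_end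
        fun v w => by
          rw [End.mul_apply, ← hE.sep.adj_spec]
          simp only [toLin'_apply, polarBilin_apply_apply, polar_mulVec hQ h5, z2,
            LinearMap.smul_apply, End.one_apply, polar_smul_right'])
        (LinearMap.ext fun v => by
          simp only [End.mul_apply, toLin'_apply, LinearEquiv.coe_coe, ← isoS_mulVec,
            ← Sim_mul_mulVec, z1.eq])
      rw [LinearMap.det_toLin'] at this
      rw [detS, this, z2, hm]
      simp
  · have hrefl : ∀ v ∈ fixSp g, Commute (refl Q v) g := fun v hv => by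
      have := mul_refl g v
      rw [mem_fixSp.1 hv] at this
      exact this.symm
    have hdim : 2 ≤ finrank F (fixSp g) := by
      have a1 := finrank_movSp_add_finrank_fixSp g
      have a2 := ((mem_kerDS hQ).1 (mem_kerDS_of_odd hQ ho hg)).1
      rw [dickson_apply, neg_one_pow_eq_one_iff_even (by decide)] at a2
      have a3 : finrank F (fixSp g) ≠ 0 := fun h => h0 (Submodule.finrank_eq_zero.1 h)
      obtain ⟨j, hj⟩ := a2
      omega
    obtain ⟨u, hu, hu1⟩ := hnd.exists_Q_eq hdim 1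
    obtain ⟨w, hw, hw1⟩ := hnd.exists_Q_eq hdim μ
    have hu0 : Q u ≠ 0 := hu1 ▸ one_ne_zero
    have hw0 : Q w ≠ 0 := hw1 ▸ hμ0
    refine ⟨⟨refl Q u * refl Q w, ?_, ?_, (hrefl u hu).mul_left (hrefl w hw)⟩, ?_⟩
    · rw [map_mul, dickson_refl hQ hu0, dickson_refl hQ hw0]; simp
    · rw [Ne, spinorNorm_refl_mul_refl_eq_one_iff hQ hu0 hw0, hu1, hw1, one_mul]
      exact hμ
    · rcases Int.units_eq_one_or (cl hQ h5 z) with h | h
      · exact ⟨z, h, z2 ▸ hμ, z1⟩
      · refine ⟨isoS Q (refl Q u) * z, ?_, ?_, ((hrefl u hu).map (isoS Q)).mul_left z1⟩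
        · rw [map_mul, h, cl_of_even hQ h5 hn, cls_isoS, dickson_refl hQ hu0]; simp
        · rwa [map_mul, multS_isoS, one_mul, z2]

theorem isConjUnder_odd_prime (h2 : (2 : F) ≠ 0) (hn : Even (Fintype.card ι)) (hr : r.Prime)
    (ho : Odd r) (hrp : r ≠ p) {x : MulAut (POmega F ⇑Q)} (hx : x ∈ pgoAut F ⇑Q)
    (hxr : orderOf x = r) :
    (∀ y, (IsConjUnder (Inn (POmega F ⇑Q)) x y ↔ IsConjUnder (DO hQ h5) x y) ∧
      (IsConjUnder (psoAut F ⇑Q) x y ↔ IsConjUnder (DO hQ h5) x y)) ∧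
    ∀ y, IsConjUnder (poAut F ⇑Q) x y ↔ IsConjUnder (pgoAut F ⇑Q) x y := by
  rw [pgoAut_eq] at hx
  obtain ⟨s, rfl⟩ := hx
  obtain ⟨g, hg, e⟩ := exists_lift_odd hQ h5 ho (hxr ▸ pow_orderOf_eq_one _)
  rw [e, psoAut_eq hQ h2, poAut_eq, pgoAut_eq]
  set x := diagO Q (isoS Q g) with hx
  let H : Subgroup (MulAut (POmega F ⇑Q)) :=
    { carrier := {h | ∃ t ∈ Inn (POmega F ⇑Q), h * x * h⁻¹ = t * x * t⁻¹}
      one_mem' := ⟨1, one_mem _, rfl⟩
      mul_mem' := by
        rintro a b ⟨t, ht, e1⟩ ⟨u, hu, e2⟩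
        refine ⟨a * u * a⁻¹ * t, mul_mem ((innNormal _).conj_mem u hu a) ht, ?_⟩
        calc _ = a * (b * x * b⁻¹) * a⁻¹ := by group
          _ = a * u * a⁻¹ * (a * x * a⁻¹) * (a * u * a⁻¹)⁻¹ := by rw [e2]; group
          _ = _ := by rw [e1]; group
      inv_mem' := by
        rintro a ⟨t, ht, e1⟩
        refine ⟨a⁻¹ * t⁻¹ * a⁻¹⁻¹, (innNormal _).conj_mem _ (inv_mem ht) _, ?_⟩
        calc _ = a⁻¹ * t⁻¹ * (t * x * t⁻¹) * t * a := by group
          _ = _ := by rw [← e1]; group }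
  have hI : Inn (POmega F ⇑Q) ≤ H := fun t ht => ⟨t, ht, rfl⟩
  have hC : ∀ z : Sim Q, Commute z (isoS Q g) → diagO Q z ∈ H := fun z hz =>
    ⟨1, one_mem _, by rw [hx, (hz.map (diagO Q)).eq]; group⟩
  obtain ⟨⟨k, k1, k2, k3⟩, z, z1, z2, z3⟩ := exists_cent hQ h5 h2 hn hr ho hrp hg
  have hP : PS hQ ≤ H := PS_le_of_mem hQ h5 hI k1 k2 (hC _ (k3.map (isoS Q)))
  have hD : DO hQ h5 ≤ H := by
    rintro _ ⟨t, ht, rfl⟩
    by_cases h : IsSquare (multS hQ h5 t : F)
    · exact hP (diagO_mem_PS_of_isSquare hQ h5 ht h)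
    · have := hP (diagO_mem_PS_of_isSquare hQ h5 (s := t * z) (by
        rw [map_mul, z1, mul_one]; exact ht) (by
        rw [map_mul, Units.val_mul]; exact isSquare_mul_of_not h z2))
      rw [map_mul] at this
      exact (H.mul_mem_cancel_right (hC z z3)).1 this
  have key : ∀ y, IsConjUnder (DO hQ h5) x y → IsConjUnder (Inn (POmega F ⇑Q)) x y := by
    rintro _ ⟨d, hd, rfl⟩
    exact hD hd
  have mono : ∀ {A B : Subgroup (MulAut (POmega F ⇑Q))}, A ≤ B → ∀ y, IsConjUnder A x y →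
      IsConjUnder B x y := fun h y ⟨d, hd, e⟩ => ⟨d, h hd, e⟩
  refine ⟨fun y => ⟨⟨mono (Inn_le_DO hQ h5) y, key y⟩, mono (PS_le_DO hQ h5) y,
    fun h => mono (Inn_le_PS hQ h5) y (key y h)⟩, fun y => ⟨mono ?_ y, ?_⟩⟩
  · rintro _ ⟨k, rfl⟩
    exact ⟨_, rfl⟩
  · rintro ⟨_, ⟨t, rfl⟩, rfl⟩
    obtain ⟨k, hk⟩ := exists_conj_actO hQ h5 ho ((Nat.coprime_primes hr Fact.out).2 hrp) hg t
    refine ⟨_, ⟨k, rfl⟩, ?_⟩
    have := congrArg (diagO Q) hk
    simp only [map_mul, map_inv] at this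
    exact this.symm

end Main

end Cfsg.Agent.H79
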