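import Cfsg.Agent.H79.URank

/-!
# Overgroups of tensor induced unitary groups in characteristic two: conjugates of transvections
-/

set_option autoImplicit false

namespace Cfsg.Agent.H79

open Module Function H30 H31
open H36 (InG)
open H27 (Cm cm_one cm_zero cm_fac inG_conj inG_inv inG_exists_inv Cls cls_self Nm rk
  rk_mul_le_left rk_mul_le_right)

variable {F U V τ : Type*} [Field F] {σ : F →+* F} [AddCommGroup U] [Module F U] [AddCommGroup V]
  [Module F V] [Fintype τ] [DecidableEq τ] {f₀ : LinearMap.BilinForm F U}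
  {B₀ : LinearMap.BilinForm F V} {S : TPow τ f₀ B₀} {h : U →ₛₗ[σ] U →ₗ[F] F}
  {B : V →ₛₗ[σ] V →ₗ[F] F} {X : Subgroup (End F V)ˣ} {s j : τ} {u v w y : U} {c : F}
  {g g' N : End F V}

theorem add_self_char (h2 : (2 : F) = 0) (T : End F V) : T + T = 0 := by
  rw [← two_smul F, h2, zero_smul]

theorem sq_one_add (h2 : (2 : F) = 0) (e : N * N = 0) : (1 + N) * (1 + N) = 1 := by
  linear_combination (norm := noncomm_ring) e + add_self_char h2 N

variable [FiniteDimensional F U] [Finite F]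

namespace UX

theorem transport (hX : UX S h B X) (hM : UPM S h X) (h2 : (2 : F) = 0) (hg : InG X g)
    (h1 : g * g' = 1) (h3 : g' * g = 1) (hy0 : y ≠ 0) (hy : h y y = 0) (hc : c ≠ 0)
    (e : g * ue h (S.fac s) u u * g' = c • ue h (S.fac j) y y) (a : End F U) :
    ∃ a', g * S.fac s a = S.fac j a' * g := by
  rcases hX.big with h4 | ⟨k, hk, hk0, hk1⟩
  · obtain ⟨d, hd0, hd⟩ := hX.hh.inv.exists_skew'
    have key : ∀ {u y : U} {c : F}, y ≠ 0 → h y y = 0 → c ≠ 0 →
        g * ue h (S.fac s) u u * g' = c • ue h (S.fac j) y y → ∀ v, h v v = 0 → h v u = 0 →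
        ∃ a, g * d • ue h (S.fac s) v v * g' = S.fac j a := fun {u y c} hy0 hy hc e v hv hvu => by
      obtain ⟨a, ha⟩ := hX.fac_of_scalar (s := j) hM hy0 hy (inG_conj hg h1 (hX.tv s v d hv hd))
        (l := 1) (by
          rw [← inv_smul_smul₀ hc (ue h (S.fac j) y y), ← e]
          simp [add_mul, mul_assoc, ← mul_assoc g' g, h3, ue_mul', hvu])
      exact ⟨a - 1, by simp [← ha]⟩
    refine hX.norm_of_tv h1 h3 (fun v hv0 hv => ?_) a
    obtain ⟨w, a1, a2, a3, a4⟩ := exists_iso_perp hX.hh h4 u v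
    obtain ⟨b, hb⟩ := key hy0 hy hc e w a2 (hX.hh.flip_zero a3)
    obtain ⟨z, c', b1, b2, b3, -, b4⟩ := hX.bUs_of_fac (hX.cf hM
      ((cls_self ⟨s, w, d, a1, a2, hd0, hd, rfl⟩).conj hg h1 h3)) hb
    obtain ⟨b', hb'⟩ := key (u := w) b1 b2 (mul_ne_zero (inv_ne_zero hd0) b3) (by
      rw [mul_smul, ← b4, mul_smul_comm, smul_mul_assoc, inv_smul_smul₀ hd0]) v hv a4
    refine ⟨d⁻¹ • b', ?_⟩
    rw [map_smul, ← hb', smul_mul_assoc, mul_assoc, h3, mul_one, mul_smul_comm, inv_smul_smul₀ hd0]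
  refine hX.norm_of_cm h1 h3 (fun l hl b => cm_of_uco_iso (hh := hX.hh) hX.two fun z hz => ?_) a
  by_cases hz0 : z = 0
  · simp [hz0]
  have hu : h u u = 0 := by
    have := congrArg (fun t => g' * (t * t) * g) e
    simp only [mul_assoc, ← mul_assoc g' g, h3, one_mul, mul_one, ue_mul, smul_mul_smul_comm, hy,
      zero_smul, smul_zero, zero_mul, mul_zero] at this
    refine (smul_eq_zero.1 this).elim id fun e' => ?_
    rw [e', mul_zero, zero_mul] at e
    exact absurd e.symm (smul_ne_zero hc (hX.ue_ne_zero j hy0 hy0))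
  obtain ⟨z', a1, a2, a3⟩ : ∃ z', h z' z' = 0 ∧ h z z' = 1 ∧
      (u ∈ F ∙ z ∨ u ∈ F ∙ z' ∨ h z u = 0 ∧ h z' u = 0) := by
    by_cases b1 : h z u = 0
    swap
    · exact ⟨(h z u)⁻¹ • u, isotropic_smul hu _, by simp [b1], Or.inr (Or.inl
        (Submodule.mem_span_singleton.2 ⟨h z u, smul_inv_smul₀ b1 u⟩))⟩
    by_cases b2 : u ∈ F ∙ z
    · obtain ⟨z', b3, b4⟩ := hX.hh.exists_hyperbolic' hz hz0
      exact ⟨z', b3, b4, Or.inl b2⟩
    obtain ⟨t, b3, b4⟩ := H26.exists_perp_eq hX.hh (u := u) (v := z) (fun e => by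
      obtain ⟨a, rfl⟩ := Submodule.mem_span_singleton.1 e
      exact b2 (Submodule.mem_span_singleton.2
        ⟨a⁻¹, inv_smul_smul₀ (by rintro rfl; simp at hz0) u⟩)) 1
    obtain ⟨z', b5, b6, b7⟩ := hX.hh.exists_hyperbolic (W := H31.perp h (F ∙ u)) hz
      (mem_perp_span_singleton.2 (hX.hh.flip_zero b1)) (mem_perp_span_singleton.2 b3)
      (by simp [hX.hh.flip_one b4])
    exact ⟨z', b6, b7, Or.inr (Or.inr ⟨b1, hX.hh.flip_zero (mem_perp_span_singleton.1 b5)⟩)⟩
  obtain ⟨t, b1, b2, b3, b4, b5⟩ := hX.hh.exists_hypDiag hz a1 a2 hk0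
  obtain ⟨r, hl'⟩ : ∃ l : F, t u = l • u := by
    rcases a3 with a3 | a3 | a3
    · obtain ⟨a, rfl⟩ := Submodule.mem_span_singleton.1 a3
      exact ⟨k, by rw [map_smul, b3, smul_comm]⟩
    · obtain ⟨a, rfl⟩ := Submodule.mem_span_singleton.1 a3
      exact ⟨_, by rw [map_smul, b4, smul_comm]⟩
    · exact ⟨1, by simp [b5, a3]⟩
  have b6 := hX.fac s (g := t) (mem_sisom'.2 ⟨b1, by rw [b2, hk, div_self hk0]⟩)
  obtain ⟨a', ha'⟩ := hX.fac_of_scalar (s := j) hM hy0 hy ((hg.mul b6).mul (inG_inv hg h1))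
    (l := r) (by
      rw [← inv_smul_smul₀ hc (ue h (S.fac j) y y), ← e]
      simp [mul_assoc, ← mul_assoc g' g, h3, ← mul_assoc (S.fac s _), phi_mul_ue, hl',
        smul_comm r])
  have b7 := congrArg (uco hX.hh (S.fac s) z z) (show S.fac s t.toLinearMap * (g' * S.fac l b * g) =
      g' * S.fac l b * g * S.fac s t.toLinearMap by
    linear_combination (norm := noncomm_ring) g' * ha' * S.fac l b * g - g' * S.fac l b * ha' * g -
      g' * S.fac_comm hl b a' * g - h3 * S.fac s t.toLinearMap * g' * S.fac l b * g +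
      g' * S.fac l b * g * S.fac s t.toLinearMap * h3)
  rw [uco_phi_right, uco_phi_left (x' := k⁻¹ • z) fun v => by
    rw [← b1 (k⁻¹ • z), map_smul, b3, inv_smul_smul₀ hk0]; rfl, LinearEquiv.coe_coe, b3] at b7
  simp only [map_smul, map_smulₛₗ, LinearMap.smul_apply, map_inv₀, hk, RingHom.id_apply] at b7
  rw [← sub_eq_zero, ← sub_smul] at b7
  refine (smul_eq_zero.1 b7).resolve_left fun e => hk1 (sub_eq_zero.1 (pow_eq_zero_iff two_ne_zero |>.1 ?_))
  field_simp at e
  linear_combination -e + (1 - k) * h2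

variable [FiniteDimensional F V]

omit [Finite F] in
theorem cls_rk (hX : UX S h B X) (hN : Cls X (bU S h) N) :
    finrank F U * rk N ≤ finrank F V := by
  obtain ⟨g, g', _, -, -, -, ⟨s, u, c, hu, -, hc, -, rfl⟩, rfl⟩ := hN
  rw [← hX.mul_rk s hu]
  refine Nat.mul_le_mul_left _ ((rk_mul_le_left _ _).trans ((rk_mul_le_right _ _).trans ?_))
  rw [rk, LinearMap.range_smul _ _ hc]

theorem cm_of_swap (hX : UX S h B X) (hM : UPM S h X) (h2 : (2 : F) = 0) (hq : BigF σ)
    (hN : Cls X (bU S h) N) (hj : j ≠ s)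
    (e : ∀ a, ∃ a', (1 + N) * S.fac s a = S.fac j a' * (1 + N)) : Cm (S.fac s) N := by
  obtain ⟨k, hk, hk0, hk1⟩ := hq
  have hNN := (hX.cf hM hN).sq
  have hb := sq_one_add h2 hNN
  have e1 : ∀ a, Cm (S.fac s) ((1 + N) * S.fac s a * (1 + N)) := fun a => by
    obtain ⟨a', ha⟩ := e a
    rw [ha, mul_assoc, hb, mul_one]
    exact cm_fac S hj.symm a'
  have e2 : ∀ u (c : F), (1 + c • ue h (S.fac s) u u) = S.fac s (1 + c • ur h u u) := fun u c => by
    simp [ue_apply]
  have key : ∀ u, h u u = 0 → N * ue h (S.fac s) u u * N = 0 := fun u hu => by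
    obtain ⟨d, hd0, hd⟩ := hX.hh.inv.exists_skew'
    obtain ⟨x, x', _, hx, h1, h3, ⟨l, v, c, hv0, hv, hc0, hc, rfl⟩, hN'⟩ := id hN
    have h4 : x' * N * x = c • ue h (S.fac l) v v := by
      rw [hN', ← mul_assoc, ← mul_assoc, h3, one_mul, mul_assoc, h3, mul_one]
    by_contra h0
    have h5 : ∀ r, σ r = r → (1 + (d * r) • ue h (S.fac s) u u) *
        (1 + (d * r) • ue h (S.fac s) u u) = 1 := fun r _ => sq_one_add h2 (by simp [ue_mul, hu])
    have dich : ∀ r, σ r = r → r ≠ 0 → Cm (S.fac l) (x' * ((1 + (d * r) • ue h (S.fac s) u u) *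
        (1 + N) * (1 + (d * r) • ue h (S.fac s) u u)) * x) := fun r hr hr0 => by
      have a1 := hX.tv s u _ hu (skew_mul_fixed hd hr)
      have a2 := h5 r hr
      have a3 := e1 (1 + (d * r) • ur h u u) (1 + (d * r) • ur h u u)
      have a0 : N * (1 + (d * r) • ue h (S.fac s) u u) * N ≠ 0 := by
        simpa [mul_add, add_mul, hNN, hd0, hr0] using h0
      rw [← e2] at a3
      generalize (1 + (d * r) • ue h (S.fac s) u u) = a at a0 a1 a2 a3 ⊢
      have a4 := ((hN.conj a1 a2 a2).conj (inG_inv hx h1) h3 h1)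
      have a5 := hX.cf hM a4
      have a6 : x' * (a * (1 + N) * a) * x = 1 + x' * (a * N * a) * x := by
        rw [mul_add, add_mul, mul_one, a2, mul_add, add_mul, mul_one, h3]
      have a7 : x' * (a * N * a) * x * ue h (S.fac l) v v =
          ue h (S.fac l) v v * (x' * (a * N * a) * x) := smul_right_injective _ hc0 (by
        simp only [← mul_smul_comm _ (_ * x), ← smul_mul_assoc, ← h4]
        linear_combination (norm := noncomm_ring) x' * a * N * a * h1 * N * x -
          x' * N * h1 * a * N * a * x + x' * (a3 - a2 * N + N * a2) * x)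
      have a8 := sq_one_add h2 a5.sq
      rw [a6]
      refine (hX.fac_or_cm_of_rk a5.one (hX.transport hM h2 a5.one a8 a8 hv0 hv one_ne_zero (u := v)
        (by rw [one_smul, add_mul, a7, one_mul, ← mul_one_add, mul_assoc, a8, mul_one]))
        (by simpa using hX.cls_rk a4)).resolve_left fun ⟨β, hβ⟩ => a0 ?_
      obtain ⟨y, c', -, b2, b3, -, b4⟩ := hX.bUs_of_fac (s := l) (β := β - 1) a5 (by simp [← hβ])
      have b5 := hX.perp_of_comm (s := l) (y := v) b2 (smul_right_injective _ b3 (by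
        simpa [b4] using a7))
      have b6 : x' * (a * N * a) * x * (x' * N * x) = 0 := by simp [b4, h4, ue_mul, b5]
      linear_combination (norm := noncomm_ring) a * x * b6 * x' - a * h1 * a * N * a * x * x' * N * x * x' -
        a2 * N * a * x * x' * N * x * x' - N * a * h1 * N * x * x' - N * a * N * h1
    have hk' : σ (1 + k) = 1 + k := by rw [map_add, map_one, hk]
    have c1 := ((dich 1 (map_one σ) one_ne_zero).mul (dich k hk hk0)).mul
      (dich (1 + k) hk' fun e => hk1 (by linear_combination e - h2))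
    have c2 := h5 1 (map_one σ)
    have c3 := h5 _ hk'
    have c4 := e1 (1 + (d * (1 + k)) • ur h u u) (1 + (d * 1) • ur h u u)
    have c5 : (1 + (d * 1) • ue h (S.fac s) u u) * (1 + (d * k) • ue h (S.fac s) u u) =
        1 + (d * (1 + k)) • ue h (S.fac s) u u := by
      simp [add_mul, mul_add, ue_mul, hu, add_smul, add_assoc, add_comm]
    have c6 : (1 + (d * k) • ue h (S.fac s) u u) * (1 + (d * (1 + k)) • ue h (S.fac s) u u) =
        1 + (d * 1) • ue h (S.fac s) u u := by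
      simp only [add_mul, mul_add, smul_mul_smul_comm, ue_mul, hu, mul_one, one_mul]
      linear_combination (norm := module) h2 • (d * k) • ue h (S.fac s) u u
    rw [← e2, ← e2] at c4
    generalize (1 + (d * 1) • ue h (S.fac s) u u) = a₁ at c1 c2 c4 c5 c6
    generalize (1 + (d * k) • ue h (S.fac s) u u) = a₂ at c1 c5 c6
    generalize (1 + (d * (1 + k)) • ue h (S.fac s) u u) = a₃ at c1 c3 c4 c5 c6
    have c7 : x' * (a₁ * (1 + N) * a₁) * x * (x' * (a₂ * (1 + N) * a₂) * x) *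
        (x' * (a₃ * (1 + N) * a₃) * x) = 1 + c • ue h (S.fac l) v v := by
      rw [← h4, show 1 + x' * N * x = x' * (1 + N) * x by rw [mul_add, add_mul, mul_one, h3]]
      generalize 1 + N = b at hb c4
      simp only [mul_assoc, ← mul_assoc x x', h1, one_mul, ← mul_assoc a₁ a₂, c5,
        ← mul_assoc a₂ a₃, c6]
      linear_combination (norm := noncomm_ring) x' * c4 * a₁ * b * a₃ * x +
        x' * b * a₃ * b * c2 * b * a₃ * x + x' * b * a₃ * hb * a₃ * x + x' * b * c3 * x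
    rw [c7] at c1
    exact hX.not_cm hv hv0 (by simpa [smul_smul, hc0] using (c1.sub cm_one).smul c⁻¹)
  obtain ⟨u₀, u₀', -, a1, a2, a3⟩ := exists_hyp hX.hh hX.two
  have h3 : ∀ x y, h x y = 0 → ue h (S.fac s) y x * N =
      (1 + N) * ue h (S.fac s) y x * (1 + N) * N := fun x y hxy => by
    have := sesq_eq_of_iso hX.hh ((ue h (S.fac s)).flip.compr₂ₛₗ (LinearMap.mulLeftRight F (N, N)))
      key a1 a2 a3 x y
    rw [hxy, zero_smul] at this
    change N * ue h (S.fac s) y x * N = 0 at this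
    linear_combination (norm := noncomm_ring) -this - (1 + N) * ue h (S.fac s) y x * hNN
  refine cm_of_uco_iso (hh := hX.hh) hX.two fun z hz => ?_
  by_cases hz0 : z = 0
  · simp [hz0]
  obtain ⟨y, b1, b2⟩ := exists_perp_norm' hX.hh hX.three hz
  have h4 : ue h (S.fac s) z y * ue h (S.fac s) y z = ue h (S.fac s) z z := by simp [ue_mul, b1]
  have h5 : ue h (S.fac s) y z * ue h (S.fac s) z y = 0 := by simp [ue_mul, hz]
  refine cm_eq_zero hX.hh hz0 hz0 (cm_uco _ _ _) ?_
  rw [ue_mul_uco, ← h4, mul_assoc _ _ N, h3 z y b2, ← mul_assoc _ _ N, ue_apply y z, cm_ue (e1 _),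
    mul_assoc _ _ N, h3 y z (hX.hh.flip_zero b2)]
  simp only [mul_assoc, ← mul_assoc (1 + N) (1 + N), hb, one_mul, ← ue_apply,
    ← mul_assoc (ue h (S.fac s) y z), h5, zero_mul, mul_zero]

theorem cls_base (hX : UX S h B X) (hM : UPM S h X) (h2 : (2 : F) = 0) (hN : Cls X (bU S h) N)
    (H : Nm S (1 + N)) : bU S h N := by
  have hq := hX.cf hM hN
  obtain ⟨π, hπ⟩ := H
  refine hX.bU_of_fac_or_cm hq fun s => ?_
  by_cases hs : π s = s
  · exact (hX.fac_or_cm_of_rk hq.one (hs ▸ hπ s) (by simpa using hX.cls_rk hN)).imp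
      (fun ⟨a, ha⟩ => ⟨a - 1, by simp [← ha]⟩) fun e => by simpa using e.sub cm_one
  rcases hX.big with h4 | hb
  · exact absurd (hX.eq_of_rk (sq_one_add h2 hq.sq) h4 (hπ s) (by simpa using hX.cls_rk hN)) hs
  · exact Or.inr (hX.cm_of_swap hM h2 hb hN hs (hπ s))

end UX

end Cfsg.Agent.H79
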