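import Cfsg.Agent.H26.UTenM
import Cfsg.Agent.H27.FacBasic

/-!
# The endomorphism algebra of a unitary space acting on a space: matrix coefficients
-/

set_option autoImplicit false

namespace Cfsg.Agent.H79

open Module H31
open H27 (Cm cm_one cm_zero)

variable {F W : Type*} [Field F] {σ : F →+* F} [AddCommGroup W] [Module F W]
  {h : W →ₛₗ[σ] W →ₗ[F] F}

/-- The rank one operators `z ↦ h y z • x`. -/
def ur (h : W →ₛₗ[σ] W →ₗ[F] F) : W →ₗ[F] W →ₛₗ[σ] End F W :=
  LinearMap.mk₂'ₛₗ (RingHom.id F) σ (fun x y => (h y).smulRight x)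
    (fun _ _ _ => by ext; simp) (fun _ _ _ => by ext; simp [smul_smul, mul_comm])
    (fun _ _ _ => by ext; simp [add_smul]) (fun _ _ _ => by ext; simp [smul_smul])

@[simp] theorem ur_apply (x y z : W) : ur h x y z = h y z • x := rfl

theorem ur_mul (x y x' y' : W) : ur h x y * ur h x' y' = h y x' • ur h x y' := by
  ext v
  simp [smul_smul, mul_comm]

theorem mul_ur (a : End F W) (x y : W) : a * ur h x y = ur h (a x) y := by
  ext v
  simp

theorem ur_mul' {a : End F W} {y y' : W} (e : ∀ v, h y (a v) = h y' v) (x : W) :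
    ur h x y * a = ur h x y' := by
  ext v
  simp [e]

theorem ur_ne_zero (hh : IsHerm h) {x y : W} (hx : x ≠ 0) (hy : y ≠ 0) : ur h x y ≠ 0 := by
  obtain ⟨v, hv⟩ := hh.exists_eq_one hy
  intro e
  simpa [hv, hx] using LinearMap.congr_fun e v

theorem ur_conj {g : W ≃ₗ[F] W} (hg : g ∈ isom h) (x y : W) :
    g.toLinearMap * ur h x y * (g⁻¹).toLinearMap = ur h (g x) (g y) := by
  ext v
  simp [isom_adj hg]

theorem equiv_mul_inv (g : W ≃ₗ[F] W) : g.toLinearMap * (g⁻¹).toLinearMap = 1 :=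
  LinearMap.ext (apply_inv_apply g)

theorem equiv_inv_mul (g : W ≃ₗ[F] W) : (g⁻¹).toLinearMap * g.toLinearMap = 1 :=
  LinearMap.ext (inv_apply_apply g)

theorem tv_coe {u : W} {c : F} (hu : h u u = 0) (hc : c + σ c = 0) :
    (tv h u c hu hc).toLinearMap = 1 + c • ur h u u := by
  ext x
  simp [tv_apply, smul_smul]

variable {A : Type*} [Ring A] [Algebra F A]

/-- The images of the rank one operators. -/
def ue (h : W →ₛₗ[σ] W →ₗ[F] F) (φ : End F W →ₐ[F] A) : W →ₗ[F] W →ₛₗ[σ] A :=
  LinearMap.mk₂'ₛₗ (RingHom.id F) σ (fun x y => φ (ur h x y))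
    (fun _ _ _ => by simp) (fun _ _ _ => by simp) (fun _ _ _ => by simp) (fun _ _ _ => by simp)

variable {φ : End F W →ₐ[F] A}

theorem ue_apply (x y : W) : ue h φ x y = φ (ur h x y) := rfl

theorem ue_mul (x y x' y' : W) : ue h φ x y * ue h φ x' y' = h y x' • ue h φ x y' := by
  simp only [ue_apply, ← map_mul, ur_mul, map_smul]

theorem ue_mul' (x y x' y' : W) (T : A) :
    ue h φ x y * (ue h φ x' y' * T) = h y x' • (ue h φ x y' * T) := by
  rw [← mul_assoc, ue_mul, smul_mul_assoc]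

theorem phi_mul_ue (a : End F W) (x y : W) : φ a * ue h φ x y = ue h φ (a x) y := by
  simp only [ue_apply, ← map_mul, mul_ur]

theorem ue_mul_phi {a : End F W} {y y' : W} (e : ∀ v, h y (a v) = h y' v) (x : W) :
    ue h φ x y * φ a = ue h φ x y' := by
  simp only [ue_apply, ← map_mul, ur_mul' e]

theorem cm_ue {c : A} (hc : Cm φ c) (x y : W) : ue h φ x y * c = c * ue h φ x y := hc _

theorem ue_conj {g : W ≃ₗ[F] W} (hg : g ∈ isom h) {D : A} (hD : Cm φ D) (x y : W) :
    φ g.toLinearMap * (ue h φ x y * D) * φ (g⁻¹).toLinearMap = ue h φ (g x) (g y) * D := by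
  rw [mul_assoc, mul_assoc, ← hD, ← mul_assoc, ← mul_assoc, ue_apply, ← map_mul, ← map_mul,
    ur_conj hg, ue_apply]

variable [FiniteDimensional F W]

/-- A basis. -/
noncomputable def ub (F W : Type*) [Field F] [AddCommGroup W] [Module F W]
    [FiniteDimensional F W] (i : Fin (finrank F W)) : W := Module.finBasis F W i

/-- The dual basis. -/
noncomputable def ud (hh : IsHerm h) (i : Fin (finrank F W)) : W :=
  (hh.exists_rep ((Module.finBasis F W).coord i)).choose

theorem ud_apply (hh : IsHerm h) (i : Fin (finrank F W)) (v : W) :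
    h (ud hh i) v = (Module.finBasis F W).repr v i :=
  LinearMap.congr_fun (hh.exists_rep ((Module.finBasis F W).coord i)).choose_spec v

theorem ud_ub (hh : IsHerm h) (i j : Fin (finrank F W)) :
    h (ud hh i) (ub F W j) = if j = i then 1 else 0 := by
  rw [ud_apply, ub, Basis.repr_self, Finsupp.single_apply]

theorem sum_ub (hh : IsHerm h) (v : W) : ∑ i, h (ud hh i) v • ub F W i = v := by
  simp only [ud_apply, ub, Basis.sum_repr]

theorem sum_ud (hh : IsHerm h) (v : W) : ∑ i, h (ub F W i) v • ud hh i = v :=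
  hh.ext_left fun w => by
    conv_rhs => rw [← sum_ub hh w]
    simp [hh.symm, mul_comm]

theorem sum_ur (hh : IsHerm h) : ∑ i, ur h (ub F W i) (ud hh i) = 1 := by
  ext v
  simp [sum_ub]

theorem sum_ue (hh : IsHerm h) : ∑ i, ue h φ (ub F W i) (ud hh i) = 1 := by
  simp only [ue_apply, ← map_sum, sum_ur, map_one]

theorem ur_induction (hh : IsHerm h) {P : End F W → Prop} (h0 : P 0)
    (hadd : ∀ a b, P a → P b → P (a + b)) (hro : ∀ x y, P (ur h x y)) (a : End F W) : P a := by
  rw [← mul_one a, ← sum_ur hh, Finset.mul_sum]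
  exact Finset.sum_induction _ P hadd h0 fun i _ => by rw [mul_ur]; exact hro _ _

theorem cm_of_ue (hh : IsHerm h) {c : A} (e : ∀ x y, ue h φ x y * c = c * ue h φ x y) :
    Cm φ c :=
  ur_induction hh (by simp) (fun a b ha hb => by rw [map_add, add_mul, mul_add, ha, hb]) e

theorem cm_eq_zero (hh : IsHerm h) {x y : W} (hx : x ≠ 0) (hy : y ≠ 0) {c : A}
    (hc : Cm φ c) (e : ue h φ x y * c = 0) : c = 0 := by
  obtain ⟨x', hx'⟩ := hh.exists_eq_one hx
  obtain ⟨y', hy'⟩ := hh.exists_eq_one hy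
  rw [← one_mul c, ← sum_ue (φ := φ) hh, Finset.sum_mul]
  refine Finset.sum_eq_zero fun i _ => ?_
  have : ue h φ (ub F W i) x' * (ue h φ x y * c) * ue h φ y' (ud hh i) =
      ue h φ (ub F W i) (ud hh i) * c := by
    rw [ue_mul', hh.flip_one hx', one_smul, mul_assoc, ← cm_ue hc, ue_mul', hy', one_smul]
  rw [← this, e, mul_zero, zero_mul]

/-- The matrix coefficient of `T` at `x`, `y`. -/
noncomputable def uco (hh : IsHerm h) (φ : End F W →ₐ[F] A) : W →ₛₗ[σ] W →ₗ[F] A →ₗ[F] A :=
  LinearMap.mk₂'ₛₗ σ (RingHom.id F) (fun x y => ∑ i, LinearMap.mulLeftRight F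
      (ue h φ (ub F W i) x, ue h φ y (ud hh i)))
    (fun _ _ _ => by ext; simp [add_mul, Finset.sum_add_distrib])
    (fun _ _ _ => by ext; simp [Finset.smul_sum])
    (fun _ _ _ => by ext; simp [mul_add, Finset.sum_add_distrib])
    (fun _ _ _ => by ext; simp [Finset.smul_sum])

variable {hh : IsHerm h}

theorem uco_apply (x y : W) (T : A) :
    uco hh φ x y T = ∑ i, ue h φ (ub F W i) x * T * ue h φ y (ud hh i) := by
  simp [uco]

theorem ue_mul_uco (a b x y : W) (T : A) :
    ue h φ a b * uco hh φ x y T = ue h φ a x * T * ue h φ y b := by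
  conv_rhs => rw [← sum_ud hh b]
  simp only [uco_apply, Finset.mul_sum, ← mul_assoc, ue_mul, map_sum, map_smulₛₗ, smul_mul_assoc,
    mul_smul_comm, hh.symm]

theorem uco_mul_ue (a b x y : W) (T : A) :
    uco hh φ x y T * ue h φ a b = ue h φ a x * T * ue h φ y b := by
  conv_rhs => rw [← sum_ub hh a]
  simp only [uco_apply, Finset.sum_mul, mul_assoc, ue_mul, map_sum, map_smul, smul_mul_assoc,
    mul_smul_comm, LinearMap.sum_apply, LinearMap.smul_apply]

theorem cm_uco (x y : W) (T : A) : Cm φ (uco hh φ x y T) :=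
  cm_of_ue hh fun a b => by rw [ue_mul_uco, uco_mul_ue]

theorem uco_cm_mul {c : A} (hc : Cm φ c) (x y : W) (T : A) :
    uco hh φ x y (c * T) = c * uco hh φ x y T := by
  simp only [uco_apply, Finset.mul_sum, ← mul_assoc, cm_ue hc]

theorem uco_mul_cm {c : A} (hc : Cm φ c) (x y : W) (T : A) :
    uco hh φ x y (T * c) = uco hh φ x y T * c := by
  simp only [uco_apply, Finset.sum_mul, mul_assoc, cm_ue hc]

theorem uco_phi (x y : W) (a : End F W) : uco hh φ x y (φ a) = h x (a y) • (1 : A) := by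
  simp only [uco_apply, mul_assoc, phi_mul_ue, ue_mul, ← Finset.smul_sum, sum_ue]

theorem uco_ue (x y a b : W) : uco hh φ x y (ue h φ a b) = (h x a * h b y) • (1 : A) := by
  rw [ue_apply, uco_phi]
  simp [mul_comm]

theorem uco_cm {c : A} (hc : Cm φ c) (x y : W) : uco hh φ x y c = h x y • c := by
  have := uco_mul_cm (hh := hh) hc x y (φ 1)
  rwa [uco_phi, map_one, one_mul, smul_mul_assoc, one_mul] at this

theorem uco_ue_mul {c : A} (hc : Cm φ c) (x y a b : W) :
    uco hh φ x y (ue h φ a b * c) = (h x a * h b y) • c := by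
  rw [uco_mul_cm hc, uco_ue, smul_mul_assoc, one_mul]

theorem uco_ue_left (x y a b : W) (T : A) :
    uco hh φ x y (ue h φ a b * T) = h x a • uco hh φ b y T := by
  simp only [uco_apply, ← mul_assoc, ue_mul, smul_mul_assoc, Finset.smul_sum]

theorem uco_ue_right (x y a b : W) (T : A) :
    uco hh φ x y (T * ue h φ a b) = h b y • uco hh φ x a T := by
  simp only [uco_apply, mul_assoc, ue_mul, mul_smul_comm, Finset.smul_sum]

theorem uco_phi_right (x y : W) (a : End F W) (T : A) :
    uco hh φ x y (T * φ a) = uco hh φ x (a y) T := by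
  simp only [uco_apply, mul_assoc, phi_mul_ue]

theorem uco_phi_left {a : End F W} {x x' : W} (e : ∀ v, h x (a v) = h x' v) (y : W) (T : A) :
    uco hh φ x y (φ a * T) = uco hh φ x' y T := by
  simp only [uco_apply, ← mul_assoc, ue_mul_phi e]

theorem eq_sum_uco (T : A) : T = ∑ i, ∑ j,
    ue h φ (ub F W i) (ud hh j) * uco hh φ (ud hh i) (ub F W j) T := by
  simp only [ue_mul_uco, ← Finset.mul_sum, sum_ue, mul_one, ← Finset.sum_mul, one_mul]

theorem eq_zero_of_uco {T : A} (e : ∀ x y, uco hh φ x y T = 0) : T = 0 := by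
  rw [eq_sum_uco (hh := hh) (φ := φ) T]
  simp [e]

theorem exists_phi_of_uco {T : A} (e : ∀ x y, ∃ c : F, uco hh φ x y T = c • (1 : A)) :
    ∃ a, T = φ a := by
  choose c hc using e
  refine ⟨∑ i, ∑ j, c (ud hh i) (ub F W j) • ur h (ub F W i) (ud hh j), ?_⟩
  rw [eq_sum_uco (hh := hh) (φ := φ) T]
  simp [hc, ue_apply]

theorem cm_eq_zero_of_phi (hh : IsHerm h) {a : End F W} (ha : a ≠ 0) {c : A} (hc : Cm φ c)
    (e : φ a * c = 0) : c = 0 := by
  obtain ⟨y, hy⟩ : ∃ y, a y ≠ 0 := by
    by_contra! H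
    exact ha (LinearMap.ext H)
  obtain ⟨x, hx⟩ := hh.exists_eq_one hy
  have := uco_mul_cm (hh := hh) hc x y (φ a)
  rwa [e, map_zero, uco_phi, hh.flip_one hx, one_smul, one_mul, eq_comm] at this

theorem cm_of_uco_eq {T D : A} (hD : Cm φ D) (e : ∀ x y, uco hh φ x y T = h x y • D) : Cm φ T := by
  rwa [show T = D from sub_eq_zero.1 (eq_zero_of_uco (hh := hh) (φ := φ) fun x y => by
    rw [map_sub, e, uco_cm hD, sub_self])]

section Sesq

variable {M : Type*} [AddCommGroup M] [Module F M]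

omit [FiniteDimensional F W] in
theorem eq_zero_of_sesq (hσ : IsInvol σ) {a b : M} (e : ∀ l : F, l • a + σ l • b = 0) :
    a = 0 ∧ b = 0 := by
  obtain ⟨θ, hθ⟩ := hσ.ne_id
  have h1 := e 1
  have h2 := e θ
  rw [map_one, one_smul, one_smul] at h1
  have h3 : b = 0 := smul_right_injective M (sub_ne_zero.2 hθ) (by
    linear_combination (norm := module) h2 - θ • h1)
  exact ⟨by simpa [h3] using h1, h3⟩

omit [FiniteDimensional F W] in
/-- A sesquilinear map vanishing on isotropic vectors is a multiple of the form. -/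
theorem sesq_eq_of_iso (hh : IsHerm h) (β : W →ₛₗ[σ] W →ₗ[F] M)
    (hβ : ∀ z, h z z = 0 → β z z = 0) {u u' : W} (hu : h u u = 0) (hu' : h u' u' = 0)
    (huu' : h u u' = 1) (x y : W) : β x y = h x y • β u u' := by
  obtain ⟨c, hc0, hc⟩ := hh.inv.exists_skew'
  have sym : ∀ a b, h a a = 0 → h b b = 0 → h a b = 1 → β a b = β b a := fun a b ha hb hab => by
    have := hβ (a + c • b) (by simp [ha, hb, hab, hh.flip_one hab, hc])
    simp only [map_add, map_smul, map_smulₛₗ, LinearMap.add_apply, LinearMap.smul_apply, hβ a ha,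
      hβ b hb, RingHom.id_apply, eq_neg_of_add_eq_zero_right hc] at this
    exact smul_right_injective M hc0 (by linear_combination (norm := module) this)
  have hu'u := hh.flip_one huu'
  have iso : ∀ a b v, h a a = 0 → h b b = 0 → h a b = 1 → h a v = 0 → h b v = 0 →
      ∃ ν : F, h (b + v - ν • a) (b + v - ν • a) = 0 := fun a b v ha hb hab h1 h2 => by
    obtain ⟨ν, hν⟩ := hh.inv.exists_trace_eq (hh.norm_fixed v)
    exact ⟨ν, by
      simp [ha, hb, hab, hh.flip_one hab, h1, h2, hh.flip_zero h1, hh.flip_zero h2]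
      linear_combination -hν⟩
  have mix : ∀ a b v, h a a = 0 → h b b = 0 → h a b = 1 → h a v = 0 → h b v = 0 →
      β a v = 0 ∧ β v a = 0 := fun a b v ha hb hab h1 h2 => by
    have := eq_zero_of_sesq (a := β a v) (b := -β v a) hh.inv fun l => by
      obtain ⟨ν, hν⟩ := iso a b (l • v) ha hb hab (by simp [h1]) (by simp [h2])
      have := sym a _ ha hν (by simp [ha, hab, h1])
      simp only [map_add, map_sub, map_smul, map_smulₛₗ, LinearMap.add_apply, LinearMap.sub_apply,
        LinearMap.smul_apply, hβ a ha, sym a b ha hb hab, RingHom.id_apply] at this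
      linear_combination (norm := module) this
    exact ⟨this.1, neg_eq_zero.1 this.2⟩
  have dg : ∀ v, h u v = 0 → h u' v = 0 → β v v = h v v • β u u' := fun v h1 h2 => by
    obtain ⟨ν, hν⟩ := iso u u' v hu hu' huu' h1 h2
    have h3 := hβ _ hν
    simp only [map_add, map_sub, map_smul, map_smulₛₗ, LinearMap.add_apply, LinearMap.sub_apply,
      LinearMap.smul_apply, hβ u hu, hβ u' hu', ← sym u u' hu hu' huu', RingHom.id_apply,
      mix u u' v hu hu' huu' h1 h2, mix u' u v hu' hu hu'u h2 h1, hu, hu', huu', hu'u, h1, h2,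
      hh.flip_zero h1, hh.flip_zero h2, smul_eq_mul] at h3 hν
    rw [show h v v = ν + σ ν by linear_combination hν]
    linear_combination (norm := module) h3
  have pol : ∀ v w, h u v = 0 → h u' v = 0 → h u w = 0 → h u' w = 0 →
      β v w = h v w • β u u' := fun v w h1 h2 h3 h4 =>
    sub_eq_zero.1 (eq_zero_of_sesq (b := β w v - h w v • β u u') hh.inv fun l => by
      have := dg (v + l • w) (by simp [h1, h3]) (by simp [h2, h4])
      simp only [map_add, map_smul, map_smulₛₗ, LinearMap.add_apply, LinearMap.smul_apply,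
        dg v h1 h2, dg w h3 h4, RingHom.id_apply, smul_eq_mul] at this
      linear_combination (norm := module) this).1
  have a1 : ∀ x, h u (x - h u' x • u - h u x • u') = 0 := fun x => by simp [hu, huu']
  have a2 : ∀ x, h u' (x - h u' x • u - h u x • u') = 0 := fun x => by simp [hu', hu'u]
  have a3 := pol _ _ (a1 x) (a2 x) (a1 y) (a2 y)
  have a4 := mix u u' _ hu hu' huu' (a1 x) (a2 x)
  have a5 := mix u u' _ hu hu' huu' (a1 y) (a2 y)
  have a6 := mix u' u _ hu' hu hu'u (a2 x) (a1 x)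
  have a7 := mix u' u _ hu' hu hu'u (a2 y) (a1 y)
  simp only [map_sub, map_smul, map_smulₛₗ, LinearMap.sub_apply, LinearMap.smul_apply, hβ u hu,
    hβ u' hu', ← sym u u' hu hu' huu', RingHom.id_apply, hu, hu', huu', hu'u, smul_eq_mul,
    hh.symm] at a3 a4 a5 a6 a7
  linear_combination (norm := module) a3 + h u' y • a4.2 + h u y • a6.2 + h x u' • a5.1 +
    h x u • a7.1

end Sesq

variable [Finite F]

theorem exists_hyp (hh : IsHerm h) (h2 : 2 ≤ finrank F W) :
    ∃ u u', u ≠ 0 ∧ h u u = 0 ∧ h u' u' = 0 ∧ h u u' = 1 := by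
  obtain ⟨u, -, h0, hu⟩ := H26.exists_isotropic_mem hh.toIsHermSymm (S := ⊤) (by rwa [finrank_top])
  obtain ⟨u', h1, h3⟩ := hh.exists_hyperbolic' hu h0
  exact ⟨u, u', h0, hu, h1, h3⟩

theorem cm_of_uco_iso (h2 : 2 ≤ finrank F W) {T : A} (e : ∀ z, h z z = 0 → uco hh φ z z T = 0) :
    Cm φ T := by
  obtain ⟨u, u', -, h1, h3, h4⟩ := exists_hyp hh h2
  exact cm_of_uco_eq (cm_uco u u' T) (sesq_eq_of_iso hh
    ((uco hh φ).compr₂ₛₗ (LinearMap.applyₗ T)) e h1 h3 h4)

theorem cm_of_utv (hh : IsHerm h) (h2 : 2 ≤ finrank F W) {T : A}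
    (e : ∀ z, z ≠ 0 → h z z = 0 → ue h φ z z * T = T * ue h φ z z) : Cm φ T :=
  cm_of_uco_iso (hh := hh) h2 fun z hz => by
    by_cases h0 : z = 0
    · simp [h0]
    exact cm_eq_zero hh h0 h0 (cm_uco z z T) (by
      rw [ue_mul_uco, e z h0 hz, mul_assoc, ue_mul, hz, zero_smul, mul_zero])

end Cfsg.Agent.H79
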