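import Cfsg.Agent.H79.UTwo
import Cfsg.Agent.H27.PowGeo
import Cfsg.Agent.H26.PInst
import Cfsg.Agent.H31.HermGeo
import Cfsg.Agent.H31.HermSU

/-!
# Maximality of the stabilisers of tensor power decompositions in the special unitary groups
-/

set_option autoImplicit false

namespace Cfsg.Agent.H79

open Module Function H30 H31
open H36 (InG)
open H27 (Cm cm_one cm_fac Nm HasAlt)

section Abstract

variable {F U V τ : Type*} [Field F] {σ : F →+* F} [AddCommGroup U] [Module F U] [AddCommGroup V]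
  [Module F V] [Fintype τ] [DecidableEq τ] {f₀ : LinearMap.BilinForm F U}
  {B₀ : LinearMap.BilinForm F V} {S : TPow τ f₀ B₀} {h : U →ₛₗ[σ] U →ₗ[F] F}
  {B : V →ₛₗ[σ] V →ₗ[F] F} {g : End F V}

theorem det_one_add_of_sq [Finite F] {N : End F V} (e : N * N = 0) : LinearMap.det (1 + N) = 1 := by
  obtain ⟨p, hp⟩ := CharP.exists F
  have : Fact p.Prime := ⟨CharP.char_is_prime F p⟩
  have h1 : ∀ n : ℕ, (1 + N) ^ n = 1 + (n : F) • N := fun n => by
    induction n with
    | zero => simp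
    | succ n ih =>
      rw [pow_succ, ih]
      simp [add_mul, mul_add, e, add_smul, add_assoc, add_comm]
  have h2 := congrArg LinearMap.det (h1 p)
  rw [CharP.cast_eq_zero, zero_smul, add_zero, map_one, map_pow] at h2
  exact sub_eq_zero.1 (pow_eq_zero_iff (Fact.out : p.Prime).ne_zero |>.1
    (by rw [sub_pow_char, h2, one_pow, sub_self]))

theorem UF.act_iso (hS : UF S h B) {π : Equiv.Perm τ} (e : S.Act g π 1) (p q : V) :
    B (g p) (g q) = B p q :=
  sesq_ext S (β := (B.comp g).compl₂ g) (fun u v => by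
    rw [LinearMap.compl₂_apply, LinearMap.comp_apply, e, e, hS.form, hS.form]
    exact Equiv.prod_comp π.symm fun s => h (u s) (v s)) p q

theorem UF.not_pres (hS : UF S h B) [Nontrivial τ] {x y : U} (hx : h x x = 0) (hy : h y y = 0)
    (hxy : h x y = 1) {c : F} (hc : c ≠ 0) {g : V → V}
    (e : g (S.pt fun _ => y) = S.pt (fun _ => y) + c • S.pt fun _ => x) : ¬ S.Pres g := by
  rintro ⟨π, α, hα⟩
  obtain ⟨i, j, hij⟩ := exists_pair_ne τ
  have hyx := hS.hh.flip_one hxy
  have key : ∀ m : τ → U, ∏ s, h (m s) (α s y) = ∏ s, h (m s) y + c * ∏ s, h (m s) x := fun m => by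
    simpa [hS.form, e] using (congrArg (B (S.pt m)) (hα fun _ => y)).symm
  have h1 := key fun _ => x
  have h2 := key fun _ => y
  have h3 := key (update (fun _ => x) i y)
  simp only [hx, hy, hxy, hyx, Finset.prod_const, Finset.card_univ, one_pow,
    zero_pow Fintype.card_ne_zero, mul_zero, add_zero, zero_add, mul_one] at h1 h2
  rw [Finset.prod_eq_zero (f := fun s => h (update (fun _ => x) i y s) y) (Finset.mem_univ i)
    (by simpa), Finset.prod_eq_zero (f := fun s => h (update (fun _ => x) i y s) x)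
    (Finset.mem_univ j) (by simpa [hij.symm]), mul_zero, add_zero, Finset.prod_eq_zero_iff] at h3
  obtain ⟨l, -, hl⟩ := h3
  by_cases hli : l = i
  · exact hc (by rw [← h2, Finset.prod_eq_zero (Finset.mem_univ l) (by simpa [hli] using hl)])
  · exact one_ne_zero (by
      rw [← h1, Finset.prod_eq_zero (Finset.mem_univ l) (by simpa [hli] using hl)])

variable [FiniteDimensional F U] [FiniteDimensional F V] [Finite F]

theorem UF.isMaximalIn (hS : UF S h B) [Nontrivial τ] (h3 : finrank F V ≠ 3)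
    (hp : ∀ π, ∃ g : End F V, S.Act g π 1) {H : Subgroup (V ≃ₗ[F] V)}
    (h1 : ∀ g ∈ H, S.Pres g) (h4 : ∀ g : V ≃ₗ[F] V, Nm S g.toLinearMap → g ∈ H) :
    Geo.IsMaximalIn (sisom B) (H ⊓ sisom B) := by
  refine H26.isMaximalIn_inf (fun hle => ?_) fun M hM hM' => ?_
  · obtain ⟨x, y, -, a1, a2, a3⟩ := exists_hyp hS.hh hS.two
    obtain ⟨c, hc0, hc⟩ := hS.hh.inv.exists_skew'
    obtain ⟨i⟩ : Nonempty τ := inferInstance
    have a4 : B (S.pt fun _ => x) (S.pt fun _ => x) = 0 := hS.form_eq_zero i a1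
    exact hS.not_pres a1 a2 a3 hc0 (by simp [tv_apply, hS.form, a3])
      (h1 _ (hle (hS.hB.tv_mem_sisom a4 hc)))
  let X := M.map (LinearMap.GeneralLinearGroup.generalLinearEquiv F V).symm.toMonoidHom
  have hXM : eqG X = M := Subgroup.comap_map_eq_self_of_injective (MulEquiv.injective _) M
  have hX : UX S h B X := ⟨hS, fun g hg => by
    obtain ⟨k, hk, e⟩ := exists_eqG hg
    simpa [← e] using mem_isom.1 (hM' (hXM ▸ hk)).1, fun s u c hu hc => by
    have e1 : ∀ c : F, S.fac s (1 + c • ur h u u) = 1 + c • ue h (S.fac s) u u := fun c => by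
      simp [ue_apply]
    have e2 : ∀ c : F, (1 + c • ue h (S.fac s) u u) * (1 + -c • ue h (S.fac s) u u) = 1 :=
      fun c => by simp [add_mul, mul_add, ue_mul, hu]
    have e3 : (1 + -c • ue h (S.fac s) u u) * (1 + c • ue h (S.fac s) u u) = 1 := by
      simpa using e2 (-c)
    have e4 : ∀ (c : F) j, j ≠ s → Cm (S.fac j) (1 + c • ue h (S.fac s) u u) := fun c j hj =>
      e1 c ▸ cm_fac S hj _
    exact (mem_eqG (g := LinearEquiv.ofLinearMap _ _ (e2 c) e3)).1 (hXM ▸ hM
      ⟨h4 _ (hS.nm_fac e3 (e4 c) (e4 _)), mem_sisom'.2 ⟨fun p q => by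
        change B ((1 + c • ue h (S.fac s) u u) p) ((1 + c • ue h (S.fac s) u u) q) = _
        rw [← e1, hS.fac_adj s (a' := 1 + -c • ur h u u) fun x y => by
          simp [skew_eq hc, hS.hh.symm, mul_comm, mul_left_comm], e1, e1, ← End.mul_apply, e3,
          End.one_apply], det_one_add_of_sq (by simp [ue_mul, hu])⟩⟩)⟩
  obtain ⟨π, hπ⟩ := H27.exists_permHom hp
  have hP : HasAlt S X := fun ρ hρ => ⟨(π ρ).toLinearMap, mem_eqG.1 (hXM ▸ hM
    ⟨h4 _ (H27.act_nm (hπ ρ)), hS.act_iso (g := (π ρ).toLinearMap) (hπ ρ),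
      Abelianization.commutator_subset_ker (LinearEquiv.det.comp π)
        (H27.alternating_le_commutator τ hρ)⟩), hπ ρ⟩
  by_cases hPM : UPM S h X
  swap
  · exact Or.inr (hXM ▸ hX.top (hX.ty_univ hP hPM) h3)
  refine Or.inl fun g hg => h4 g ?_
  by_cases h2 : (2 : F) = 0
  · exact hX.nm_two hPM h2 (mem_eqG.1 (hXM ▸ hg))
  · exact hX.nm_odd hPM h2 (mem_eqG.1 (hXM ▸ hg))

end Abstract

open Matrix Cfsg.Geo

/-- The stabiliser in `SU_n(q)` of a decomposition as a tensor power of a unitary space of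
dimension `k ≥ 3` is maximal unless `(q, k) = (2, 3)`. -/
theorem su_c7 {F : Type*} [Field F] [Fintype F] {n q : ℕ} (hF : Fintype.card F = q ^ 2)
    (hn : n ≠ 3) {k t : ℕ} (hk : 3 ≤ k) (ht : 2 ≤ t) (hex : ¬ (q = 2 ∧ k = 3))
    (e : Fin n ≃ (Fin t → Fin k)) (P : GL (Fin n) F) {f₁ : (Fin k → F) → (Fin k → F) → F}
    (hf₁ : IsUnitaryFormPow q f₁)
    (hT : IsTensorPowerFormStructure (fun x : F => x ^ q) (hermForm n F q) f₁ e P) :
    IsMaximalIn (GU n F q ⊓ specialLinear (Fin n) F)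
      (tensorWreathSubgroup k t e P ⊓ (GU n F q ⊓ specialLinear (Fin n) F)) := by
  obtain ⟨h, hh, a1⟩ := exists_isHerm_of_isUnitaryFormPow hF hf₁
  obtain ⟨c, hc0, hc⟩ := hT
  have : NeZero t := ⟨by omega⟩
  have : NeZero k := ⟨by omega⟩
  have : Nontrivial (Fin t) := Fin.nontrivial_iff_two_le.2 ht
  have h₀ : IsBilinearForm fun _ _ : Fin k → F => (0 : F) := ⟨by simp, by simp, by simp, by simp⟩
  have hT₀ : IsTensorPowerFormStructure id
      (fun x y => (0 : LinearMap.BilinForm F (Fin n → F)) x y) (fun _ _ => (0 : F)) e P :=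
    ⟨1, one_ne_zero, by simp [gramMatrix, NeZero.ne t]⟩
  have tm : ∀ u v, hermB hF n ((geoTPow h₀ hT₀).pt u) ((geoTPow h₀ hT₀).pt v) =
      c * ∏ s, h (u s) (v s) := fun u v => by
    have key : ∀ x y, h x y = ∑ i, ∑ j, y i * gramMatrix f₁ i j * x j ^ q := fun x y => by
      conv_lhs => rw [pi_eq_sum_univ' x, pi_eq_sum_univ' y]
      simp only [map_sum, LinearMap.map_smulₛₗ, LinearMap.sum_apply, LinearMap.smul_apply,
        smul_eq_mul, RingHom.id_apply, gramMatrix, ← a1, Finset.mul_sum]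
      exact Finset.sum_congr rfl fun i _ => Finset.sum_congr rfl fun j _ => by
        rw [show frobQ hF (x j) = x j ^ q from rfl]; ring
    rw [hermB_eq, geoTPow_pt, geoTPow_pt, H25.frameEquiv_apply, H25.frameEquiv_apply, hc]
    simp only [key, Fintype.prod_sum, H25.pureV, ← Finset.prod_pow, Finset.prod_mul_distrib]
  have hcσ : frobQ hF c = c := by
    obtain ⟨x, hx⟩ := exists_ne (0 : Fin k → F)
    obtain ⟨y, hy⟩ := hh.exists_eq_one hx
    have := (isHerm_hermB hF n).symm ((geoTPow h₀ hT₀).pt fun _ => x)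
      ((geoTPow h₀ hT₀).pt fun _ => y)
    simpa [tm, hy, hh.flip_one hy] using this
  have hB : IsHerm (c⁻¹ • hermB hF n) := ⟨⟨isInvol_frobQ hF, fun x y => by
      simp only [LinearMap.smul_apply, smul_eq_mul, map_mul, map_inv₀, hcσ,
        (isHerm_hermB hF n).symm]⟩,
    fun x hx => (isHerm_hermB hF n).nondeg x fun y => by simpa [hc0] using hx y⟩
  have hS : UF (geoTPow h₀ hT₀) h (c⁻¹ • hermB hF n) := ⟨hh, hB, fun u v => by simp [tm, hc0],
    by simpa, by
      by_cases hq : q = 2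
      · exact Or.inl (by simp; omega)
      · exact Or.inr (exists_fixed_ne hF (fun _ => rfl) hq)⟩
  have hs : sisom (c⁻¹ • hermB hF n) = sisom (hermB hF n) := by
    ext g
    simp [mem_sisom, mem_isom, hc0]
  refine isMaximalIn_SU_of hF (H' := (tensorWreathSubgroup k t e P).comap
    (H31.glEquiv (Fin n) F).symm.toMonoidHom) (fun g => by simp) (hs ▸ hS.isMaximalIn (by simpa)
      (H27.geoTPow_perm _ hT₀) (fun g hg => ?_) fun g hg => H27.mem_tw_of_nm h₀ hT₀ ?_)
  · simpa only [← H31.glEquiv_apply, MulEquiv.coe_toMonoidHom, MulEquiv.apply_symm_apply] using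
      geoTPow_pres h₀ hT₀ hg
  · rwa [← H31.coe_glEquiv, MulEquiv.coe_toMonoidHom, MulEquiv.apply_symm_apply]

end Cfsg.Agent.H79
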