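import Cfsg.Agent.H79.UPow

/-!
# Overgroups of tensor induced unitary groups: producing transvections
-/

set_option autoImplicit false

namespace Cfsg.Agent.H79

open Module Function H30 H31 H36
open H27 (Cm cm_one cm_zero Phi Phi_pt Phi_update Phi_linear Phi_smul Phi_single Phi_induction
  Phi_eq_zero cm_fac cm_Phi inG_conj inG_inv inG_exists_inv inG_of_mul_eq inG_comm HasAlt
  multi_induction)

variable {F U V τ : Type*} [Field F] {σ : F →+* F} [AddCommGroup U] [Module F U] [AddCommGroup V]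
  [Module F V] [Fintype τ] [DecidableEq τ] {f₀ : LinearMap.BilinForm F U}
  {B₀ : LinearMap.BilinForm F V} {S : TPow τ f₀ B₀} {h : U →ₛₗ[σ] U →ₗ[F] F}
  {B : V →ₛₗ[σ] V →ₗ[F] F} {X : Subgroup (End F V)ˣ} {s j a : τ} {u v w x y : U} {c : F}
  {g g' n : End F V} {A A' : Finset τ}

/-- The elements of `X` with commutator space in that of `t_u ⊗ 1` are the `t_u ⊗ 1`. -/
def UPM (S : TPow τ f₀ B₀) (h : U →ₛₗ[σ] U →ₗ[F] F) (X : Subgroup (End F V)ˣ) : Prop :=
  ∀ s u, u ≠ 0 → h u u = 0 → ∀ n, InG X (1 + n) →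
    (∀ p, n p ∈ LinearMap.range (ue h (S.fac s) u u)) → ∃ c : F, n = c • ue h (S.fac s) u u

/-- `X` contains all the elements of type `A`. -/
def TyU (S : TPow τ f₀ B₀) (h : U →ₛₗ[σ] U →ₗ[F] F) (X : Subgroup (End F V)ˣ) (A : Finset τ) :
    Prop := ∀ c, c + σ c = 0 → ∀ n, (∀ j, n j ∈ tyU h A j) → InG X (1 + c • Phi S n)

theorem mul_self_of_uT {m : End F U} (hm : m ∈ uT h) : m * m = 0 := by
  obtain ⟨x, hx, rfl⟩ := hm
  rw [ur_mul, hx, zero_smul]

theorem TyU.perm (H : TyU S h X A) {π : Equiv.Perm τ} (hg : InG X g) (hπ : S.Act g π 1) :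
    TyU S h X (A.map π.toEmbedding) := fun c hc n hn => by
  obtain ⟨g', -, h1, -⟩ := inG_exists_inv hg
  have := inG_conj hg h1 (H c hc (fun j => n (π j)) fun j => by simpa [tyU] using hn (π j))
  rw [mul_smul_comm, H27.Act.conj_Phi S hπ, smul_mul_assoc, mul_assoc, h1, mul_one] at this
  simpa using this

theorem TyU.of_card (hP : HasAlt S X) (H : TyU S h X A) (h2 : 2 ≤ A.card) (e : A.card = A'.card) :
    TyU S h X A' := by
  obtain ⟨π, hπ, rfl⟩ := H27.exists_alt_map e h2
  obtain ⟨g, hg, h1⟩ := hP π hπ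
  exact H.perm hg h1

theorem TyU.ext (H : TyU S h X A) (ha : a ∈ A) (hc : c + σ c = 0) {n : τ → End F U}
    (h1 : n a ∈ uT h) (h2 : ∀ j ∈ A, n j ∈ AddSubgroup.closure (uT h)) (h3 : ∀ j ∉ A, n j = 1) :
    InG X (1 + c • Phi S n) := by
  refine multi_induction (p := fun n => n a ∈ uT h → InG X (1 + c • Phi S n)) (G := tyU h A)
    (L := fun j => {m | (j = a → m ∈ uT h) ∧ (j ∈ A → m ∈ AddSubgroup.closure (uT h)) ∧
      (j ∉ A → m = 1)}) (fun i m hm y hy h4 => ?_) (fun n hn _ => H c hc n hn) n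
    (fun j => ⟨fun e => e ▸ h1, h2 j, h3 j⟩) h1
  by_cases hi : i = a
  · exact hm y (by simpa [tyU, hi, ha] using hy.1 hi) h4
  by_cases hiA : i ∈ A
  swap
  · exact hm y (by simpa [tyU, hiA] using hy.2.2 hiA) h4
  have h5 : ∀ y, update m i y a = m a := fun y => update_of_ne (Ne.symm hi) y m
  have h6 : ∀ y y', c • Phi S (update m i y) * c • Phi S (update m i y') = 0 := fun y y' => by
    rw [smul_mul_smul_comm, ← map_mul, Phi_eq_zero S (s := a) (by
      rw [Pi.mul_apply, h5, h5, mul_self_of_uT (h5 _ ▸ h4)]), smul_zero]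
  have h7 := hy.2.1 hiA
  rw [h5] at h4
  clear hy
  induction h7 using AddSubgroup.closure_induction with
  | mem y hy => exact hm y (by simpa [tyU, hiA] using hy) (by rwa [h5])
  | zero => simpa [(Phi_linear S m i).map_zero] using inG_one X
  | add y y' _ _ a1 a2 =>
    convert a1.mul a2 using 1
    rw [(Phi_linear S m i).map_add, add_mul, mul_add, mul_add, h6, smul_add]
    simp only [one_mul, mul_one, add_zero]
    abel
  | neg y _ a1 =>
    refine inG_inv a1 ?_
    rw [add_mul, mul_add, mul_add, h6, (Phi_linear S m i).map_neg]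
    simp

variable [FiniteDimensional F U] [Finite F]

theorem exists_perp_norm' (hh : IsHerm h) (h3 : 3 ≤ finrank F U) (hu : h u u = 0) :
    ∃ y, h y y = 1 ∧ h u y = 0 := by
  by_cases h0 : u = 0
  · obtain ⟨u, u', -, a1, a2, a3⟩ := exists_hyp hh (by omega)
    obtain ⟨y, hy, -⟩ := exists_perp_norm hh h3 a1 a2 a3
    exact ⟨y, hy, by simp [h0]⟩
  obtain ⟨u', a2, a3⟩ := hh.exists_hyperbolic' hu h0
  obtain ⟨y, hy, h1, -⟩ := exists_perp_norm hh h3 hu a2 a3
  exact ⟨y, hy, h1⟩

namespace UX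

theorem ty_of_one (hX : UX S h B X) (ha : a ∈ A) (hc : c ≠ 0)
    (H : ∀ n, (∀ j, n j ∈ tyU h A j) → InG X (1 + c • Phi S n)) : TyU S h X A := by
  intro d hd n hn
  obtain ⟨u, u', hu0, hu, -, huu'⟩ := exists_hyp hX.hh hX.two
  have h1 : c + σ c = 0 := by
    refine hX.skew_of_mem (N := Phi S fun j => if j ∈ A then ur h u u else 1) (fun e => ?_)
      (sesq_ext S (β := B.comp _) (β' := B.compl₂ _) fun p q => ?_) ?_ (H _ fun j => ?_)
    · refine hX.pt_ne_zero (x := fun j => (if j ∈ A then ur h u u else 1) u') (fun j => ?_)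
        (by rw [← Phi_pt, e, LinearMap.zero_apply])
      have : u' ≠ 0 := by rintro rfl; simp at huu'
      split_ifs <;> simpa [huu']
    · simp only [LinearMap.comp_apply, LinearMap.compl₂_apply, Phi_pt, hX.form]
      exact Finset.prod_congr rfl fun j _ => by split_ifs <;> simp [hX.hh.symm, mul_comm]
    · rw [← map_mul]
      exact Phi_eq_zero S (s := a) (by simp [ha, ur_mul, hu])
    · simp only [tyU]
      split_ifs
      exacts [⟨u, hu, rfl⟩, rfl]
  obtain ⟨k, hk, rfl⟩ := H26.exists_fixed_mul hX.hh.inv h1 hc hd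
  obtain ⟨x, hx, e⟩ : n a ∈ uT h := by simpa [tyU, ha] using hn a
  have := H (update n a (k • n a)) (forall_update_iff n (fun i x => x ∈ tyU h A i) |>.2
    ⟨by simpa [tyU, ha, e] using smul_mem_uT hX.hh hk hx, fun i _ => hn i⟩)
  rwa [(Phi_linear S n a).map_smul, update_eq_self, smul_smul, mul_comm] at this

theorem ty_union (hX : UX S h B X) (H : TyU S h X A) (H' : TyU S h X A') {a' b : τ} (ha : a ∈ A)
    (ha2 : a ∉ A') (ha' : a' ∈ A') (ha'2 : a' ∉ A) (hb : b ∈ A) (hb' : b ∈ A') :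
    TyU S h X (A ∪ A') := by
  obtain ⟨c, hc0, hc⟩ := hX.hh.inv.exists_skew'
  obtain ⟨θ, hθ⟩ := hX.hh.inv.ne_id
  refine hX.ty_of_one (Finset.mem_union_left _ ha) (c := c * c * (θ - σ θ))
    (mul_ne_zero (mul_ne_zero hc0 hc0) (sub_ne_zero.2 hθ.symm)) fun n hn => ?_
  have h1 : ∀ j, ∃ u y, h u u = 0 ∧ h y y = 1 ∧ h u y = 0 ∧ (j ∈ A ∪ A' → n j = ur h u u) := by
    intro j
    by_cases hj : j ∈ A ∪ A'
    · obtain ⟨u, hu, e⟩ : n j ∈ uT h := by simpa only [tyU, if_pos hj] using hn j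
      obtain ⟨y, h1, h2⟩ := exists_perp_norm' hX.hh hX.three hu
      exact ⟨u, y, hu, h1, h2, fun _ => e⟩
    · obtain ⟨y, h1, h2⟩ := exists_perp_norm' (u := 0) hX.hh hX.three (by simp)
      exact ⟨0, y, by simp, h1, h2, fun e => (hj e).elim⟩
  choose u y h1 h2 h3 h4 using h1
  have h5 : ∀ j, j ∉ A → j ∉ A' → n j = 1 := fun j a1 a2 => by simpa [tyU, a1, a2] using hn j
  have h6 : ∀ j, j ∈ A ∪ A' → n j ∈ uT h := fun j hj => ⟨_, h1 j, h4 j hj⟩
  let t : τ → F := fun j => if j = b then θ else 1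
  let m : τ → End F U := fun j => if j ∈ A then if j ∈ A' then um h (u j) (y j) else n j else 1
  let m' : τ → End F U := fun j =>
    if j ∈ A' then if j ∈ A then um h (u j) (t j • y j) else n j else 1
  have e1 : m * m' = fun j => t j • n j := funext fun j => by
    by_cases a1 : j ∈ A <;> by_cases a2 : j ∈ A'
    · simp [m, m', a1, a2, um, mul_add, add_mul, ur_mul, h1, h2, h3, hX.hh.flip_zero (h3 j), h4]
    all_goals simp [m, m', t, a1, a2, show j ≠ b by rintro rfl; contradiction, h5]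
  have e2 : m' * m = fun j => σ (t j) • n j := funext fun j => by
    by_cases a1 : j ∈ A <;> by_cases a2 : j ∈ A'
    · simp [m, m', a1, a2, um, mul_add, add_mul, ur_mul, h1, h2, h3, hX.hh.flip_zero (h3 j), h4]
    all_goals simp [m, m', t, a1, a2, show j ≠ b by rintro rfl; contradiction, h5]
  have e3 : m a * m a = 0 := by simpa [m, ha, ha2] using mul_self_of_uT (h6 a (by simp [ha]))
  have e4 : m' a' * m' a' = 0 := by
    simpa [m', ha', ha'2] using mul_self_of_uT (h6 a' (by simp [ha']))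
  have e5 : m' a = 1 := if_neg ha2
  have e6 : m a' = 1 := if_neg ha'2
  have := inG_comm (H.ext (n := m) ha hc (by simpa [m, ha, ha2] using h6 a (by simp [ha]))
    (fun j hj => by
      simp only [m, if_pos hj]
      split_ifs
      exacts [um_mem hX.hh (h1 j) (h3 j), AddSubgroup.subset_closure (h6 j (by simp [hj]))])
    fun j hj => if_neg hj)
    (H'.ext (n := m') ha' hc (by simpa [m', ha', ha'2] using h6 a' (by simp [ha']))
    (fun j hj => by
      simp only [m', if_pos hj]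
      split_ifs
      exacts [um_mem hX.hh (h1 j) (by simp [h3]), AddSubgroup.subset_closure (h6 j (by simp [hj]))])
    fun j hj => if_neg hj)
    (by simp [← map_mul, Phi_eq_zero S (n := m * m' * m) (s := a) (by simp [e3, e5])])
    (by simp [← map_mul, Phi_eq_zero S (n := m * m' * m') (s := a') (by simp [e4, e6])])
    (by simp [← map_mul, Phi_eq_zero S (n := m' * m * m) (s := a) (by simp [e3, e5])])
    (by simp [← map_mul, Phi_eq_zero S (n := m' * m * m') (s := a') (by simp [e4, e6])])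
  rw [smul_mul_smul_comm, smul_mul_smul_comm, ← map_mul, ← map_mul, e1, e2, Phi_smul, Phi_smul,
    ← map_prod, show ∏ j, t j = θ by simp [t], ← smul_sub, ← sub_smul, smul_smul] at this
  exact this

omit [FiniteDimensional F U] [Finite F] in
theorem apply_eq_zero (hX : UX S h B X) (hu : h u u = 0) (hn : InG X (1 + n))
    (hr : ∀ p, n p ∈ LinearMap.range (ue h (S.fac s) u u)) {p : V}
    (hp : ue h (S.fac s) u u p = 0) : n p = 0 := hX.hB.nondeg _ fun q => by
  have := hX.iso _ hn p q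
  obtain ⟨a, ha⟩ := hr p
  obtain ⟨b, hb⟩ := hr q
  simp only [LinearMap.add_apply, End.one_apply, map_add, ← hb, ← hX.ue_adj, hp] at this
  simpa [← ha, ue_ue, hu] using this

theorem exists_ty (hX : UX S h B X) (hM : ¬ UPM S h X) :
    ∃ A : Finset τ, 2 ≤ A.card ∧ TyU S h X A := by
  simp only [UPM, not_forall, not_exists] at hM
  obtain ⟨s, u, hu0, hu, n, hn, hr, hM⟩ := hM
  obtain ⟨y, hy⟩ := hX.hh.exists_eq_one hu0
  have h1 : n * ue h (S.fac s) y u = n := LinearMap.ext fun p => by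
    have := hX.apply_eq_zero hu hn hr (p := p - ue h (S.fac s) y u p) (by simp [ue_ue, hy])
    rw [map_sub, sub_eq_zero] at this
    exact this.symm
  have h4 : ue h (S.fac s) u y * n = n := LinearMap.ext fun p => by
    obtain ⟨q, hq⟩ := hr p
    rw [End.mul_apply, ← hq, ue_ue, hX.hh.flip_one hy, one_smul]
  have h5 : n = ue h (S.fac s) u u * uco hX.hh (S.fac s) y y n := by rw [ue_mul_uco, h4, h1]
  obtain ⟨A, c, a1, a2, a3, a4⟩ := hX.reduce_all (fun j hj => hX.inv_dSub hj)
    (D := uco hX.hh (S.fac s) y y n) ⟨cm_uco _ _ _, fun x hx => by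
      by_cases hx0 : x = 0
      · simpa [hx0] using inG_one X
      obtain ⟨g, hg, rfl⟩ := exists_su_map hX.hh hX.three hu0 hx0 (hu.trans hx.symm)
      have := hX.conj_fac s hg hn
      rwa [h5, ue_conj hg.1 (cm_uco _ _ _)] at this⟩
    (cm_uco _ _ _) fun c e => hM c (by rw [h5, e, mul_smul_comm, mul_one])
  refine ⟨insert s A, by simpa [a1, Finset.one_le_card] using a2,
    hX.ty_of_one (Finset.mem_insert_self s A) a3 fun m hm => ?_⟩
  obtain ⟨x, hx, e⟩ : m s ∈ uT h := by simpa [tyU] using hm s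
  have := (a4 (update m s 1) fun j => by
    by_cases hj : j = s
    · simp [hj, tyU, a1]
    · simpa [tyU, hj] using hm j).2 x hx
  rwa [mul_smul_comm, ue_apply, ← Phi_update, ← e, update_eq_self] at this

theorem ty_univ (hX : UX S h B X) (hP : HasAlt S X) (hM : ¬ UPM S h X) :
    TyU S h X Finset.univ := by
  obtain ⟨A, h2, H⟩ := hX.exists_ty hM
  induction A using WellFoundedGT.induction with | _ A ih => ?_
  by_cases h4 : A = Finset.univ
  · exact h4 ▸ H
  obtain ⟨a', ha'⟩ : ∃ a', a' ∉ A := by simpa [Finset.eq_univ_iff_forall] using h4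
  obtain ⟨a, ha, b, hb, hab⟩ := Finset.one_lt_card.1 h2
  have h5 : A ⊂ A ∪ insert a' (A.erase a) :=
    Finset.ssubset_iff.2 ⟨a', ha', Finset.insert_subset (by simp) Finset.subset_union_left⟩
  exact ih _ h5 (h2.trans (Finset.card_lt_card h5).le) (hX.ty_union H (H.of_card hP h2 (by
    rw [Finset.card_insert_of_notMem (by simp [ha']), Finset.card_erase_add_one ha])) ha (by grind)
    (Finset.mem_insert_self a' _) ha' hb (by grind))

end UX

end Cfsg.Agent.H79
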