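import Cfsg.Agent.H27.FixCount

/-!
# A class of involutions each fixing a unique coset: products across different cosets are odd
-/

set_option autoImplicit false

namespace Cfsg.Agent.H79

open H27 (refl_mul_pow class_pow_mul exists_odd_pow)

variable {G ι : Type*} [Group G] {H : Subgroup G} {D : G → Prop} {L C : ι → Subgroup G}
  {a b a' d d' x y : G} {i j l : ι}

/-- A class of involutions distributed over commuting factors of `H`. -/
structure OT (H : Subgroup G) (D : G → Prop) (L C : ι → Subgroup G) : Prop where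
  inv : ∀ d, D d → d * d = 1
  ne : ∀ d, D d → d ≠ 1
  conj : ∀ d g, D d → D (g * d * g⁻¹)
  fix : ∀ d g, D d → d ∈ H → g * d * g⁻¹ ∈ H → g ∈ H
  dih : ∀ d e, D d → D e → d ∈ H → e ∈ H → e * d * e * d = d * (e * d * e) → e * d * e = d
  mem : ∀ d, D d → d ∈ H → ∃ i, d ∈ L i
  le : ∀ i, L i ≤ H
  comm : ∀ i, ∀ x ∈ L i, ∀ y ∈ C i, x * y = y * x
  le' : ∀ i j, i ≠ j → L j ≤ C i
  cen : ∀ i, ∀ x ∈ L i, x ∈ C i → (∀ g, x * g = g * x) ∧ (x * x = 1 → x = 1)
  one : ∀ i a a' s, D a → D a' → a ∈ L i → a' ∈ L i → a * a' = a' * a → a ≠ a' → s * s = 1 →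
    s * (a * a') = a * a' * s → a' * (s * a' * s) = s * a' * s * a'
  rel : ∀ i a, D a → a ∈ L i → ∃ l : List G, Odd l.length ∧ l.prod = 1 ∧
    ∀ x ∈ l, D x ∧ x ∈ L i ∧ x * a = a * x

namespace OT

theorem of_comm (h : OT H D L C) (ha : D a) (haH : a ∈ H) (e : a * b = b * a) : b ∈ H :=
  h.fix a b ha haH (by rwa [← e, mul_inv_cancel_right])

theorem swap (h : OT H D L C) (ha : D a) (hb : D b) {m : ℕ} (e : (b * a) ^ (2 * m + 1) = 1) :
    ∃ s, D s ∧ s * a * s = b ∧ s * b * s = a ∧ ∀ K : Subgroup G, a ∈ K → b ∈ K → s ∈ K := by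
  have h1 := class_pow_mul h.inv h.conj hb ha (m + 1)
  have h2 : (b * a) ^ (m + 1) * a * a * ((b * a) ^ (m + 1) * a) = b := by
    rw [mul_assoc _ a a, h.inv a ha, mul_one, ← mul_assoc, ← pow_add,
      show m + 1 + (m + 1) = 2 * m + 1 + 1 by ring, pow_succ, e, one_mul, mul_assoc, h.inv a ha,
      mul_one]
  refine ⟨_, h1, h2, ?_, fun K h3 h4 => K.mul_mem (K.pow_mem (K.mul_mem h4 h3) _) h3⟩
  generalize (b * a) ^ (m + 1) * a = s at h1 h2
  rw [← h2, ← mul_assoc, ← mul_assoc, h.inv s h1, one_mul, mul_assoc, h.inv s h1, mul_one]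

theorem swap' (h : OT H D L C) (ha : D a) (hb : D b) {m : ℕ} (e : (b * a) ^ (2 * m + 1) = 1) :
    ∃ s, s * s = 1 ∧ (∀ d, D d → D (s * d * s)) ∧ s * a * s = b ∧ s * b * s = a ∧
      ∀ z, a * z = z * a → b * z = z * b → s * z = z * s := by
  obtain ⟨s, h1, h2, h3, h4⟩ := h.swap ha hb e
  refine ⟨s, h.inv s h1, fun d hd => ?_, h2, h3, fun z h5 h6 =>
    Subgroup.mem_centralizer_singleton_iff.1 (h4 _ (Subgroup.mem_centralizer_singleton_iff.2 h5)
      (Subgroup.mem_centralizer_singleton_iff.2 h6))⟩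
  simpa [inv_eq_of_mul_eq_one_right (h.inv s h1)] using h.conj d s hd

theorem mul_notMem (h : OT H D L C) (hx : x ∈ L i) (h1 : x * x = 1) (h2 : x ≠ 1) (hy : y ∈ C i)
    (hl : i ≠ l) : x * y ∉ L l := fun e =>
  h2 ((h.cen i x hx (((C i).mul_mem_cancel_right hy).1 (h.le' i l hl e))).2 h1)

variable [Finite G]

theorem odd_or (h : OT H D L C) (ha : D a) (hi : a ∈ L i) (hb : D b) (hbH : b ∉ H) :
    (∃ m, (b * a) ^ (2 * m + 1) = 1) ∨ ∃ a' j, i ≠ j ∧ D a' ∧ a' ∈ L j ∧ D (a * a' * b) ∧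
      b * (a * a') = a * a' * b ∧ (∃ m, (b * a') ^ (2 * m + 1) = 1) ∧
      ∀ z, a * z = z * a → b * z = z * b → a' * z = z * a' := by
  have haH := h.le i hi
  have h1 := refl_mul_pow (h.inv b hb) (h.inv a ha)
  have haa : ∀ x, a * (a * x) = x := fun x => by rw [← mul_assoc, h.inv a ha, one_mul]
  obtain ⟨m, hm⟩ := exists_odd_pow (r := b * a) fun j hj => by
    have h7 := h1 j
    have h2 := class_pow_mul h.inv h.conj hb ha j
    have h3 := fun e => h.dih a _ ha h2 haH (h.fix a _ ha haH (by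
      rw [inv_eq_of_mul_eq_one_right (h.inv _ h2)]
      exact h.of_comm ha haH (Eq.symm e))) e
    generalize (b * a) ^ j = r at *
    have h8 : ∀ x, a * (r * x) = r⁻¹ * (a * x) := fun x => by rw [← h7]; simp [mul_assoc, haa]
    simp only [mul_assoc, h.inv a ha, mul_one, h8] at h3
    have h9 := h3 (by
      rw [eq_inv_mul_iff_mul_eq, eq_inv_iff_mul_eq_one, ← hj]
      simp [pow_succ, mul_assoc])
    rwa [← mul_assoc, mul_eq_right, ← sq] at h9
  by_cases hz : (b * a) ^ (2 * m + 1) = 1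
  · exact Or.inl ⟨m, hz⟩
  have h2 := class_pow_mul h.inv h.conj hb ha (2 * m + 1)
  have h3 := class_pow_mul h.inv h.conj hb ha (2 * m + 1 + 1)
  have h4 := h1 (2 * m + 1)
  have h5 : (b * a) ^ (2 * m + 1) * (b * a) = b * a * (b * a) ^ (2 * m + 1) := by
    rw [← pow_succ, pow_succ']
  have h6 : ∀ z, a * z = z * a → b * z = z * b → Commute ((b * a) ^ (2 * m + 1)) z :=
    fun z e1 e2 => (Commute.mul_left e2 e1).pow_left _
  have h7 : ∀ z, Commute z (b * a) → z * z = 1 → (z * (b * a)) ^ (2 * m + 1) =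
      z * (b * a) ^ (2 * m + 1) := fun z e1 e2 => by
    rw [e1.mul_pow, pow_succ, pow_mul, sq, e2, one_pow, one_mul]
  rw [pow_succ, mul_assoc, mul_assoc, h.inv a ha, mul_one] at h3
  rw [sq] at hm
  generalize (b * a) ^ (2 * m + 1) = z at *
  have h8 : a * z = z * a := by
    rw [inv_eq_of_mul_eq_one_right hm] at h4
    rw [← mul_left_inj a, h4, mul_assoc, h.inv a ha, mul_one]
  have h9 : b * z = z * b := mul_right_cancel (b := a) (by
    rw [mul_assoc, ← h8, ← mul_assoc, ← h5, mul_assoc])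
  have h10 : a * (z * a) = z := by rw [← h8, haa]
  have h11 : (b * (z * a)) ^ (2 * m + 1) = 1 := by rw [← mul_assoc, h9, mul_assoc, h7 z h5 hm, hm]
  have h12 : a * (z * a) = z * a * a := by rw [← mul_assoc, h8]
  obtain ⟨j, hj⟩ := h.mem _ h2 (h.of_comm ha haH h12)
  refine Or.inr ⟨z * a, j, ?_, h2, hj, by rwa [h10], by rwa [h10], ⟨m, h11⟩,
    fun w e1 e2 => (h6 w e1 e2).mul_left e1⟩
  rintro rfl
  obtain ⟨s, c1, -, c2, -, c3⟩ := h.swap' h2 hb h11
  have := h.one i a _ s ha h2 hi hj h12 (fun e => hz (by simpa using e.symm)) c1 (by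
    rw [h10]
    exact c3 z (by rw [mul_assoc, h8, ← mul_assoc]) h9)
  exact hbH (h.of_comm h2 (h.le i hj) (c2 ▸ this))

/-- Products of class elements inside and outside `H` have odd order. -/
theorem odd (h : OT H D L C) (ha : D a) (haH : a ∈ H) (hb : D b) (hbH : b ∉ H) :
    ∃ m, (b * a) ^ (2 * m + 1) = 1 := by
  obtain ⟨i, hi⟩ := h.mem a ha haH
  refine (h.odd_or ha hi hb hbH).elim id fun ⟨a', j, hij, a1, a2, a3, a4, ⟨m, a5⟩, a6⟩ => ?_
  exfalso
  obtain ⟨s, s1, s2, s3, s4, s5⟩ := h.swap' a1 hb a5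
  have hss : ∀ x, s * (s * x) = x := fun x => by rw [← mul_assoc, s1, one_mul]
  have hC := h.le' j i hij.symm
  have hC' := h.le' i j hij
  have key : ∀ x, D x → x ∈ L i → x * a = a * x → ∃ y ∈ L j, ∃ c ∈ C j,
      b * (x * y) = x * y * b ∧ s * (x * y) * s = a' * c := by
    intro x x1 x2 x3
    have x4 := h.comm j a' a2 x (hC x2)
    by_cases hx : x = a
    · refine ⟨a', a2, a, hC hi, hx ▸ a4, ?_⟩
      rw [hx, s5 _ (by rw [← mul_assoc, h.comm j a' a2 a (hC hi), mul_assoc]) a4, mul_assoc, s1,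
        mul_one, h.comm j a' a2 a (hC hi)]
    have x5 : a * x * (a * x) = 1 := by
      rw [mul_assoc, ← mul_assoc x, x3, mul_assoc, h.inv x x1, mul_one, h.inv a ha]
    have x6 : a * x ≠ 1 := fun e => hx (mul_left_cancel (e.trans (h.inv a ha).symm))
    rcases h.odd_or x1 x2 hb hbH with ⟨m', b1⟩ | ⟨y, j', hij', b1, b2, b3, b4, ⟨m', b5⟩, -⟩
    · obtain ⟨t, t1, t2, -, t4, t5⟩ := h.swap' x1 hb b1
      have b2 := t2 _ a3
      rw [← mul_assoc, t5 _ (by rw [← mul_assoc, x3, mul_assoc, ← x4, mul_assoc]) a4, mul_assoc,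
        mul_assoc, ← mul_assoc t, t4, mul_assoc, x4, ← mul_assoc] at b2
      obtain ⟨l, hl⟩ := h.mem _ b2 (h.le i (mul_mem hi x2) |> fun e => H.mul_mem e (h.le j a2))
      by_cases hil : i = l
      · rw [h.comm i _ (mul_mem hi x2) a' (hC' a2)] at hl
        exact (h.mul_notMem a2 (h.inv _ a1) (h.ne _ a1) (hC (mul_mem hi x2))
          (hil ▸ hij.symm) hl).elim
      · exact (h.mul_notMem (mul_mem hi x2) x5 x6 (hC' a2) hil hl).elim
    obtain rfl : j = j' := by
      by_contra hj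
      have c1 := h.comm j a' a2 _ (mul_mem (hC x2) (h.le' j j' hj b2))
      have c2 := s2 _ b3
      rw [← mul_assoc, s5 _ c1 b4, mul_assoc, mul_assoc, ← mul_assoc s, s4] at c2
      obtain ⟨l, hl⟩ := h.mem _ c2 (H.mul_mem (H.mul_mem (h.le i x2) (h.le j' b2)) (h.le j a2))
      by_cases hil : i = l
      · rw [← c1] at hl
        exact h.mul_notMem a2 (h.inv _ a1) (h.ne _ a1) (mul_mem (hC x2) (h.le' j j' hj b2))
          (hil ▸ hij.symm) hl
      · rw [mul_assoc] at hl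
        exact h.mul_notMem x2 (h.inv _ x1) (h.ne _ x1) (mul_mem (h.le' i j' hij' b2) (hC' a2)) hil hl
    have c0 := h.comm i x x2 y (hC' b2)
    have c1 := s2 _ b3
    have c2 : s * (x * y) * s = a' * (s * (x * y * b) * s) := by
      rw [← b4, ← s4]
      simp only [mul_assoc, hss, ← mul_assoc b b, h.inv b hb, one_mul]
    have c3 : a' * (s * (x * y * b) * s) = s * (x * y * b) * s * a' := by
      rw [← c2, ← s4]
      simp only [mul_assoc, hss, ← mul_assoc b b, h.inv b hb, one_mul]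
    refine ⟨y, b2, _, ?_, b4, c2⟩
    obtain ⟨l, hl⟩ := h.mem _ c1 (h.of_comm a1 (h.le j a2) c3)
    refine h.le' j l ?_ hl
    rintro rfl
    have c4 : x * (x * y * b) = y * b := by rw [← mul_assoc, ← mul_assoc, h.inv x x1, one_mul]
    obtain ⟨t, t1, -, t2, -, t3⟩ := h.swap' c1 (s2 x x1) (m := m') (by
      have c5 := conj_pow (a := s) (b := y * b) (i := 2 * m' + 1)
      have c6 := mul_pow_mul y b (2 * m' + 1)
      rw [b5, mul_one, mul_eq_right] at c6
      rw [inv_eq_of_mul_eq_one_right s1, c6, mul_one, s1, ← c4] at c5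
      simpa only [mul_assoc, hss] using c5)
    have c5 := h.one j a' _ t a1 c1 a2 hl c3 (fun e => ?_) t1 (t3 _ ?_ ?_)
    · rw [t2] at c5
      simp only [mul_assoc, hss, mul_right_inj] at c5
      rw [← mul_assoc x y, c0, mul_assoc, mul_right_inj, ← mul_assoc, ← mul_assoc,
        mul_left_inj] at c5
      exact hbH (h.of_comm x1 (h.le i x2) c5.symm)
    · rw [← e, h.inv _ a1, mul_eq_one_iff_eq_inv, inv_eq_of_mul_eq_one_right s1, mul_eq_left] at c2
      exact h.mul_notMem x2 (h.inv _ x1) (h.ne _ x1) (hC' b2) hij (c2 ▸ one_mem _)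
    · rw [← mul_assoc, ← c3]
    · rw [← c2]
      simp only [mul_assoc, hss, ← mul_assoc y x, ← c0]
  obtain ⟨l, l1, l2, l3⟩ := h.rel i a ha hi
  have main : ∀ l : List G, (∀ x ∈ l, D x ∧ x ∈ L i ∧ x * a = a * x) → ∃ y ∈ L j, ∃ c ∈ C j,
      b * (l.prod * y) = l.prod * y * b ∧ s * (l.prod * y) * s = a' ^ l.length * c := by
    intro l
    induction l with
    | nil => exact fun _ => ⟨1, one_mem _, 1, one_mem _, by simp [s1]⟩
    | cons x l ih =>
      intro hl
      obtain ⟨x1, x2, x3⟩ := hl x (by simp)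
      obtain ⟨y, y1, c, y2, y3, y4⟩ := key x x1 x2 x3
      obtain ⟨y', z1, c', z2, z3, z4⟩ := ih fun x hx => hl x (by simp [hx])
      have e : (x :: l).prod * (y * y') = x * y * (l.prod * y') := by
        rw [List.prod_cons, mul_assoc, mul_assoc, ← mul_assoc y, h.comm j y y1 _
          (hC (list_prod_mem fun x hx => (hl x (by simp [hx])).2.1)), mul_assoc]
      refine ⟨y * y', mul_mem y1 z1, c * c', mul_mem y2 z2, ?_, ?_⟩
      · rw [e, ← mul_assoc, y3, mul_assoc, z3, ← mul_assoc]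
      · rw [e, List.length_cons, pow_succ', mul_assoc a', ← mul_assoc _ c,
          h.comm j _ (pow_mem a2 _) c y2, mul_assoc c, ← z4, ← mul_assoc a', ← y4]
        simp only [mul_assoc, hss]
  obtain ⟨y, y1, c, y2, y3, y4⟩ := main l l3
  obtain ⟨r, hr⟩ := l1
  rw [l2, one_mul] at y3 y4
  rw [hr, pow_succ, pow_mul, sq, h.inv _ a1, one_pow, one_mul,
    s5 y (a6 y (h.comm i a hi y (hC' y1)) y3) y3, mul_assoc, s1, mul_one] at y4
  refine hbH (h.of_comm a1 (h.le j a2) (mul_right_cancel (b := c) ?_))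
  rw [mul_assoc, ← (h.cen j c (((L j).mul_mem_cancel_left a2).1 (y4 ▸ y1)) y2).1, ← mul_assoc,
    ← y4, mul_assoc, ← y4, y3]

theorem inj (h : OT H D L C) (ha : D a) (haH : a ∈ H) (hd : D d) (hdH : d ∉ H) (hd' : D d')
    (hdH' : d' ∉ H) (e : a * (d' * d) = d' * d * a) : d' = d := by
  obtain ⟨m, h1⟩ := h.odd ha haH hd hdH
  obtain ⟨m', h2⟩ := h.odd ha haH hd' hdH'
  have h3 : d' = d' * d * d := by rw [mul_assoc, h.inv d hd, mul_one]
  have h4 : d * (d' * d) * (d * (d' * d)) = 1 := by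
    simp only [mul_assoc, ← mul_assoc d d, h.inv d hd, one_mul, ← mul_assoc d' d', h.inv d' hd']
  generalize d' * d = w at *
  have h5 : d * w = w⁻¹ * d := by
    rw [eq_inv_mul_iff_mul_eq, ← mul_right_inj d, ← mul_assoc, h4, h.inv d hd]
  have h6 : SemiconjBy (d * a) w w⁻¹ := by rw [SemiconjBy, mul_assoc, e, ← mul_assoc, h5, mul_assoc]
  have h7 : Commute (d * a) w := by
    have h8 : Commute (d * a * (d * a)) w := by
      have := h6.inv_right.mul_left h6
      rwa [inv_inv] at this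
    have h9 := (h8.pow_left m).inv_left
    rwa [← sq, ← pow_mul, inv_eq_of_mul_eq_one_right (by rw [← pow_succ, h1])] at h9
  have h8 : w * w = 1 := by
    rw [← eq_inv_iff_mul_eq_one, ← mul_left_inj (d * a), ← h6.eq, h7.eq]
  have h9 : (w * (d * a)) ^ ((2 * m' + 1) * (2 * m + 1)) = 1 := by
    rw [← mul_assoc, ← h3, pow_mul, h2, one_pow]
  rw [h7.symm.mul_pow, mul_comm, pow_mul (d * a), h1, one_pow, mul_one,
    show (2 * m + 1) * (2 * m' + 1) = 2 * (2 * m * m' + m + m') + 1 by ring, pow_succ, pow_mul, sq,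
    h8, one_pow, one_mul] at h9
  rw [h3, h9, one_mul]

end OT

end Cfsg.Agent.H79
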