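import Cfsg.Agent.H79.UP1
import Cfsg.Agent.H79.QuadInv
import Cfsg.Agent.H27.PowOdd

/-!
# Overgroups of tensor induced unitary groups in odd characteristic
-/

set_option autoImplicit false

namespace Cfsg.Agent.H79

open Module Function H30 H31 H36
open H27 (Cm cm_one cm_zero cm_fac inG_conj inG_inv inG_exists_inv Cls cls_self Nm Invol)

variable {F U V τ : Type*} [Field F] {σ : F →+* F} [AddCommGroup U] [Module F U] [AddCommGroup V]
  [Module F V] [Fintype τ] [DecidableEq τ] {f₀ : LinearMap.BilinForm F U}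
  {B₀ : LinearMap.BilinForm F V} {S : TPow τ f₀ B₀} {h : U →ₛₗ[σ] U →ₗ[F] F}
  {B : V →ₛₗ[σ] V →ₗ[F] F} {X : Subgroup (End F V)ˣ} {s j : τ} {u v w y : U} {c : F}
  {g g' z N : End F V}

/-- The nilpotent parts of the transvections of the factor `s`. -/
def bUs (S : TPow τ f₀ B₀) (h : U →ₛₗ[σ] U →ₗ[F] F) (s : τ) (N : End F V) : Prop :=
  ∃ u c, u ≠ 0 ∧ h u u = 0 ∧ c ≠ 0 ∧ c + σ c = 0 ∧ N = c • ue h (S.fac s) u u

/-- The nilpotent parts of the transvections of the factors. -/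
def bU (S : TPow τ f₀ B₀) (h : U →ₛₗ[σ] U →ₗ[F] F) (N : End F V) : Prop := ∃ s, bUs S h s N

/-- The basic properties of the conjugates of the transvections of the factors. -/
structure CF (σ : F →+* F) (X : Subgroup (End F V)ˣ) (N : End F V) : Prop where
  sq : N * N = 0
  ne : N ≠ 0
  mem : ∀ k, σ k = k → InG X (1 + k • N)
  m : ∀ n, InG X (1 + n) → (∀ p, n p ∈ LinearMap.range N) → ∃ c : F, n = c • N

theorem CF.one (H : CF σ X N) : InG X (1 + N) := by simpa using H.mem 1 (map_one σ)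

theorem CF.conj (H : CF σ X N) (hg : InG X g) (h1 : g * g' = 1) (h2 : g' * g = 1) :
    CF σ X (g * N * g') := by
  refine ⟨?_, fun e => H.ne ?_, fun k hk => ?_, fun n hn hr => ?_⟩
  · rw [mul_assoc, mul_assoc, ← mul_assoc g', ← mul_assoc g', h2, one_mul, ← mul_assoc N,
      H.sq, zero_mul, mul_zero]
  · simpa [← mul_assoc, h2, mul_assoc N] using congrArg (g' * · * g) e
  · simpa only [mul_smul_comm, smul_mul_assoc] using inG_conj hg h1 (H.mem k hk)
  · obtain ⟨c, hc⟩ := H.m _ (inG_conj (inG_inv hg h1) h2 hn) fun p => by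
      obtain ⟨q, hq⟩ := hr (g p)
      refine ⟨g' q, ?_⟩
      rw [End.mul_apply, End.mul_apply, ← hq, End.mul_apply, End.mul_apply, ← End.mul_apply g', h2,
        End.one_apply]
    refine ⟨c, ?_⟩
    rw [← smul_mul_assoc, ← mul_smul_comm, ← hc, ← mul_assoc, ← mul_assoc, h1, one_mul, mul_assoc,
      h1, mul_one]

theorem range_smul_iff {A : End F V} (hc : c ≠ 0) {p : V} :
    p ∈ LinearMap.range (c • A) ↔ p ∈ LinearMap.range A := by rw [LinearMap.range_smul _ _ hc]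

/-- `g` maps the transvections of the factors into factors. -/
def TvU (S : TPow τ f₀ B₀) (h : U →ₛₗ[σ] U →ₗ[F] F) (g : End F V) : Prop :=
  ∀ s u, u ≠ 0 → h u u = 0 → ∃ j a, g * ue h (S.fac s) u u = S.fac j a * g

variable [FiniteDimensional F U]

theorem UF.norm_of_cm (hS : UF S h B) (h1 : g * g' = 1) (h2 : g' * g = 1)
    (e : ∀ l, l ≠ j → ∀ b, Cm (S.fac s) (g' * S.fac l b * g)) (a : End F U) :
    ∃ a', g * S.fac s a = S.fac j a' * g := by
  obtain ⟨a', ha'⟩ := hS.exists_fac_of_cm (s := j) (T := g * S.fac s a * g') fun l hl b => by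
    linear_combination (norm := noncomm_ring) -g * e l hl b a * g' -
      h1 * S.fac l b * g * S.fac s a * g' + g * S.fac s a * g' * S.fac l b * h1
  exact ⟨a', by rw [← ha', mul_assoc, h2, mul_one]⟩

theorem UX.cf (hX : UX S h B X) (hM : UPM S h X) (hN : Cls X (bU S h) N) : CF σ X N := by
  obtain ⟨g, g', _, hg, h1, h2, ⟨s, u, c, hu0, hu, hc0, hc, rfl⟩, rfl⟩ := hN
  refine CF.conj ⟨by simp [ue_mul, hu], smul_ne_zero hc0 (hX.ue_ne_zero s hu0 hu0), fun k hk => by
    rw [smul_smul, mul_comm]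
    exact hX.tv s u _ hu (skew_mul_fixed hc hk), fun n hn hr => ?_⟩ hg h1 h2
  obtain ⟨d, hd⟩ := hM s u hu0 hu n hn fun p => (range_smul_iff hc0).1 (hr p)
  exact ⟨d / c, by rw [hd, smul_smul, div_mul_cancel₀ _ hc0]⟩

theorem UX.bUs_of_fac (hX : UX S h B X) (hN : CF σ X N) {β : End F U} (e : N = S.fac s β) :
    bUs S h s N := by
  obtain ⟨x, hx⟩ : ∃ x, β x ≠ 0 := by
    by_contra! H
    exact hN.ne (by rw [e, show β = 0 from LinearMap.ext H, map_zero])
  have h1 : h (β x) (β x) = 0 := by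
    refine (smul_eq_zero.1 (LinearMap.ext fun q => hX.hB.nondeg' _ fun p => ?_ :
      h (β x) (β x) • ue h (S.fac s) (β x) (β x) = 0)).resolve_right (hX.ue_ne_zero s hx hx)
    have := hX.iso _ hN.one (ue h (S.fac s) x (β x) p) (N (ue h (S.fac s) x (β x) q))
    simp only [LinearMap.add_apply, End.one_apply, map_add, ← End.mul_apply N N, hN.sq,
      LinearMap.zero_apply, add_zero, add_eq_left] at this
    rwa [e, ← End.mul_apply, ← End.mul_apply, phi_mul_ue, hX.ue_adj, ue_ue] at this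
  obtain ⟨c, hc0, hc⟩ := hX.hh.inv.exists_skew'
  obtain ⟨k, hk⟩ := hN.m _ (hX.tv s _ c h1 hc) fun p =>
    ⟨c • ue h (S.fac s) x (β x) p, by rw [map_smul, e, ← End.mul_apply, phi_mul_ue]; rfl⟩
  have hk0 : k ≠ 0 := by
    rintro rfl
    exact smul_ne_zero hc0 (hX.ue_ne_zero s hx hx) (by rw [hk, zero_smul])
  have h2 : N = (k⁻¹ * c) • ue h (S.fac s) (β x) (β x) := by rw [mul_smul, hk, inv_smul_smul₀ hk0]
  exact ⟨β x, _, hx, h1, mul_ne_zero (inv_ne_zero hk0) hc0, hX.skew_of_mem (hX.ue_ne_zero s hx hx)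
    (hX.ue_adj s _ _) (by simp [ue_mul, h1]) (h2 ▸ hN.one), h2⟩

theorem UX.bU_of_fac_or_cm (hX : UX S h B X) (hN : CF σ X N)
    (H : ∀ s, (∃ β, N = S.fac s β) ∨ Cm (S.fac s) N) : bU S h N := by
  by_cases h5 : ∀ j, Cm (S.fac j) N
  · obtain ⟨c, hc⟩ := hX.exists_smul_of_cm h5
    have h7 := hN.sq
    have h0 := hN.ne
    rw [hc] at h0 h7
    exact absurd (by simpa using h7) h0
  push Not at h5
  obtain ⟨j, hj⟩ := h5
  obtain ⟨β, hβ⟩ := (H j).resolve_right hj
  exact ⟨j, hX.bUs_of_fac hN hβ⟩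

variable [Finite F]

theorem UF.norm_of_tv (hS : UF S h B) (h1 : g * g' = 1) (h2 : g' * g = 1)
    (e : ∀ u, u ≠ 0 → h u u = 0 → ∃ a, g * ue h (S.fac s) u u = S.fac j a * g) (a : End F U) :
    ∃ a', g * S.fac s a = S.fac j a' * g :=
  hS.norm_of_cm h1 h2 (fun l hl b => cm_of_utv hS.hh hS.two fun u hu0 hu => by
    obtain ⟨a, ha⟩ := e u hu0 hu
    linear_combination (norm := noncomm_ring) g' * ha * g' * S.fac l b * g -
      g' * S.fac l b * ha - h2 * ue h (S.fac s) u u * g' * S.fac l b * g +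
      g' * S.fac j a * h1 * S.fac l b * g - g' * S.fac_comm hl b a * g) a

theorem UF.nm_of_tv (hS : UF S h B) (h1 : g * g' = 1) (h2 : g' * g = 1) (H : TvU S h g)
    (H' : TvU S h g') : Nm S g := by
  obtain ⟨u₀, -, h0, hu₀, -⟩ := exists_hyp hS.hh hS.two
  have key : ∀ g g', g * g' = 1 → g' * g = 1 → TvU S h g →
      ∃ π : τ → τ, ∀ s a, ∃ a', g * S.fac s a = S.fac (π s) a' * g := by
    intro g g' h1 h2 H
    choose! j a e using H
    have h3 : ∀ s u u', h u u = 0 → h u' u' = 0 → h u u' ≠ 0 → j s u = j s u' := by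
      intro s u u' hu hu' hf
      by_contra hj
      have a1 := e s u (by rintro rfl; simp at hf) hu
      have a2 := e s u' (by rintro rfl; simp at hf) hu'
      exact hf (hS.perp_of_comm (s := s) hu (by
        linear_combination (norm := noncomm_ring) g' * (a1 * ue h (S.fac s) u' u' +
          S.fac (j s u) (a s u) * a2 - a2 * ue h (S.fac s) u u - S.fac (j s u') (a s u') * a1 +
          S.fac_comm hj (a s u) (a s u') * g) -
          h2 * (ue h (S.fac s) u u * ue h (S.fac s) u' u' - ue h (S.fac s) u' u' * ue h (S.fac s) u u)))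
    refine ⟨fun s => j s u₀, fun s => hS.norm_of_tv h1 h2 fun u hu0 hu => ?_⟩
    obtain ⟨w, a1, a2, a3⟩ := exists_iso_both hS.hh hu hu0 hu₀ h0
    exact ⟨a s u, by
      beta_reduce
      rw [show j s u₀ = j s u from (h3 s u₀ w hu₀ a1 a3).trans (h3 s u w hu a1 a2).symm]
      exact e s u hu0 hu⟩
  obtain ⟨π, hπ⟩ := key g g' h1 h2 H
  obtain ⟨ρ, hρ⟩ := key g' g h2 h1 H'
  refine ⟨Equiv.ofBijective π (Finite.injective_iff_bijective.1
    (LeftInverse.injective (g := ρ) fun s => ?_)), hπ⟩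
  by_contra hs
  obtain ⟨a, ha⟩ := hπ s (ur h u₀ u₀)
  obtain ⟨b, hb⟩ := hρ (π s) a
  refine hS.not_cm (s := s) hu₀ h0 ?_
  convert cm_fac S (Ne.symm hs) b using 1
  rw [ue_apply]
  linear_combination (norm := noncomm_ring) g' * ha + hb * g + (S.fac (ρ (π s)) b) * h2 -
    h2 * S.fac s (ur h u₀ u₀)

namespace UX

theorem triple_eq_zero (hX : UX S h B X) (hM : UPM S h X) (h2 : (2 : F) ≠ 0) {A : End F V}
    (hA : Cls X (bU S h) A) (hN : Cls X (bU S h) N) (H : IsNilpotent (A * N + N * A)) :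
    A * N * A = 0 := by
  obtain ⟨n, hn⟩ := H
  refine H27.nil_lemma (F := fixedField σ) (fun e => h2 (congrArg Subtype.val e)) (Cls X (bU S h))
    (fun s hs => ⟨(hX.cf hM hs).sq, fun c => (hX.cf hM hs).mem c c.2⟩)
    (fun s hs g hg => hs.conj ⟨g, hg, rfl⟩ g.mul_inv g.inv_mul)
    (fun s z n hs H hzs hn => ?_) n A N hA hN (by rw [pow_succ, hn, zero_mul])
  obtain ⟨c, hc⟩ := (hX.cf hM hs).m (z * s) (by simpa using H.mem 1)
    fun p => ⟨z p, by rw [hzs, End.mul_apply]⟩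
  have h2 : ∀ n, z ^ n * s = c ^ n • s := fun n => by
    induction n with
    | zero => simp
    | succ n ih => rw [pow_succ', mul_assoc, ih, mul_smul_comm, hc, smul_smul, pow_succ]
  rw [h2] at hn
  rw [hc, pow_eq_zero_iff'.1 ((smul_eq_zero.1 hn).resolve_right (hX.cf hM hs).ne) |>.1, zero_smul]

theorem invol_sign (hX : UX S h B X) (hM : UPM S h X) (h2 : (2 : F) ≠ 0) (hu0 : u ≠ 0)
    (hu : h u u = 0) (hc : c ≠ 0) (hz : Invol X (c • ue h (S.fac s) u u) z) :
    (∀ p, z ((c • ue h (S.fac s) u u) p) = -(c • ue h (S.fac s) u u) p) ∧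
      ∃ w, w ≠ 0 ∧ h u w = 0 ∧ ∀ a, ue h (S.fac s) a w * z = ue h (S.fac s) a w := by
  obtain ⟨r, h3, h4⟩ := hX.exists_scalar (s := s) hM hu0 hu hz.mem one_ne_zero
    (LinearMap.ext fun p => smul_right_injective V hc (by simpa using hz.comm p))
    fun p hp => (range_smul_iff hc).1 (hz.triv p (by simp [hp]))
  have h5 : ∀ p, z ((c • ue h (S.fac s) u u) p) = r • (c • ue h (S.fac s) u u) p := fun p => by
    rw [LinearMap.smul_apply, map_smul, ← End.mul_apply, h3, smul_comm]; rfl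
  obtain ⟨p, hp⟩ := hz.ne
  have a1 := hz.sq ((c • ue h (S.fac s) u u) p)
  rw [h5, map_smul, h5, smul_smul, ← sub_eq_zero, ← one_smul F ((c • ue h (S.fac s) u u) p),
    smul_smul, ← sub_smul, smul_eq_zero, mul_one, sub_eq_zero, mul_self_eq_one_iff] at a1
  rw [h5] at hp
  have h6 : r ≠ 1 := fun e => hp (by rw [e, one_smul])
  obtain rfl := (a1.resolve_right fun e => hp (by rw [e, smul_zero])).resolve_left h6
  exact ⟨fun p => by rw [h5, neg_smul, one_smul], h4 h6⟩

variable [FiniteDimensional F V]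

theorem fac_or_cm_odd (hX : UX S h B X) (hM : UPM S h X) (h2 : (2 : F) ≠ 0)
    (hN : Cls X (bU S h) N) (s : τ) : (∃ β, N = S.fac s β) ∨ Cm (S.fac s) N := by
  obtain ⟨c, hc0, hc⟩ := hX.hh.inv.exists_skew'
  have hq := hX.cf hM hN
  have key : ∀ u, h u u = 0 → uco hX.hh (S.fac s) u u N = 0 ∨
      ∃ w, w ≠ 0 ∧ h u w = 0 ∧ ∀ a, ue h (S.fac s) a w * N = 0 := fun u hu => by
    by_cases hu0 : u = 0
    · simp [hu0]
    have hA : Cls X (bU S h) (c • ue h (S.fac s) u u) := cls_self ⟨s, u, c, hu0, hu, hc0, hc, rfl⟩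
    by_cases hn : IsNilpotent (c • ue h (S.fac s) u u * N + N * c • ue h (S.fac s) u u)
    · exact Or.inl (cm_eq_zero hX.hh hu0 hu0 (cm_uco _ _ _) (by
        simpa [ue_mul_uco, hc0] using hX.triple_eq_zero hM h2 hA hN hn))
    obtain ⟨z, h5, h6, -⟩ := exists_invol_weak h2 (hX.cf hM hA).sq hq.sq (hX.cf hM hA).one hq.one hn
    obtain ⟨-, w, hw0, hw, h7⟩ := hX.invol_sign hM h2 hu0 hu hc0 h5
    have h8 : ∀ p, z (N p) = -N p := fun p => by
      obtain ⟨g, g', _, hg, e1, e2, ⟨j, v, d, a1, a2, a3, -, rfl⟩, rfl⟩ := hN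
      simpa [← End.mul_apply g g', e1] using
        congrArg g ((hX.invol_sign hM h2 a1 a2 a3 (h6.conj hg e1 e2)).1 (g' p))
    refine Or.inr ⟨w, hw0, hw, fun a => LinearMap.ext fun p => ?_⟩
    have := LinearMap.congr_fun (h7 a) (N p)
    rw [End.mul_apply, h8, map_neg, neg_eq_iff_add_eq_zero, ← two_smul F] at this
    exact (smul_eq_zero.1 this).resolve_left h2
  refine or_iff_not_imp_left.2 fun hn => cm_of_uco_iso (hh := hX.hh) hX.two fun z hz => ?_
  refine (key z hz).elim id fun ⟨w, hw0, hw, H⟩ => ?_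
  by_cases hz0 : z = 0
  · simp [hz0]
  have h3 : ∀ u, h u u = 0 → h u w ≠ 0 → uco hX.hh (S.fac s) u u N = 0 := fun u hu h3 =>
    (key u hu).resolve_right fun ⟨v, hv0, hv, H'⟩ => hn (hX.fac_of_ker₂ hM hq.one hv0 (fun e => by
      obtain ⟨a, rfl⟩ := Submodule.mem_span_singleton.1 e
      simp [hv] at h3) H' H)
  have h4 : h w w ≠ 0 := fun e => hn (hX.fac_of_ker hM hq.one hw0 e H)
  have h5 : ∀ a, uco hX.hh (S.fac s) w a N = 0 := fun a => uco_eq_zero fun x y => by
    rw [H, zero_mul]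
  have h6 : ∀ a, uco hX.hh (S.fac s) a w N = 0 := fun a => uco_eq_zero fun x y => by
    have := (hX.fix_iff (s := s) (x := w) (y := y) hq.one).2 (by simp [mul_add, H])
    rw [add_mul, one_mul, add_eq_left] at this
    rw [mul_assoc, this, mul_zero]
  obtain ⟨y, a1, a2⟩ := H26.exists_perp_eq hX.hh (u := w) (v := z) (fun e => by
    obtain ⟨a, rfl⟩ := Submodule.mem_span_singleton.1 e
    simp [h4, show a ≠ 0 by rintro rfl; simp at hz0] at hz) 1
  obtain ⟨z', a3, a4, a5⟩ := hX.hh.exists_hyperbolic (W := H31.perp h (F ∙ w)) hz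
    (mem_perp_span_singleton.2 (hX.hh.flip_zero hw)) (mem_perp_span_singleton.2 a1)
    (by simp [hX.hh.flip_one a2])
  replace a3 := mem_perp_span_singleton.1 a3
  have h7 : ∀ ν : F, ν + σ ν ≠ 0 →
      uco hX.hh (S.fac s) (z' - ν • z) (z' - ν • z) N = 0 := fun ν hν => by
    obtain ⟨l, hl⟩ := hX.hh.inv.exists_norm_eq (a := (ν + σ ν) / h w w)
      (by rw [map_div₀, hX.hh.inv.trace_fixed, hX.hh.norm_fixed])
    have hl0 : l ≠ 0 := by
      rintro rfl
      exact div_ne_zero hν h4 (by rw [← hl, zero_mul])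
    have := h3 (l • w + (z' - ν • z)) (by
      simp only [map_add, map_sub, map_smul, map_smulₛₗ, LinearMap.add_apply, LinearMap.sub_apply,
        LinearMap.smul_apply, a3, a4, a5, hz, hw, hX.hh.flip_zero a3, hX.hh.flip_zero hw,
        hX.hh.flip_one a5, smul_eq_mul, RingHom.id_apply]
      rw [eq_div_iff h4] at hl
      linear_combination hl) (by simp [hw, hX.hh.flip_zero a3, hl0, h4])
    generalize z' - ν • z = t at this ⊢
    simpa only [map_add, LinearMap.add_apply, map_smul, map_smulₛₗ, LinearMap.smul_apply, h5, h6,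
      smul_zero, zero_add, add_zero] using this
  have b1 := h7 1 (by simpa [← two_mul, one_add_one_eq_two] using h2)
  have b2 := h7 (-1) (by simpa [← neg_add, one_add_one_eq_two] using h2)
  have b3 := h7 (1 + c) (by rw [map_add, map_one, skew_eq hc]; convert h2 using 1; ring)
  have b4 := h7 (-(1 + c)) (by
    rw [map_neg, map_add, map_one, skew_eq hc]; convert neg_ne_zero.2 h2 using 1; ring)
  simp only [map_sub, map_smul, map_smulₛₗ, LinearMap.sub_apply, LinearMap.smul_apply, map_neg,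
    map_add σ, map_one, skew_eq hc, RingHom.id_apply] at b1 b2 b3 b4
  exact smul_right_injective _ (mul_ne_zero h2 (mul_ne_zero hc0 hc0)) (by
    linear_combination (norm := module) b1 + b2 - b3 - b4)

theorem nm_odd (hX : UX S h B X) (hM : UPM S h X) (h2 : (2 : F) ≠ 0) (hg : InG X g) : Nm S g := by
  suffices H : ∀ g, InG X g → TvU S h g by
    obtain ⟨g', hg', h1, h4⟩ := inG_exists_inv hg
    exact hX.nm_of_tv h1 h4 (H g hg) (H g' hg')
  intro g hg s u hu0 hu
  obtain ⟨g', -, h1, h4⟩ := inG_exists_inv hg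
  obtain ⟨c, hc0, hc⟩ := hX.hh.inv.exists_skew'
  have hA : Cls X (bU S h) (g * c • ue h (S.fac s) u u * g') :=
    (cls_self ⟨s, u, c, hu0, hu, hc0, hc, rfl⟩).conj hg h1 h4
  obtain ⟨j, y, d, -, -, -, -, e⟩ := hX.bU_of_fac_or_cm (hX.cf hM hA) (hX.fac_or_cm_odd hM h2 hA)
  refine ⟨j, (c⁻¹ * d) • ur h y y, ?_⟩
  rw [map_smul, ← ue_apply, mul_smul, ← e, smul_mul_assoc, mul_assoc, h4, mul_one, mul_smul_comm,
    inv_smul_smul₀ hc0]

end UX

end Cfsg.Agent.H79
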