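import Cfsg.Agent.H79.UTop

/-!
# Overgroups of tensor induced unitary groups: stabilisers of commutator spaces
-/

set_option autoImplicit false

namespace Cfsg.Agent.H79

open Module Function H30 H31 H36
open H27 (Cm cm_one cm_zero cm_fac inG_conj inG_inv inG_exists_inv inG_comm)

variable {F U V τ : Type*} [Field F] {σ : F →+* F} [AddCommGroup U] [Module F U] [AddCommGroup V]
  [Module F V] [Fintype τ] [DecidableEq τ] {f₀ : LinearMap.BilinForm F U}
  {B₀ : LinearMap.BilinForm F V} {S : TPow τ f₀ B₀} {h : U →ₛₗ[σ] U →ₗ[F] F}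
  {B : V →ₛₗ[σ] V →ₗ[F] F} {X : Subgroup (End F V)ˣ} {s j : τ} {u u' v w y : U} {c κ : F}
  {x x' n A : End F V}

/-- `1 + n` lies in the unipotent radical of the stabiliser of `[V, A]`. -/
structure QU (A n : End F V) : Prop where
  kill : n * A = 0
  into : ∀ p, A p = 0 → n p ∈ LinearMap.range A

theorem QU.conj (hn : QU A n) (h1 : x * x' = 1) (h2 : x' * x = 1) (hκ : κ ≠ 0)
    (e : x * A = κ • (A * x)) : QU A (x * n * x') := by
  have e' : A * x' = κ • (x' * A) := by
    rw [← one_mul (A * x'), ← h2, ← mul_one (κ • _), ← h1]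
    simp only [← mul_assoc]
    rw [mul_assoc x' x A, e]
    simp [mul_assoc]
  refine ⟨smul_right_injective _ hκ ?_, fun p hp => ?_⟩
  · simp only [mul_assoc, ← mul_smul_comm, ← e']
    rw [← mul_assoc n, hn.kill, zero_mul, mul_zero, smul_zero]
  · obtain ⟨q, hq⟩ := hn.into (x' p) (by simpa [hp] using LinearMap.congr_fun e' p)
    exact ⟨κ • x q, by simpa [hq] using (LinearMap.congr_fun e q).symm⟩

theorem ue_mem_range {φ : End F U →ₐ[F] End F V} (e : h u u' = 1) (b : U) (p : V) :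
    ue h φ u b p ∈ LinearMap.range (ue h φ u u) :=
  ⟨ue h φ u' b p, by rw [ue_ue, e, one_smul]⟩

theorem ue_of_ker {φ : End F U →ₐ[F] End F V} (e : h u' u = 1) {p : V} (hp : ue h φ u u p = 0)
    (a : U) : ue h φ a u p = 0 := by simpa [ue_ue, e] using congrArg (ue h φ a u') hp

theorem ue_range {φ : End F U →ₐ[F] End F V} (e : h w u = 0) {p : V}
    (hp : p ∈ LinearMap.range (ue h φ u u)) (a : U) : ue h φ a w p = 0 := by
  obtain ⟨p, rfl⟩ := hp
  rw [ue_ue, e, zero_smul]

theorem UF.scal_adj (hS : UF S h B) (hx : ∀ p q, B (x p) (x q) = B p q) {a : U}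
    (e : x * ue h (S.fac s) u a = c • ue h (S.fac s) u a) :
    σ c • (ue h (S.fac s) a u * x) = ue h (S.fac s) a u :=
  LinearMap.ext fun p => hS.hB.ext_right fun q => by
    rw [LinearMap.smul_apply, End.mul_apply, smul_right, ← hS.ue_adj, ← hS.ue_adj, ← hx _ p,
      ← End.mul_apply x, e, LinearMap.smul_apply, smul_left]

variable [FiniteDimensional F U]

theorem uco_eq_zero {A : Type*} [Ring A] [Algebra F A] {φ : End F U →ₐ[F] A} {hh : IsHerm h}
    {a b : U} {T : A} (e : ∀ x y, ue h φ x a * T * ue h φ b y = 0) : uco hh φ a b T = 0 := by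
  simp [uco_apply, e]

theorem UF.mem_span (hS : UF S h B) (hu : u ≠ 0)
    (e : ∀ p, ue h (S.fac s) y u p ∈ LinearMap.range (ue h (S.fac s) u u)) : y ∈ F ∙ u :=
  mem_span_of_perp hS.hh fun w hw => (smul_eq_zero.1 (show h w y • ue h (S.fac s) u u = 0 from
    LinearMap.ext fun p => by simpa [ue_ue] using ue_range (hS.hh.flip_zero hw) (e p) u)).resolve_right
    (hS.ue_ne_zero s hu hu)

variable [Finite F]

namespace UX

theorem exists_eich (hX : UX S h B X) (s : τ) (hu0 : u ≠ 0) (hu : h u u = 0) (hy : h u y = 0) :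
    ∃ (ν : F) (R : End F V), R = ue h (S.fac s) y u - ue h (S.fac s) u y - ν • ue h (S.fac s) u u ∧
      InG X (1 + R) ∧ QU (ue h (S.fac s) u u) R := by
  obtain ⟨ν, -, α, hα, e⟩ := H26.exists_eich' hX.hh hu hy
  obtain ⟨u', hu'⟩ := hX.hh.exists_eq_one hu0
  refine ⟨ν, _, rfl, ?_, by simp [sub_mul, ue_mul, hu, hX.hh.flip_zero hy], fun p hp => ?_⟩
  · convert hX.fac s hα
    simp only [ue_apply, ← map_smul, ← map_sub, ← map_one (S.fac s), ← map_add]
    congr 1
    ext x
    simp only [LinearMap.add_apply, LinearMap.sub_apply, LinearMap.smul_apply, End.one_apply,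
      ur_apply, LinearEquiv.coe_coe, e]
    module
  · simpa [hp, ue_of_ker (hX.hh.flip_one hu') hp] using ue_mem_range hu' y p

/-- The unipotent radical of the stabiliser of `[V, t_u ⊗ 1]` in `X` lies in the factor. -/
theorem fac_of_qu (hX : UX S h B X) (hM : UPM S h X) (hu0 : u ≠ 0) (hu : h u u = 0)
    (hn' : InG X (1 + n)) (hn : QU (ue h (S.fac s) u u) n) : ∃ γ, n = S.fac s γ := by
  obtain ⟨u', hu'⟩ := hX.hh.exists_eq_one hu0
  have hu'' := hX.hh.flip_one hu'
  have := hX.ntV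
  have k1 : ∀ b, n * ue h (S.fac s) u b = 0 := fun b => by
    simpa [mul_assoc, ue_mul, hu'] using congrArg (· * ue h (S.fac s) u' b) hn.kill
  have k2 : ∀ a, ue h (S.fac s) a u * n = 0 := fun a => by
    simpa [mul_add] using (hX.fix_iff (s := s) (x := u) (y := a) hn').1 (by simp [add_mul, k1])
  have k3 : ∀ a b, h u a = 0 → h u b = 0 → ∀ x y,
      ue h (S.fac s) x a * n * ue h (S.fac s) b y = 0 := fun a b ha hb x y =>
    LinearMap.ext fun p => ue_range (hX.hh.flip_zero ha) (hn.into _ (by simp [ue_ue, hb])) x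
  have k4 : ∀ y, h u y = 0 → ∃ c : F,
      uco hX.hh (S.fac s) u' y n + uco hX.hh (S.fac s) y u' n = c • 1 := fun y hy => by
    obtain ⟨ν, R, e, a1, -⟩ := hX.exists_eich s hu0 hu hy
    have a2 : n * R = n * ue h (S.fac s) y u := by simp [e, mul_sub, k1]
    have a3 : R * n = -(ue h (S.fac s) u y * n) := by simp [e, sub_mul, k2]
    obtain ⟨c, hc⟩ := hM s u hu0 hu _ (inG_comm hn' a1 (by rw [a2, mul_assoc, k2, mul_zero])
      (by rw [a2]; simp [mul_assoc, e, mul_sub, ue_mul, hu, hy])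
      (by
        rw [a3, neg_mul, neg_eq_zero]
        exact LinearMap.ext fun p => ue_range (hX.hh.flip_zero hy)
          (hn.into _ (LinearMap.congr_fun (k2 u) p)) u)
      (by rw [mul_assoc, a2, ← mul_assoc, a3, neg_mul, k3 y y hy hy, neg_zero])) fun p => by
        rw [a2, a3, sub_neg_eq_add]
        exact add_mem (hn.into _ (by simp [ue_ue, hy])) (ue_mem_range hu' _ _)
    refine ⟨c, ?_⟩
    simpa [a2, a3, uco_ue_left, uco_ue_right, uco_ue, hu', hu''] using
      congrArg (uco hX.hh (S.fac s) u' u') hc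
  have k5 : ∀ y, h u y = 0 → ∃ c d : F,
      uco hX.hh (S.fac s) u' y n = c • 1 ∧ uco hX.hh (S.fac s) y u' n = d • 1 := fun y hy => by
    obtain ⟨θ, hθ⟩ := hX.hh.inv.ne_id
    obtain ⟨c, hc⟩ := k4 y hy
    obtain ⟨d, hd⟩ := k4 (θ • y) (by simp [hy])
    simp only [map_smul, map_smulₛₗ, LinearMap.smul_apply, RingHom.id_apply] at hd
    have h1 := sub_ne_zero.2 hθ
    refine ⟨(σ θ * c - d) / (σ θ - θ), (d - θ * c) / (σ θ - θ), smul_right_injective _ h1 ?_,
      smul_right_injective _ h1 ?_⟩ <;> simp only [smul_smul, mul_div_cancel₀ _ h1]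
    · linear_combination (norm := module) σ θ • hc - hd
    · linear_combination (norm := module) hd - θ • hc
  obtain ⟨γ, hγ⟩ := exists_phi_of_uco (hh := hX.hh) (φ := S.fac s)
    (T := n - ue h (S.fac s) u u * uco hX.hh (S.fac s) u' u' n) fun a b => by
      have ha : h u (a - h u a • u') = 0 := by simp [hu']
      have hb : h u (b - h u b • u') = 0 := by simp [hu']
      obtain ⟨-, d, -, h1⟩ := k5 _ ha
      obtain ⟨c, -, h2, -⟩ := k5 _ hb
      have h3 := uco_eq_zero (hh := hX.hh) (k3 _ _ ha hb)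
      refine ⟨h u b * d + h a u * c, ?_⟩
      simp only [map_sub, map_smul, map_smulₛₗ, LinearMap.sub_apply, LinearMap.smul_apply,
        RingHom.id_apply, hX.hh.symm, uco_ue_mul (cm_uco _ _ _)] at h1 h2 h3 ⊢
      linear_combination (norm := module) h3 + h u b • h1 + h a u • h2
  have k6 : ∀ a b, h u a = 0 → uco hX.hh (S.fac s) a b n = 0 → h a (γ b) = 0 := fun a b ha e => by
    have := congrArg (uco hX.hh (S.fac s) a b) hγ
    rw [uco_phi, map_sub, e, uco_ue_mul (cm_uco _ _ _), hX.hh.flip_zero ha] at this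
    simpa using this.symm
  have k7 : h u (γ u') = 0 := k6 u u' hu (uco_eq_zero fun x y => by rw [k2, zero_mul])
  obtain ⟨ν, -, α, hα, e⟩ := H26.exists_eich' hX.hh hu (y := -γ u') (by simp [k7])
  have k8 : ∀ b, h u b = 0 → ∃ m : F, m • u = γ b := fun b hb => Submodule.mem_span_singleton.1
    (mem_span_of_perp hX.hh fun a ha => k6 a b ha (uco_eq_zero (k3 a b ha hb)))
  have k9 : α.toLinearMap * (1 + γ) - 1 = ur h u u' * (α.toLinearMap * (1 + γ) - 1) :=
    LinearMap.ext fun b => by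
      obtain ⟨m, hm⟩ := k8 (b - h u b • u') (by simp [hu'])
      rw [map_sub, map_smul, eq_sub_iff_add_eq] at hm
      obtain ⟨l, hl⟩ : ∃ l : F, (α.toLinearMap * (1 + γ) - 1) b = l • u :=
        ⟨m - (h (-γ u') (b + γ b) + ν * h u b), by
          simp only [LinearMap.sub_apply, End.mul_apply, LinearMap.add_apply, End.one_apply,
            LinearEquiv.coe_coe, e, map_add (h u), ← hm, smul_right, hu, k7]
          module⟩
      simp [hl, hu'']
  obtain ⟨c, hc⟩ := hM s u hu0 hu (S.fac s α.toLinearMap * (1 + n) - 1)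
    (by simpa using (hX.fac s hα).mul hn') fun p => by
      rw [eq_add_of_sub_eq hγ, ← add_assoc, mul_add, ← mul_assoc, phi_mul_ue, add_sub_right_comm,
        ← map_one (S.fac s), ← map_add, ← map_mul, ← map_sub, k9, map_mul, LinearEquiv.coe_coe, e]
      simp only [hu, k7, map_neg, LinearMap.neg_apply, hX.hh.flip_zero k7, zero_smul, add_zero,
        neg_zero, mul_zero, sub_zero]
      exact add_mem (ue_mem_range hu' _ _) ⟨_, rfl⟩
  refine ⟨(α⁻¹).toLinearMap * (1 + c • ur h u u) - 1, ?_⟩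
  rw [map_sub, map_mul, map_add, map_smul, ← ue_apply, ← hc, map_one, add_sub_cancel, ← mul_assoc,
    ← map_mul, equiv_inv_mul, map_one, one_mul, add_sub_cancel_left]

theorem conj_eich (hX : UX S h B X) (hM : UPM S h X) (hu0 : u ≠ 0) (hu : h u u = 0) (hx : InG X x)
    (h1 : x * x' = 1) (h2 : x' * x = 1) (hκ : κ ≠ 0)
    (e : x * ue h (S.fac s) u u = κ • (ue h (S.fac s) u u * x)) (hy : h u y = 0) :
    ∃ (ν : F) (γ : End F U), S.fac s γ * ue h (S.fac s) u u = 0 ∧ x * (ue h (S.fac s) y u -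
      ue h (S.fac s) u y - ν • ue h (S.fac s) u u) * x' = S.fac s γ := by
  obtain ⟨ν, _, rfl, a1, a2⟩ := hX.exists_eich s hu0 hu hy
  obtain ⟨γ, hγ⟩ := hX.fac_of_qu hM hu0 hu (inG_conj hx h1 a1) (a2.conj h1 h2 hκ e)
  exact ⟨ν, γ, hγ ▸ (a2.conj h1 h2 hκ e).kill, hγ⟩

/-- An element of `X` acting as a scalar on `[V, t_u ⊗ 1]` lies in the factor. -/
theorem fac_of_scalar (hX : UX S h B X) (hM : UPM S h X) (hu0 : u ≠ 0) (hu : h u u = 0)
    (hx : InG X x) {l : F} (e : x * ue h (S.fac s) u u = l • ue h (S.fac s) u u) :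
    ∃ a, x = S.fac s a := by
  obtain ⟨u', hu'⟩ := hX.hh.exists_eq_one hu0
  have hu'' := hX.hh.flip_one hu'
  obtain ⟨x', hx', h1, h2⟩ := inG_exists_inv hx
  have e1 : ∀ p, x (x' p) = p := LinearMap.congr_fun h1
  have e3 : ∀ b, x * ue h (S.fac s) u b = l • ue h (S.fac s) u b := fun b => by
    simpa [mul_assoc, ue_mul, hu'] using congrArg (· * ue h (S.fac s) u' b) e
  have e4 : ∀ b, ue h (S.fac s) b u * x' = σ l • ue h (S.fac s) b u := fun b => by
    rw [← hX.scal_adj (hX.iso x hx) (e3 b), smul_mul_assoc, mul_assoc, h1, mul_one,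
      hX.scal_adj (hX.iso x hx) (e3 b)]
  have hl : l ≠ 0 := by
    rintro rfl
    exact hX.ue_ne_zero s hu0 hu0 (by rw [← one_mul (ue h _ u u), ← h2, mul_assoc, e]; simp)
  have hl' : σ l ≠ 0 := (map_ne_zero σ).2 hl
  have e5 : x' * ue h (S.fac s) u u = l⁻¹ • ue h (S.fac s) u u := by
    rw [eq_inv_smul_iff₀ hl, ← mul_smul_comm, ← e, ← mul_assoc, h2, one_mul]
  have hR : ∀ p ∈ LinearMap.range (ue h (S.fac s) u u),
      x p ∈ LinearMap.range (ue h (S.fac s) u u) := by
    rintro _ ⟨p, rfl⟩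
    exact ⟨l • p, by simpa using (LinearMap.congr_fun e p).symm⟩
  have hphi : ∀ v, h u v = 0 → ∃ w, ∀ z q, x (ue h (S.fac s) v z q) - ue h (S.fac s) w z q ∈
      LinearMap.range (ue h (S.fac s) u u) := fun v hv => by
    obtain ⟨ν, γ, -, hγ⟩ := hX.conj_eich hM hu0 hu hx h1 h2 (mul_ne_zero hl hl')
      (by rw [e, mul_smul, hX.scal_adj (hX.iso x hx) e]) hv
    refine ⟨(σ l)⁻¹ • γ u', fun z q => ?_⟩
    have a1 := LinearMap.congr_fun hγ (ue h (S.fac s) u' z q)
    have a2 := LinearMap.congr_fun (e4 v) (ue h (S.fac s) u' z q)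
    rw [← End.mul_apply (S.fac s γ), phi_mul_ue] at a1
    simp only [End.mul_apply, LinearMap.sub_apply, LinearMap.smul_apply, ue_ue, hu', one_smul,
      map_sub, map_smul] at a1 a2
    rw [← Submodule.smul_mem_iff _ hl', smul_sub, map_smul, LinearMap.smul_apply,
      LinearMap.smul_apply, smul_inv_smul₀ hl', ← a1, a2, map_smul, sub_sub, sub_sub_cancel]
    exact add_mem (hR _ (ue_mem_range hu' _ _)) (Submodule.smul_mem _ _ (hR _ ⟨_, rfl⟩))
  refine hX.exists_fac_of_cm fun j hj => cm_of_utv hX.hh hX.two fun v hv0 hv => ?_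
  have key : ∀ v c, h v v = 0 → c + σ c = 0 → ∃ D, Cm (S.fac j) D ∧ InG X (1 + D) ∧
      c • (x * ue h (S.fac j) v v * x') = D + c • (ue h (S.fac j) v v * (1 + D)) := by
    intro v c hv hc
    have hc1 : Cm (S.fac s) (ue h (S.fac j) v v) := cm_fac S hj.symm _
    have hc' : ∀ a p, ue h (S.fac j) v v (S.fac s a p) = S.fac s a (ue h (S.fac j) v v p) :=
      fun a p => (LinearMap.congr_fun (hc1 a) p).symm
    have h3 : InG X (1 + (x * (1 + c • ue h (S.fac j) v v) * x' *
        (1 + -c • ue h (S.fac j) v v) - 1)) := by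
      simpa using ((hx.mul (hX.tv j v c hv hc)).mul hx').mul (hX.tv j v _ hv (skew_neg hc))
    have h4 : ∀ q, ue h (S.fac s) u u q = 0 →
        x (ue h (S.fac j) v v q) - ue h (S.fac j) v v (x q) ∈
        LinearMap.range (ue h (S.fac s) u u) := fun q hq => by
      have := ur_induction hX.hh (P := fun a =>
        x (ue h (S.fac j) v v (S.fac s ((1 - ur h u' u) * a) q)) -
          ue h (S.fac j) v v (x (S.fac s ((1 - ur h u' u) * a) q)) ∈
          LinearMap.range (ue h (S.fac s) u u)) (by simp) (fun a b ha hb => by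
          convert add_mem ha hb using 1
          simp only [mul_add, map_add, LinearMap.add_apply]
          abel) (fun a b => by
          obtain ⟨w, hw⟩ := hphi ((1 - ur h u' u) a) (by simp [hu'])
          obtain ⟨r, hr⟩ := hw b q
          convert sub_mem (hw b (ue h (S.fac j) v v q))
            (LinearMap.mem_range_self _ (ue h (S.fac j) v v r)) using 1
          rw [mul_ur, ue_apply _ b, ue_apply w, ue_apply u, ← hc', ← hc', ← hc', ← ue_apply u, hr,
            map_sub (ue h (S.fac j) v v), ue_apply _ b, ue_apply w]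
          abel) 1
      simpa [← ue_apply, ue_of_ker hu'' hq] using this
    have h5 : (1 + c • ue h (S.fac j) v v) * (1 + -c • ue h (S.fac j) v v) = 1 := by
      simp [add_mul, mul_add, ue_mul, hv]
    have h6 : ∀ c : F, (1 + c • ue h (S.fac j) v v) * ue h (S.fac s) u u =
        ue h (S.fac s) u u * (1 + c • ue h (S.fac j) v v) := fun c =>
      (cm_ue (cm_one.add (hc1.smul c)) u u).symm
    obtain ⟨γ, hγ⟩ := hX.fac_of_qu (s := s) hM hu0 hu h3 ⟨by
      rw [sub_mul, mul_assoc, h6, mul_assoc, ← mul_assoc x', e5, smul_mul_assoc, mul_smul_comm,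
        mul_assoc, ← mul_assoc (1 + _), h6, ← mul_assoc, ← mul_assoc, e, smul_mul_assoc,
        smul_mul_assoc, inv_smul_smul₀ hl, mul_assoc, h5, mul_one, one_mul, sub_self],
      fun p hp => by
        have a1 := LinearMap.congr_fun (h6 (-c)) p
        have a2 := LinearMap.congr_fun (e4 u) ((1 + -c • ue h (S.fac j) v v) p)
        have a3 := LinearMap.congr_fun h5 p
        simp only [End.mul_apply, hp, map_zero] at a1 a3
        rw [End.mul_apply, LinearMap.smul_apply, ← a1, smul_zero] at a2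
        convert Submodule.smul_mem _ c (h4 _ a2) using 1
        rw [e1, LinearMap.sub_apply, ← a3]
        simp only [End.mul_apply, LinearMap.add_apply _ (c • _), End.one_apply, map_add x, e1,
          LinearMap.smul_apply, map_smul]
        module⟩
    refine ⟨_, cm_fac S hj γ, hγ ▸ h3, ?_⟩
    have h7 : (1 + -c • ue h (S.fac j) v v) * (1 + c • ue h (S.fac j) v v) = 1 := by
      simp [add_mul, mul_add, ue_mul, hv]
    have h8 := congrArg (· * (1 + c • ue h (S.fac j) v v)) (eq_add_of_sub_eq' hγ)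
    simp only [mul_assoc, h7, mul_one] at h8
    rw [cm_ue (cm_one.add (cm_fac S hj γ))]
    simp only [mul_add, add_mul, mul_smul_comm, smul_mul_assoc, one_mul, mul_one, h1,
      mul_assoc] at h8 ⊢
    linear_combination (norm := module) h8
  obtain ⟨c, hc0, hc⟩ := hX.hh.inv.exists_skew'
  obtain ⟨D, hD, -, H⟩ := key v c hv hc
  have hD0 : D = 0 := by
    rcases hX.big with h4 | ⟨k, hk, hk0, hk1⟩
    · obtain ⟨v', a1, a2, a3⟩ := exists_iso_perp_notMem hX.hh h4 hv0
      obtain ⟨z, a4, a5⟩ := H26.exists_perp_eq hX.hh a1 1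
      obtain ⟨z, a6, a7, a8⟩ := hX.hh.exists_hyperbolic (W := H31.perp h (F ∙ v)) a2
        (mem_perp_span_singleton.2 a3) (mem_perp_span_singleton.2 a4)
        (by simp [hX.hh.flip_one a5])
      obtain ⟨D', hD', b1, H'⟩ := key v' c a2 hc
      obtain ⟨D'', -, b2, -⟩ := inG_exists_inv b1
      have b3 : (D + c • (ue h (S.fac j) v v * (1 + D))) *
          (D' + c • (ue h (S.fac j) v' v' * (1 + D'))) = 0 := by
        rw [← H, ← H', smul_mul_smul_comm, mul_assoc _ x', ← mul_assoc x', ← mul_assoc x', h2,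
          one_mul, mul_assoc, ← mul_assoc (ue h _ v v), ue_mul, a3]
        simp
      rw [add_mul, mul_add D, mul_add _ D', smul_mul_smul_comm, mul_assoc, ← mul_assoc (1 + D),
        ← cm_ue (cm_one.add hD), mul_assoc, ue_mul', a3, mul_smul_comm, ← mul_assoc D,
        ← cm_ue hD, mul_assoc, smul_mul_assoc, mul_assoc] at b3
      have b4 := congrArg (uco hX.hh (S.fac j) z z) b3
      simp only [map_add (uco hX.hh (S.fac j) z z), map_smul, uco_cm (hD.mul hD'), a7, zero_smul,
        uco_ue_mul (hD.mul (cm_one.add hD')), uco_ue_mul ((cm_one.add hD).mul hD'), a8,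
        hX.hh.flip_one a8, mem_perp_span_singleton.1 a6, mul_zero, smul_zero, map_zero, zero_add,
        add_zero, mul_one, one_smul, smul_eq_zero_iff_right hc0] at b4
      rw [← mul_one D, ← b2, ← mul_assoc, b4, zero_mul]
    · obtain ⟨D', hD', -, H'⟩ := key v (c * k) hv (skew_mul_fixed hc hk)
      obtain ⟨z, a1, a2⟩ := hX.hh.exists_hyperbolic' hv hv0
      rw [mul_comm, mul_smul, H] at H'
      have b1 := congrArg (uco hX.hh (S.fac j) z z) H'
      simp only [map_add (uco hX.hh (S.fac j) z z), map_smul, uco_cm hD, uco_cm hD', a1, zero_smul,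
        uco_ue_mul (cm_one.add hD), uco_ue_mul (cm_one.add hD'), a2, hX.hh.flip_one a2, zero_add,
        mul_one, one_smul, smul_smul] at b1
      rw [← add_left_cancel (smul_right_injective _ (mul_ne_zero hk0 hc0) b1)] at H'
      exact smul_right_injective _ (sub_ne_zero.2 hk1) (by linear_combination (norm := module) H')
  rw [hD0, zero_add, add_zero, mul_one] at H
  have H' : x * ue h (S.fac j) v v * x' = ue h (S.fac j) v v := smul_right_injective _ hc0 H
  nth_rewrite 1 [← H']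
  rw [mul_assoc, h2, mul_one]

theorem fac_of_ker (hX : UX S h B X) (hM : UPM S h X) (hn : InG X (1 + n)) (hw0 : w ≠ 0)
    (hw : h w w = 0) (e : ∀ a, ue h (S.fac s) a w * n = 0) : ∃ γ, n = S.fac s γ := by
  obtain ⟨a, ha⟩ := hX.fac_of_scalar (s := s) hM hw0 hw hn (l := 1) (by
    rw [one_smul, hX.fix_iff hn, mul_add, e, mul_one, add_zero])
  exact ⟨a - 1, by simp [← ha]⟩

theorem fac_of_ker₂ (hX : UX S h B X) (hM : UPM S h X) (hn : InG X (1 + n)) (hw0 : w ≠ 0)
    (hv : v ∉ F ∙ w) (e : ∀ a, ue h (S.fac s) a w * n = 0) (e' : ∀ a, ue h (S.fac s) a v * n = 0) :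
    ∃ γ, n = S.fac s γ := by
  obtain ⟨z, a1, a2, a3⟩ := H26.exists_isotropic_mem hX.hh.toIsHermSymm
    (S := Submodule.span F (Set.range ![w, v])) (by
      rw [finrank_span_eq_card ((LinearIndependent.pair_iff' hw0).2 fun a ha =>
        hv (Submodule.mem_span_singleton.2 ⟨a, ha⟩))]
      simp)
  rw [Matrix.range_cons_cons_empty] at a1
  obtain ⟨a, b, rfl⟩ := Submodule.mem_span_pair.1 a1
  exact hX.fac_of_ker hM hn a2 a3 fun x => by simp [add_mul, e, e']

/-- An element of `X` normalising `t_u ⊗ 1` and trivial on `ker / range` is scalar on the range. -/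
theorem exists_scalar (hX : UX S h B X) (hM : UPM S h X) (hu0 : u ≠ 0) (hu : h u u = 0)
    (hx : InG X x) (hκ : κ ≠ 0) (e : x * ue h (S.fac s) u u = κ • (ue h (S.fac s) u u * x))
    (triv : ∀ p, ue h (S.fac s) u u p = 0 → x p - p ∈ LinearMap.range (ue h (S.fac s) u u)) :
    ∃ r : F, x * ue h (S.fac s) u u = r • ue h (S.fac s) u u ∧ (r ≠ 1 → ∃ w, w ≠ 0 ∧ h u w = 0 ∧
      ∀ a, ue h (S.fac s) a w * x = ue h (S.fac s) a w) := by
  obtain ⟨x', -, h1, h2⟩ := inG_exists_inv hx
  obtain ⟨y, a1, a2⟩ := exists_perp_norm' hX.hh hX.three hu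
  obtain ⟨ν, γ, a3, a4⟩ := hX.conj_eich hM hu0 hu hx h1 h2 hκ e a2
  have a5 : x * ue h (S.fac s) u u = ue h (S.fac s) (-γ y) u := LinearMap.ext fun p => by
    obtain ⟨q, hq⟩ := triv (ue h (S.fac s) y u p) (by simp [ue_ue, a2])
    have b1 := LinearMap.congr_fun a4 (x (ue h (S.fac s) y u p))
    rw [End.mul_apply, ← End.mul_apply x', h2, eq_add_of_sub_eq hq.symm, map_add,
      ← End.mul_apply (S.fac s γ), a3, ← End.mul_apply (S.fac s γ), phi_mul_ue] at b1
    simpa [ue_ue, a1, a2, neg_eq_iff_eq_neg] using b1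
  obtain ⟨r, hr⟩ := Submodule.mem_span_singleton.1 (hX.mem_span (s := s) (y := -γ y) hu0 fun p =>
    ⟨κ • x p, by rw [← a5, e, map_smul]; rfl⟩)
  rw [← hr, map_smul, LinearMap.smul_apply] at a5
  refine ⟨r, a5, fun hr1 => ?_⟩
  obtain ⟨β, rfl⟩ := hX.fac_of_scalar hM hu0 hu hx a5
  have b1 : β u = r • u := by
    by_contra b1
    exact hX.ue_ne_zero s (sub_ne_zero.2 b1) hu0 (by simp [← phi_mul_ue, a5])
  obtain ⟨m, hm⟩ := Submodule.mem_span_singleton.1 (hX.mem_span (s := s) (y := β y - y) hu0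
    fun p => by simpa [← phi_mul_ue] using triv (ue h (S.fac s) y u p) (by simp [ue_ue, a2]))
  refine ⟨y - (m / (r - 1)) • u, fun b2 => by
    simpa [a1, hX.hh.flip_zero a2] using congrArg (h y) b2, by simp [a2, hu], fun a => ?_⟩
  rw [← hX.fix_iff hx, phi_mul_ue, map_sub β, map_smul, b1, sub_eq_iff_eq_add'.1 hm.symm]
  congr 2
  have := sub_ne_zero.2 hr1
  match_scalars <;> field_simp
  ring

end UX

end Cfsg.Agent.H79
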