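import Cfsg.Agent.H79.URed
import Cfsg.Agent.H27.PowGrow

/-!
# Tensor powers of a unitary space
-/

set_option autoImplicit false

namespace Cfsg.Agent.H79

open Module Function H30 H31 H36
open H27 (Cm cm_one cm_zero Phi Phi_pt Phi_update Phi_linear Phi_smul Phi_single Phi_induction
  Phi_eq_zero cm_fac cm_Phi inG_conj inG_inv inG_exists_inv inG_of_mul_eq inG_comm)

variable {F U V τ : Type*} [Field F] {σ : F →+* F} [AddCommGroup U] [Module F U] [AddCommGroup V]
  [Module F V] [Fintype τ] [DecidableEq τ] {f₀ : LinearMap.BilinForm F U}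
  {B₀ : LinearMap.BilinForm F V} {S : TPow τ f₀ B₀} {h : U →ₛₗ[σ] U →ₗ[F] F}
  {B : V →ₛₗ[σ] V →ₗ[F] F} {X : Subgroup (End F V)ˣ} {s j : τ} {u v w x y : U} {c : F}
  {g g' n : End F V} {A : Finset τ}

theorem ue_ue (φ : End F U →ₐ[F] End F V) (a b c d : U) (p : V) :
    ue h φ a b (ue h φ c d p) = h b c • ue h φ a d p :=
  LinearMap.congr_fun (ue_mul (h := h) (φ := φ) a b c d) p

/-- A tensor power of a unitary space. -/
structure UF (S : TPow τ f₀ B₀) (h : U →ₛₗ[σ] U →ₗ[F] F) (B : V →ₛₗ[σ] V →ₗ[F] F) : Prop where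
  hh : IsHerm h
  hB : IsHerm B
  form : ∀ u v, B (S.pt u) (S.pt v) = ∏ s, h (u s) (v s)
  three : 3 ≤ finrank F U
  big : 4 ≤ finrank F U ∨ BigF σ

/-- A group of isometries containing the transvections of the factors. -/
structure UX (S : TPow τ f₀ B₀) (h : U →ₛₗ[σ] U →ₗ[F] F) (B : V →ₛₗ[σ] V →ₗ[F] F)
    (X : Subgroup (End F V)ˣ) : Prop extends UF S h B where
  iso : ∀ g, InG X g → ∀ p q, B (g p) (g q) = B p q
  tv : ∀ s u c, h u u = 0 → c + σ c = 0 → InG X (1 + c • ue h (S.fac s) u u)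

theorem sesq_ext (S : TPow τ f₀ B₀) {β β' : V →ₛₗ[σ] V →ₗ[F] F}
    (H : ∀ u v, β (S.pt u) (S.pt v) = β' (S.pt u) (S.pt v)) (p q : V) : β p q = β' p q :=
  LinearMap.congr_fun₂ (LinearMap.ext_on_range S.span fun u => S.ext_lin (H u)) p q

namespace UF

theorem nt (hS : UF S h B) : Nontrivial U :=
  Module.nontrivial_of_finrank_pos (R := F) (by have := hS.three; omega)

theorem two (hS : UF S h B) : 2 ≤ finrank F U := by have := hS.three; omega

theorem form_update (hS : UF S h B) (u v : τ → U) (s : τ) (x y : U) :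
    B (S.pt (update u s x)) (S.pt (update v s y)) =
      h x y * ∏ i ∈ Finset.univ.erase s, h (u i) (v i) := by
  rw [hS.form, prod_eq_mul_erase _ s, update_self, update_self]
  congr 1
  exact Finset.prod_congr rfl fun i hi => by
    rw [update_of_ne (Finset.ne_of_mem_erase hi), update_of_ne (Finset.ne_of_mem_erase hi)]

theorem form_eq_zero (hS : UF S h B) {u v : τ → U} (s : τ) (e : h (u s) (v s) = 0) :
    B (S.pt u) (S.pt v) = 0 := by rw [hS.form, Finset.prod_eq_zero (Finset.mem_univ s) e]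

theorem fac_adj (hS : UF S h B) (s : τ) {a a' : End F U} (e : ∀ x y, h (a x) y = h x (a' y))
    (p q : V) : B (S.fac s a p) q = B p (S.fac s a' q) :=
  sesq_ext S (β := B.comp (S.fac s a)) (β' := B.compl₂ (S.fac s a')) (fun u u' => by
    have h1 := hS.form_update u u' s (a (u s)) (u' s)
    have h2 := hS.form_update u u' s (u s) (a' (u' s))
    rw [update_eq_self] at h1 h2
    simp only [LinearMap.comp_apply, LinearMap.compl₂_apply, S.fac_pt, h1, h2, e]) p q

theorem ue_adj (hS : UF S h B) (s : τ) (x y : U) (p q : V) :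
    B (ue h (S.fac s) x y p) q = B p (ue h (S.fac s) y x q) :=
  hS.fac_adj s (fun a b => by simp [hS.hh.symm, mul_comm]) p q

theorem ur_pt (hS : UF S h B) (x y : τ → U) :
    ur B (S.pt x) (S.pt y) = Phi S fun i => ur h (x i) (y i) :=
  S.ext_lin fun u => by simp only [ur_apply, Phi_pt, S.pt.map_smul_univ, hS.form]

theorem exists_form (hS : UF S h B) {x : τ → U} (hx : ∀ i, x i ≠ 0) :
    ∃ y, B (S.pt x) (S.pt y) = 1 := by
  choose y hy using fun i => hS.hh.exists_eq_one (hx i)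
  exact ⟨y, by simp [hS.form, hy]⟩

theorem pt_ne_zero (hS : UF S h B) {x : τ → U} (hx : ∀ i, x i ≠ 0) : S.pt x ≠ 0 := fun e => by
  obtain ⟨y, hy⟩ := hS.exists_form hx
  simp [e] at hy

theorem ntV (hS : UF S h B) : Nontrivial V := by
  have := hS.nt
  obtain ⟨x, hx⟩ := exists_ne (0 : U)
  exact ⟨⟨_, _, hS.pt_ne_zero (x := fun _ => x) fun _ => hx⟩⟩

theorem exists_smul_of_cm (hS : UF S h B) {T : End F V} (e : ∀ s, Cm (S.fac s) T) :
    ∃ c : F, T = c • 1 := by
  have := hS.nt
  obtain ⟨x, hx⟩ := exists_ne (0 : U)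
  obtain ⟨y, hy⟩ := hS.exists_form (x := fun _ => x) fun _ => hx
  refine ⟨B (S.pt fun _ => x) (T (S.pt y)), S.ext_lin fun u => ?_⟩
  have h1 : ur B (S.pt u) (S.pt fun _ => x) * T = T * ur B (S.pt u) (S.pt fun _ => x) := by
    rw [hS.ur_pt]
    exact Phi_induction S (p := fun a => a * T = T * a)
      (by simp) (fun a b ha hb => by rw [mul_assoc, hb, ← mul_assoc, ha, mul_assoc]) _
      fun s => e s _
  simpa [hy] using (LinearMap.congr_fun h1 (S.pt y)).symm

theorem fix_iff (hS : UF S h B) (hg : ∀ p q, B (g p) (g q) = B p q) (hg' : Surjective g) :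
    g * ue h (S.fac s) x y = ue h (S.fac s) x y ↔ ue h (S.fac s) y x * g = ue h (S.fac s) y x :=
  ⟨fun e => LinearMap.ext fun p => hS.hB.ext_right fun q => by
    rw [End.mul_apply, ← hS.ue_adj, ← hS.ue_adj, ← hg _ p, ← End.mul_apply g, e], fun e =>
    LinearMap.ext fun p => hS.hB.ext_left fun q => by
      obtain ⟨q, rfl⟩ := hg' q
      rw [End.mul_apply, hg, hS.ue_adj, hS.ue_adj, ← End.mul_apply _ g, e]⟩

variable [FiniteDimensional F U]

theorem fac_ne_zero (hS : UF S h B) (s : τ) {a : End F U} (ha : a ≠ 0) : S.fac s a ≠ 0 := fun e =>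
  have := hS.ntV
  one_ne_zero (cm_eq_zero_of_phi hS.hh ha cm_one (by rw [e, zero_mul]))

theorem fac_inj (hS : UF S h B) (s : τ) : Injective (S.fac s) :=
  (injective_iff_map_eq_zero _).2 fun _ e => by_contra fun ha => hS.fac_ne_zero s ha e

theorem ue_ne_zero (hS : UF S h B) (s : τ) (hx : x ≠ 0) (hy : y ≠ 0) : ue h (S.fac s) x y ≠ 0 :=
  hS.fac_ne_zero s (ur_ne_zero hS.hh hx hy)

theorem exists_fac_of_cm (hS : UF S h B) {T : End F V} (e : ∀ j, j ≠ s → Cm (S.fac j) T) :
    ∃ a, T = S.fac s a :=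
  exists_phi_of_uco (hh := hS.hh) fun x y => hS.exists_smul_of_cm fun j => by
    by_cases hj : j = s
    · exact hj ▸ cm_uco x y T
    · exact fun a => by
        rw [← uco_cm_mul (cm_fac S (Ne.symm hj) a), e j hj, uco_mul_cm (cm_fac S (Ne.symm hj) a)]

theorem perp_of_comm (hS : UF S h B) (hu : h u u = 0) (e : ue h (S.fac s) u u * ue h (S.fac s) y y =
    ue h (S.fac s) y y * ue h (S.fac s) u u) : h u y = 0 := by
  by_contra h1
  have := congrArg (ue h (S.fac s) u u * ·) e
  simp only [ue_mul, mul_smul_comm, hu, zero_smul, smul_zero, smul_smul] at this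
  have h0 : u ≠ 0 := by rintro rfl; simp at h1
  exact smul_ne_zero (mul_ne_zero (hS.hh.flip_ne_zero h1) h1) (hS.ue_ne_zero s h0 h0) this.symm

theorem not_cm (hS : UF S h B) (hu : h u u = 0) (h0 : u ≠ 0) :
    ¬ Cm (S.fac s) (ue h (S.fac s) u u) := fun e => by
  obtain ⟨y, hy⟩ := hS.hh.exists_eq_one h0
  simpa [hy] using hS.perp_of_comm (y := y) hu (cm_ue e y y).symm

end UF

/-- The factors allowed at position `j`. -/
def tyU (h : U →ₛₗ[σ] U →ₗ[F] F) (A : Finset τ) (j : τ) : Set (End F U) :=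
  if j ∈ A then uT h else {1}

variable [FiniteDimensional F U] [Finite F]

theorem UF.reduce_all (hS : UF S h B) {L : AddSubgroup (End F V)}
    (hL : ∀ j, j ≠ s → UInv h (S.fac j) L) {D : End F V} (hD : D ∈ L) (hs : Cm (S.fac s) D)
    (hD' : ∀ c : F, D ≠ c • 1) : ∃ (A : Finset τ) (c : F), s ∉ A ∧ A.Nonempty ∧ c ≠ 0 ∧
      ∀ n, (∀ j, n j ∈ tyU h A j) → c • Phi S n ∈ L := by
  have key : ∀ T : Finset τ, s ∉ T → ∃ A : Finset τ, A ⊆ T ∧ ∃ E : End F V, E ≠ 0 ∧
      (∀ i ∈ insert s T, Cm (S.fac i) E) ∧ (∀ n, (∀ j, n j ∈ tyU h A j) → Phi S n * E ∈ L) ∧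
      (A.Nonempty ∨ E = D) := by
    intro T
    induction T using Finset.induction_on with
    | empty =>
      refine fun _ => ⟨∅, by simp, D, by simpa using hD' 0, by simpa using hs, fun n hn => ?_,
        Or.inr rfl⟩
      rwa [show n = 1 from funext fun j => hn j, map_one, one_mul]
    | insert j T hj ih =>
      intro hs
      rw [Finset.mem_insert, not_or] at hs
      obtain ⟨A, h1, E, h6, h7, h8, h9⟩ := ih hs.2
      have hjA : j ∉ A := fun h => hj (h1 h)
      have hne : ∀ i ∈ insert s T, j ≠ i := by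
        rintro i hi rfl
        simp [hj, Ne.symm hs.1] at hi
      by_cases hE : Cm (S.fac j) E
      · exact ⟨A, h1.trans (Finset.subset_insert _ _), E, h6, by simpa [hE] using h7, h8, h9⟩
      let L' : AddSubgroup (End F V) :=
        { carrier := {E | (∀ i ∈ insert s T, Cm (S.fac i) E) ∧
            ∀ n, (∀ j, n j ∈ tyU h A j) → Phi S n * E ∈ L}
          add_mem' := fun ha hb => ⟨fun i hi => (ha.1 i hi).add (hb.1 i hi), fun n hn => by
            rw [mul_add]
            exact L.add_mem (ha.2 n hn) (hb.2 n hn)⟩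
          zero_mem' := ⟨fun _ _ => cm_zero, by simp⟩
          neg_mem' := fun ha => ⟨fun i hi => (ha.1 i hi).neg, fun n hn => by
            rw [mul_neg]
            exact L.neg_mem (ha.2 n hn)⟩ }
      have hc : ∀ n, (∀ j, n j ∈ tyU h A j) → Cm (S.fac j) (Phi S n) := fun n hn =>
        cm_Phi S (by simpa [tyU, hjA] using hn j)
      obtain ⟨a, a1, a2, a3⟩ := UInv.reduce (φ := S.fac j) (L := L') ⟨fun g hg E hE =>
        ⟨fun i hi => ((cm_fac S (hne i hi).symm _).mul (hE.1 i hi)).mul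
          (cm_fac S (hne i hi).symm _), fun n hn => by
          rw [← mul_assoc, ← mul_assoc, ← hc n hn, mul_assoc _ _ E]
          exact (hL j (Ne.symm hs.1)).conj g hg _ (hE.2 n hn)⟩, fun k hk E hE =>
        ⟨fun i hi => (hE.1 i hi).smul k, fun n hn => by
          rw [mul_smul_comm]
          exact (hL j (Ne.symm hs.1)).smul k hk _ (hE.2 n hn)⟩⟩ hS.hh hS.three hS.big ⟨h7, h8⟩ hE
      obtain ⟨u, -, hu0, hu, -⟩ := exists_hyp hS.hh hS.two
      have b1 : ∀ i ∈ insert s T, Cm (S.fac i) a := fun i hi b =>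
        sub_eq_zero.1 (cm_eq_zero_of_phi hS.hh (ur_ne_zero hS.hh hu0 hu0)
          (((cm_fac S (hne i hi) b).mul a2).sub (a2.mul (cm_fac S (hne i hi) b))) (by
            rw [mul_sub, ← mul_assoc, S.fac_comm (hne i hi), mul_assoc,
              (a3 _ ⟨u, hu, rfl⟩).1 i hi, mul_assoc, sub_self]))
      refine ⟨insert j A, Finset.insert_subset_insert _ h1, a, a1, by simpa [a2] using b1,
        fun n hn => ?_, by simp⟩
      have b2 : ∀ i, update n j 1 i ∈ tyU h A i := fun i => by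
        by_cases hi : i = j
        · simp [hi, tyU, hjA]
        · simpa [tyU, hi] using hn i
      rw [← update_eq_self j n, Phi_update, hc _ b2, mul_assoc]
      exact (a3 _ (by simpa [tyU] using hn j)).2 _ b2
  obtain ⟨A, h1, E, h6, h7, h8, h9⟩ := key (Finset.univ.erase s) (by simp)
  obtain ⟨c, rfl⟩ := hS.exists_smul_of_cm fun i => h7 i (by simp)
  exact ⟨A, c, fun h => by simpa using h1 h, h9.resolve_right fun e => hD' c e.symm,
    by rintro rfl; simp at h6, fun n hn => by simpa using h8 n hn⟩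

namespace UX

theorem fac (hX : UX S h B X) (s : τ) {g : U ≃ₗ[F] U} (hg : g ∈ sisom h) :
    InG X (S.fac s g.toLinearMap) :=
  ⟨_, hX.hh.sisom_le_of_hasTv (M := X.comap ((Units.map (S.fac s : End F U →* End F V)).comp
    (LinearMap.GeneralLinearGroup.generalLinearEquiv F U).symm.toMonoidHom))
    (fun u c hu hc => (hX.tv s u c hu hc).mem (by
      change S.fac s (H31.tv h u c hu hc).toLinearMap = _
      rw [tv_coe, map_add, map_one, map_smul, ue_apply]))
    (hX.big.imp (by omega) id) hg, rfl⟩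

omit [FiniteDimensional F U] [Finite F] in
theorem fix_iff (hX : UX S h B X) (hg : InG X g) :
    g * ue h (S.fac s) x y = ue h (S.fac s) x y ↔ ue h (S.fac s) y x * g = ue h (S.fac s) y x := by
  obtain ⟨g', -, h1, -⟩ := inG_exists_inv hg
  exact hX.toUF.fix_iff (hX.iso g hg) fun p => ⟨g' p, LinearMap.congr_fun h1 p⟩

omit [FiniteDimensional F U] [Finite F] in
theorem skew_of_mem (hX : UX S h B X) {N : End F V} (h0 : N ≠ 0) (h1 : ∀ p q, B (N p) q = B p (N q))
    (h2 : N * N = 0) (hg : InG X (1 + c • N)) : c + σ c = 0 := by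
  obtain ⟨q, hq⟩ := DFunLike.ne_iff.1 h0
  obtain ⟨p, hp⟩ := hX.hB.exists_eq_one hq
  have := hX.iso _ hg q p
  simp only [LinearMap.add_apply, End.one_apply, LinearMap.smul_apply, map_add, map_smul,
    map_smulₛₗ, smul_eq_mul, RingHom.id_apply, ← h1, ← End.mul_apply N, h2, hp] at this
  simp only [LinearMap.zero_apply, map_zero, mul_zero] at this
  linear_combination this

omit [FiniteDimensional F U] [Finite F] in
/-- The operators `D` with `1 + t_u ⊗ D ∈ X`. -/
def dSub (_ : UX S h B X) (s : τ) : AddSubgroup (End F V) where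
  carrier := {D | Cm (S.fac s) D ∧ ∀ u, h u u = 0 → InG X (1 + ue h (S.fac s) u u * D)}
  add_mem' {D D'} hD hD' := ⟨hD.1.add hD'.1, fun u hu => by
    convert (hD.2 u hu).mul (hD'.2 u hu) using 1
    rw [add_mul, one_mul, mul_add _ 1, mul_one, mul_assoc, ← mul_assoc D, ← cm_ue hD.1,
      mul_assoc, ue_mul', hu, zero_smul, mul_add, add_zero]
    abel⟩
  zero_mem' := ⟨cm_zero, fun u _ => by simpa using inG_one X⟩
  neg_mem' {D} hD := ⟨hD.1.neg, fun u hu => inG_inv (hD.2 u hu) (by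
    rw [add_mul, one_mul, mul_add _ 1, mul_one, mul_assoc, ← mul_assoc D, ← cm_ue hD.1,
      mul_assoc, ue_mul', hu, zero_smul, mul_neg, add_zero]
    abel)⟩

omit [FiniteDimensional F U] in
theorem smul_mem_dSub (hX : UX S h B X) {k : F} (hk : σ k = k) {D : End F V}
    (hD : D ∈ hX.dSub s) : k • D ∈ hX.dSub s := ⟨hD.1.smul k, fun u hu => by
  obtain ⟨v, hv, e⟩ := smul_mem_uT hX.hh hk hu
  rw [mul_smul_comm, ← smul_mul_assoc, ue_apply, ← map_smul, e]
  exact hD.2 v hv⟩

theorem conj_fac (hX : UX S h B X) (s : τ) {g : U ≃ₗ[F] U} (hg : g ∈ sisom h)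
    (hn : InG X (1 + n)) : InG X (1 + S.fac s g.toLinearMap * n * S.fac s (g⁻¹).toLinearMap) :=
  inG_conj (hX.fac s hg) (by rw [← map_mul, equiv_mul_inv, map_one]) hn

theorem inv_dSub (hX : UX S h B X) (e : j ≠ s) : UInv h (S.fac j) (hX.dSub s) :=
  ⟨fun g hg D hD => ⟨((cm_fac S e.symm _).mul hD.1).mul (cm_fac S e.symm _), fun u hu => by
    have := hX.conj_fac j hg (hD.2 u hu)
    rwa [← mul_assoc, ← cm_ue (cm_fac S e.symm _), mul_assoc _ _ D, mul_assoc] at this⟩,
    fun _ hk _ => hX.smul_mem_dSub hk⟩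

end UX

end Cfsg.Agent.H79
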