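import Cfsg.Agent.H79.UOdd
import Cfsg.Agent.H27.PowRank

/-!
# Elements of small rank normalising a factor of a unitary tensor power
-/

set_option autoImplicit false

namespace Cfsg.Agent.H79

open Module Function H30 H31
open H36 (InG)
open H27 (Cm cm_one cm_zero cm_fac inG_exists_inv rk rk_add_le rk_mul_le_left rk_mul_le_right)

variable {F U V τ : Type*} [Field F] {σ : F →+* F} [AddCommGroup U] [Module F U] [AddCommGroup V]
  [Module F V] [Fintype τ] [DecidableEq τ] {f₀ : LinearMap.BilinForm F U}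
  {B₀ : LinearMap.BilinForm F V} {S : TPow τ f₀ B₀} {h : U →ₛₗ[σ] U →ₗ[F] F}
  {B : V →ₛₗ[σ] V →ₗ[F] F} {X : Subgroup (End F V)ˣ} {s j : τ} {u v w x y : U} {c : F}
  {g g' β : End F V}

theorem exists_dual (hh : IsHerm h) [FiniteDimensional F U] {P : Set U}
    (hx : x ∉ Submodule.span F P) : ∃ z, h z x = 1 ∧ ∀ y ∈ P, h z y = 0 := by
  obtain ⟨e, h1, h2⟩ := hh.exists_perp_of_notMem hx
  refine ⟨σ (h e x)⁻¹ • e, by rw [smul_left, hh.inv.invol, inv_mul_cancel₀ h2], fun y hy => ?_⟩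
  rw [smul_left, hh.flip_zero (h1 y (Submodule.subset_span hy)), mul_zero]

theorem exists_perp_ne_zero (hh : IsHerm h) [FiniteDimensional F U] (P : Finset U)
    (hP : P.card < finrank F U) : ∃ w, w ≠ 0 ∧ ∀ y ∈ P, h w y = 0 := by
  obtain ⟨x, -, hx⟩ := SetLike.exists_of_lt (span_lt_top_of_card_lt_finrank (R := F)
    (s := (P : Set U)) (by simpa))
  obtain ⟨z, h1, h2⟩ := exists_dual hh hx
  exact ⟨z, by rintro rfl; simp at h1, h2⟩

variable [FiniteDimensional F U]

namespace UF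

theorem exists_factor (hS : UF S h B) (h1 : g * g' = 1) (h2 : g' * g = 1)
    (e : ∀ a, ∃ a', g * S.fac s a = S.fac s a' * g) :
    ∃ (ρ : U ≃ₗ[F] U) (β : End F V), Cm (S.fac s) β ∧ g = S.fac s ρ.toLinearMap * β := by
  choose θ e using e
  have e' : ∀ a, S.fac s (θ a) = g * S.fac s a * g' := fun a => by rw [e, mul_assoc, h1, mul_one]
  let Θ : End F U →ₐ[F] End F U := AlgHom.ofLinearMap
    { toFun := θ
      map_add' := fun a b => hS.fac_inj s (by simp only [map_add, e', mul_add, add_mul])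
      map_smul' := fun c a => hS.fac_inj s (by simp [e']) }
    (hS.fac_inj s (by simp [e', h1])) fun a b => hS.fac_inj s (by
      simp only [LinearMap.coe_mk, AddHom.coe_mk, map_mul, e', mul_assoc, ← mul_assoc g' g, h2,
        one_mul])
  have hΘ : Injective Θ := fun a b hab => hS.fac_inj s (by
    have := congrArg (fun t => g' * S.fac s t * g) hab
    simpa [Θ, e', ← mul_assoc, h2, mul_assoc _ g' g] using this)
  obtain ⟨ρ, hρ⟩ := (AlgEquiv.ofBijective Θ ⟨hΘ, (LinearMap.injective_iff_surjective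
    (f := Θ.toLinearMap)).1 hΘ⟩).eq_linearEquivConjAlgEquiv
  have h3 : ∀ a, θ a = ρ.toLinearMap * a * (ρ⁻¹).toLinearMap := AlgEquiv.congr_fun hρ
  refine ⟨ρ, S.fac s (ρ⁻¹).toLinearMap * g, fun a => ?_, by
    rw [← mul_assoc, ← map_mul, equiv_mul_inv, map_one, one_mul]⟩
  rw [mul_assoc, e, h3, ← mul_assoc, ← mul_assoc, ← map_mul, ← map_mul, ← mul_assoc, ← mul_assoc,
    equiv_inv_mul, one_mul]

theorem exists_sim (hS : UF S h B) (h1 : g * g' = 1) (hg : ∀ p q, B (g p) (g q) = B p q)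
    {ρ : U ≃ₗ[F] U} (hβ : Cm (S.fac s) β) (e : g = S.fac s ρ.toLinearMap * β) :
    ∃ μ : F, ∀ x y, h x y = μ * h (ρ x) (ρ y) := by
  have e1 : ∀ p, g (g' p) = p := LinearMap.congr_fun h1
  have a1 : ∀ y, ∃ y', ∀ z, h y' z = h y (ρ⁻¹ z) := fun y => by
    obtain ⟨y', hy'⟩ := hS.hh.exists_rep (h y ∘ₗ (ρ⁻¹).toLinearMap)
    exact ⟨y', LinearMap.congr_fun hy'⟩
  choose ρ' hρ' using a1
  have a2 : ∀ x y, g * ue h (S.fac s) x y * g' = ue h (S.fac s) (ρ x) (ρ' y) := fun x y => by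
    rw [← mul_one (ue h (S.fac s) (ρ x) _), ← h1, ← mul_assoc]
    congr 1
    rw [e, mul_assoc, ← cm_ue hβ, ← mul_assoc, ← mul_assoc, phi_mul_ue,
      ue_mul_phi (y' := y) fun v => by simp [hρ']]
    rfl
  have a3 : ∀ x y, ur h (ρ' y) (ρ x) = ur h (ρ y) (ρ' x) := fun x y => hS.fac_inj s
    (LinearMap.ext fun q => hS.hB.ext_right fun p => by
      rw [← ue_apply, ← ue_apply, ← hS.ue_adj, ← a2, ← a2, End.mul_apply, End.mul_apply,
        End.mul_apply, End.mul_apply, ← e1 q, hg, ← e1 p, hg, hS.ue_adj]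
      simp only [e1])
  have := hS.nt
  obtain ⟨x, hx⟩ := exists_ne (0 : U)
  obtain ⟨z, hz⟩ := hS.hh.exists_eq_one (ρ.map_ne_zero_iff.2 hx)
  refine ⟨σ (h (ρ' x) z), fun a b => ?_⟩
  have a4 := LinearMap.congr_fun (a3 x a) z
  rw [ur_apply, ur_apply, hz, one_smul] at a4
  rw [← smul_left, ← a4, hρ']
  simp

theorem fac_of_fix (hS : UF S h B) {ρ : U ≃ₗ[F] U} (hβ : Cm (S.fac s) β)
    (e : g = S.fac s ρ.toLinearMap * β) (hw : w ≠ 0)
    (H : g * ue h (S.fac s) w w = ue h (S.fac s) w w) : ∃ l : F, g = S.fac s (l • ρ.toLinearMap) := by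
  obtain ⟨y, hy⟩ := hS.hh.exists_eq_one hw
  obtain ⟨x, hx⟩ := hS.hh.exists_eq_one (ρ.map_ne_zero_iff.2 hw)
  rw [e, mul_assoc, ← cm_ue hβ, ← mul_assoc, phi_mul_ue] at H
  have := congrArg (uco hS.hh (S.fac s) x y) H
  rw [uco_ue_mul hβ, uco_ue, LinearEquiv.coe_coe, hS.hh.flip_one hx, hy, mul_one, one_smul] at this
  exact ⟨h x w, by rw [e, this, mul_smul_comm, mul_one, mul_one, map_smul]⟩

variable [FiniteDimensional F V]

theorem mul_rk (hS : UF S h B) (s : τ) (hu : u ≠ 0) :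
    finrank F U * rk (ue h (S.fac s) u u) = finrank F V := by
  obtain ⟨y, hy⟩ := hS.hh.exists_eq_one hu
  have h1 : ∀ r : LinearMap.range (ue h (S.fac s) u u), ue h (S.fac s) u y r = r := by
    rintro ⟨_, p, rfl⟩
    simp [ue_ue, hS.hh.flip_one hy]
  let Ψ : (Fin (finrank F U) → LinearMap.range (ue h (S.fac s) u u)) →ₗ[F] V :=
    ∑ i, ue h (S.fac s) (ub F U i) y ∘ₗ Submodule.subtype _ ∘ₗ LinearMap.proj i
  have := (LinearEquiv.ofBijective Ψ ⟨(injective_iff_map_eq_zero _).2 fun r hr => funext fun j => by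
    have := congrArg (ue h (S.fac s) u (ud hS.hh j)) hr
    simpa [Ψ, ue_ue, ud_ub, h1] using this, fun p =>
    ⟨fun i => ⟨_, ue_mem_range hy (ud hS.hh i) p⟩, by
      simp [Ψ, ue_ue, hS.hh.flip_one hy, ← LinearMap.sum_apply, sum_ue]⟩⟩).finrank_eq
  simpa [finrank_pi_fintype] using this

theorem kill_of_rk (hS : UF S h B) {ι : Type} [Fintype ι] [DecidableEq ι] {T R : End F V}
    (x : ι → U) (hu : u ≠ 0)
    (inj : ∀ p : ι → V, ∑ i, T (ue h (S.fac s) (x i) u (p i)) = 0 →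
      ∀ i, ue h (S.fac s) u u (p i) = 0)
    (hr : finrank F U * rk T ≤ Fintype.card ι * finrank F V)
    (e : ∀ i, R * (T * ue h (S.fac s) (x i) u) = 0) : R * T = 0 := by
  obtain ⟨y, hy⟩ := hS.hh.exists_eq_one hu
  let Ψ : (ι → LinearMap.range (ue h (S.fac s) u u)) →ₗ[F] LinearMap.range T :=
    T.rangeRestrict ∘ₗ ∑ i, ue h (S.fac s) (x i) u ∘ₗ ue h (S.fac s) y y ∘ₗ
      Submodule.subtype _ ∘ₗ LinearMap.proj i
  have h3 : Injective Ψ := (injective_iff_map_eq_zero _).2 fun r hr => funext fun j => by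
    have := inj (fun i => ue h (S.fac s) y y (r i)) (by
      simpa [Ψ] using congrArg Subtype.val hr) j
    obtain ⟨q, hq⟩ := (r j).2
    beta_reduce at this
    rw [← hq, ue_ue, ue_ue, hy, hS.hh.flip_one hy, one_smul, one_smul, hq] at this
    exact Subtype.ext this
  have h4 : Surjective Ψ := (LinearMap.injective_iff_surjective_of_finrank_eq_finrank
    (le_antisymm (LinearMap.finrank_le_finrank_of_injective h3) (by
      rw [← hS.mul_rk s hu, mul_left_comm] at hr
      simpa [finrank_pi_fintype] using Nat.le_of_mul_le_mul_left hr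
        (by have := hS.three; omega)))).1 h3
  refine LinearMap.ext fun p => ?_
  obtain ⟨r, hr⟩ := h4 ⟨_, LinearMap.mem_range_self _ p⟩
  have e' : ∀ i q, R (T (ue h (S.fac s) (x i) u q)) = 0 := fun i => LinearMap.congr_fun (e i)
  simpa [Ψ, e'] using (congrArg R (congrArg Subtype.val hr)).symm

theorem eq_of_rk (hS : UF S h B) (h1 : g * g' = 1) (h4 : 4 ≤ finrank F U)
    (e : ∀ a, ∃ a', g * S.fac s a = S.fac j a' * g)
    (hr : finrank F U * rk (g - 1) ≤ finrank F V) : j = s := by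
  by_contra hj
  have := hS.nt
  obtain ⟨u, hu⟩ := exists_ne (0 : U)
  obtain ⟨y, hy⟩ := hS.hh.exists_eq_one hu
  have : NeZero (finrank F U) := ⟨by omega⟩
  obtain ⟨T', hT⟩ := e (∑ i, ur h (ub F U i) (ud hS.hh (i + 1)))
  set T := S.fac s (∑ i, ur h (ub F U i) (ud hS.hh (i + 1))) with hTdef
  have h2 : rk (T - S.fac j T') ≤ rk (g - 1) + rk (g - 1) := by
    rw [show T - S.fac j T' = T * (g - 1) * g' + (g - 1) * (-T * g') by
      linear_combination (norm := noncomm_ring) hT * g' + S.fac j T' * h1 - T * h1]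
    exact (rk_add_le _ _).trans (add_le_add ((rk_mul_le_left _ _).trans (rk_mul_le_right _ _))
      (rk_mul_le_left _ _))
  have h3 : finrank F (LinearMap.ker (T - S.fac j T')) ≤ rk (ue h (S.fac s) u u) := by
    refine LinearMap.finrank_le_finrank_of_injective (f := LinearMap.codRestrict _
      (ue h (S.fac s) u (ud hS.hh 0) ∘ₗ Submodule.subtype _) fun p => ue_mem_range hy _ _)
      ((injective_iff_map_eq_zero _).2 fun ⟨p, hp⟩ h0 => Subtype.ext ?_)
    have a1 : ∀ i, ue h (S.fac s) u (ud hS.hh i) p = 0 →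
        ue h (S.fac s) u (ud hS.hh (i + 1)) p = 0 := fun i hi => by
      have := congrArg (ue h (S.fac s) u (ud hS.hh i)) (sub_eq_zero.1 hp)
      rw [← End.mul_apply _ (S.fac j T'), cm_ue (cm_fac S (Ne.symm hj) T'), End.mul_apply,
        hi] at this
      simpa [hTdef, ← ue_apply, ue_ue, ud_ub] using this
    have a2 : ∀ m : ℕ, ue h (S.fac s) u (ud hS.hh (Fin.ofNat _ m)) p = 0 := fun m => by
      induction m with
      | zero => exact congrArg Subtype.val h0
      | succ m ih =>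
        convert a1 _ ih using 4
        ext
        simp [Fin.val_add]
    have a3 : ∀ i, ue h (S.fac s) (ub F U i) (ud hS.hh i) p = 0 := fun i => by
      simpa [ue_ue, hS.hh.flip_one hy] using congrArg (ue h (S.fac s) (ub F U i) y) (a2 i)
    simpa [a3] using (LinearMap.congr_fun (sum_ue (φ := S.fac s) hS.hh) p).symm
  have h5 := LinearMap.finrank_range_add_finrank_ker (T - S.fac j T')
  have h6 : 0 < rk (ue h (S.fac s) u u) := Submodule.one_le_finrank_iff.2
    (LinearMap.range_eq_bot.not.2 (hS.ue_ne_zero s hu hu))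
  rw [← hS.mul_rk s hu] at hr h5
  have := Nat.le_of_mul_le_mul_left hr (by omega)
  nlinarith

end UF

variable [FiniteDimensional F V]

theorem UX.fac_or_cm_of_rk (hX : UX S h B X) (hg : InG X g)
    (e : ∀ a, ∃ a', g * S.fac s a = S.fac s a' * g)
    (hr : finrank F U * rk (g - 1) ≤ finrank F V) : (∃ a, g = S.fac s a) ∨ Cm (S.fac s) g := by
  classical
  obtain ⟨g', -, h1, h2⟩ := inG_exists_inv hg
  obtain ⟨ρ, β, hβ, e⟩ := hX.exists_factor h1 h2 e
  have e' : ∀ x y, g * ue h (S.fac s) x y = β * ue h (S.fac s) (ρ x) y := fun x y => by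
    rw [e, hβ, mul_assoc, phi_mul_ue]; rfl
  by_cases h3 : ∀ x, x ∈ F ∙ ρ x
  · obtain ⟨a, ha⟩ := ρ.toLinearMap.exists_eq_smul_id_of_forall_notLinearIndependent fun v hv => by
      obtain ⟨c, hc⟩ := Submodule.mem_span_singleton.1 (h3 v)
      simpa using (LinearIndependent.pair_iff.1 hv (-1) c (by simp [hc])).1
    exact Or.inr (by
      rw [e, ha, map_smul, map_one]
      exact (cm_one.smul a).mul hβ)
  push Not at h3
  obtain ⟨x, hx⟩ := h3
  obtain ⟨z, b1, b2⟩ := exists_dual hX.hh hx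
  obtain ⟨w, hw0, hw⟩ := exists_perp_ne_zero hX.hh {x, ρ x}
    (Finset.card_le_two.trans_lt hX.three)
  have := hX.kill_of_rk (s := s) (ι := Unit) (T := g - 1) (R := ue h (S.fac s) w w) (fun _ => x) hw0
    (fun p hp i => by
      have := congrArg (ue h (S.fac s) w z) hp
      simpa [← End.mul_apply g, e', ← End.mul_apply _ β, cm_ue hβ, ue_ue, b1, b2] using this)
    (by simpa) fun _ => by
      simp [sub_mul, mul_sub, e', ← mul_assoc, cm_ue hβ, mul_assoc β, ue_mul, hw]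
  obtain ⟨l, hl⟩ := hX.fac_of_fix hβ e hw0 ((hX.fix_iff hg).2 (by
    rwa [mul_sub, mul_one, sub_eq_zero] at this))
  exact Or.inl ⟨_, hl⟩

theorem eq_one_of_not_bigF (hq : ¬ BigF σ) (h1 : σ c = c) (h0 : c ≠ 0) : c = 1 :=
  by_contra fun e => hq ⟨c, h1, h0, e⟩

theorem exists_root [Finite F] (hσ : IsInvol σ) (hq : ¬ BigF σ) (h2 : (2 : F) = 0) {a b : F}
    (h1 : b * σ b = 1) (h3 : a * σ b = -σ a) : ∃ l : F, b * l * l + a * l = 1 := by
  by_cases ha : a = 0
  · obtain ⟨l, hl⟩ := FiniteField.isSquare_of_char_two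
      (CharP.ringChar_of_prime_eq_zero Nat.prime_two (by exact_mod_cast h2)) (σ b)
    exact ⟨l, by rw [ha, zero_mul, add_zero, mul_assoc, ← hl, h1]⟩
  obtain ⟨θ, hθ⟩ := hσ.ne_id
  have h4 := eq_one_of_not_bigF hq (hσ.norm_fixed a) (mul_ne_zero ha ((map_ne_zero σ).2 ha))
  have h5 := eq_one_of_not_bigF hq (hσ.trace_fixed θ) fun e =>
    hθ (by linear_combination e - θ * h2)
  have h6 := eq_one_of_not_bigF hq (hσ.norm_fixed θ) (mul_ne_zero (by rintro rfl; simp at hθ)
    ((map_ne_zero σ).2 (by rintro rfl; simp at hθ)))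
  refine ⟨σ a * θ, ?_⟩
  have h7 : b * σ a * σ a = -1 := by linear_combination b * σ a * h3 - a * σ a * h1 - h4
  linear_combination θ * θ * h7 + θ * h4 - θ * h5 + h6

theorem UX.exists_comm [Finite F] (hX : UX S h B X) (hq : ¬ BigF σ) (h2 : (2 : F) = 0)
    (hg : InG X g) (e : ∀ a, ∃ a', g * S.fac s a = S.fac s a' * g)
    (hr : finrank F U * rk (g - 1) ≤ 2 * finrank F V) (hu0 : u ≠ 0) (hu : h u u = 0)
    (H : ue h (S.fac s) u u * g * ue h (S.fac s) u u = 0) :
    ∃ v, v ≠ 0 ∧ h v v = 0 ∧ g * ue h (S.fac s) v v = ue h (S.fac s) v v * g := by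
  classical
  have h4 := hX.big.resolve_right hq
  obtain ⟨g', -, h1, h3⟩ := inG_exists_inv hg
  obtain ⟨ρ, β, hβ, e⟩ := hX.exists_factor h1 h3 e
  have e' : ∀ x y, g * ue h (S.fac s) x y = β * ue h (S.fac s) (ρ x) y := fun x y => by
    rw [e, hβ, mul_assoc, phi_mul_ue]; rfl
  obtain ⟨μ, hμ⟩ := hX.exists_sim h1 (hX.iso g hg) hβ e
  obtain ⟨y₀, hy₀, -⟩ := exists_perp_norm' hX.hh hX.three hu
  have a1 := (hμ y₀ y₀).symm.trans hy₀
  obtain rfl : μ = 1 := eq_one_of_not_bigF hq (by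
    have := congrArg σ a1
    rw [map_mul, hX.hh.norm_fixed, map_one, ← a1] at this
    exact mul_right_cancel₀ (right_ne_zero_of_mul_eq_one a1) this) (left_ne_zero_of_mul_eq_one a1)
  replace hμ : ∀ x y, h (ρ x) (ρ y) = h x y := fun x y => by rw [hμ x y, one_mul]
  have key : ∀ (v : U) (l : F), v ≠ 0 → h v v = 0 → ρ v = l • v →
      ∃ v, v ≠ 0 ∧ h v v = 0 ∧ g * ue h (S.fac s) v v = ue h (S.fac s) v v * g := by
    intro v l h0 hv hl
    have b1 : l ≠ 0 := by
      rintro rfl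
      exact h0 (by simpa using hl)
    have b2 := eq_one_of_not_bigF hq (hX.hh.inv.norm_fixed l) (mul_ne_zero b1 ((map_ne_zero σ).2 b1))
    refine ⟨v, h0, hv, ?_⟩
    rw [e', e, ← mul_assoc, ue_mul_phi (y' := σ l • v) fun z => by
      rw [← hμ (σ l • v), map_smul, hl, smul_smul, mul_comm, b2, one_smul]; rfl, cm_ue hβ, hl]
    simp [hX.hh.inv.invol]
  by_cases h5 : ∃ x, x ∉ Submodule.span F {ρ x, ρ (ρ x)}
  · obtain ⟨x, hx⟩ := h5
    obtain ⟨z, b1, b2⟩ := exists_dual hX.hh hx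
    have b3 := b2 _ (Or.inl rfl)
    have b4 := b2 _ (Or.inr rfl)
    have kill : ∀ w, (∀ y ∈ [x, ρ x], ue h (S.fac s) w w * ((g - 1) * ue h (S.fac s) y u) = 0) →
        g * ue h (S.fac s) w w = ue h (S.fac s) w w := fun w hw => (hX.fix_iff hg).2 (by
      have := hX.kill_of_rk (s := s) (T := g - 1) (R := ue h (S.fac s) w w) ![x, ρ x] hu0
        (fun p hp => by
          have c1 := congrArg (ue h (S.fac s) u z) hp
          have c3 := congrArg (ue h (S.fac s) u (ρ z)) hp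
          have c4 : ∀ a b q, ue h (S.fac s) a b (β q) = β (ue h (S.fac s) a b q) := fun a b =>
            LinearMap.congr_fun (cm_ue hβ a b)
          simp [← End.mul_apply g, e', c4, ue_ue, b1, b3, b4, hμ] at c1 c3
          simp [c1] at c3
          simp [c1, c3])
        (by simpa) (by simpa using hw)
      rwa [mul_sub, mul_one, sub_eq_zero] at this)
    obtain ⟨w, hw0, hw⟩ := exists_perp_ne_zero hX.hh {x, ρ x, ρ (ρ x)}
      (Finset.card_le_three.trans_lt h4)
    obtain ⟨l, hl⟩ := hX.fac_of_fix hβ e hw0 (kill w (by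
      simp [sub_mul, mul_sub, e', ← mul_assoc, cm_ue hβ, mul_assoc β, ue_mul, hw]))
    obtain ⟨v, c1, c2, c3, c4⟩ := exists_iso_perp hX.hh h4 (l • ρ x - x) (l • ρ (ρ x) - ρ x)
    have := kill v (by
      simp only [hl, sub_mul, phi_mul_ue, one_mul, ← LinearMap.sub_apply, ← map_sub, ue_mul]
      simpa using ⟨Or.inl (by simpa using hX.hh.flip_zero c3),
        Or.inl (by simpa using hX.hh.flip_zero c4)⟩)
    exact ⟨v, c1, c2, this.trans ((hX.fix_iff hg).1 this).symm⟩
  push Not at h5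
  have b0 : h u (ρ u) = 0 := by
    rw [mul_assoc, e', ← mul_assoc, cm_ue hβ, mul_assoc, ue_mul, mul_smul_comm, ← cm_ue hβ] at H
    refine (smul_eq_zero.1 H).resolve_right fun h6 => ?_
    have := hX.ntV
    exact one_ne_zero (by rw [← h1, e, cm_eq_zero hX.hh hu0 hu0 hβ h6, mul_zero, zero_mul])
  have b0' := hX.hh.flip_zero b0
  by_cases h6 : u ∈ F ∙ ρ u
  · obtain ⟨a, ha⟩ := Submodule.mem_span_singleton.1 h6
    exact key u a⁻¹ hu0 hu ((eq_inv_smul_iff₀ (by rintro rfl; exact hu0 (by simpa using ha.symm))).2 ha)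
  obtain ⟨y, b1, b2⟩ := H26.exists_perp_eq hX.hh h6 1
  replace b2 := hX.hh.flip_one b2
  obtain ⟨a, b, hab⟩ := Submodule.mem_span_pair.1 (h5 u)
  have b3 : ∀ y, h u y = 1 → h (ρ u) y = 0 → (σ b • y + σ a • ρ y = ρ (ρ y)) := fun y c1 c2 => by
    obtain ⟨α, γ, c3⟩ := Submodule.mem_span_pair.1 (h5 y)
    have t1 : h u (ρ y) = σ a := by rw [← hab]; simp [hμ, c1, c2]
    have t2 : h u (ρ (ρ y)) = σ a * σ a + σ b := by
      nth_rewrite 1 [← hab]
      simp [hμ, c1, t1]
    have t3 := congrArg (h u) c3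
    have t4 := congrArg (h (ρ u)) c3
    simp only [map_add, map_smul, smul_eq_mul, hμ, t1, t2, c1, c2] at t3 t4
    have t5 : γ * σ b = 1 := by linear_combination t3 - σ a * t4
    linear_combination (norm := module) -σ b • c3 + t5 • ρ (ρ y) + (σ b * t4 - σ a * t5) • ρ y
  have b4 : σ b • u + σ a • ρ u = ρ (ρ u) := by
    have := b3 (y + u) (by simp [b2, hu]) (by simp [b1, b0'])
    simp only [map_add] at this
    linear_combination (norm := module) this - b3 y b2 b1
  have b5 : (1 - b * σ b) • u = (a + b * σ a) • ρ u := by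
    linear_combination (norm := module) -hab - b • b4
  have b6 : b * σ b = 1 := by
    have := congrArg (h y) b5
    simp only [map_smul, hX.hh.flip_zero b1, hX.hh.flip_one b2, smul_eq_mul] at this
    linear_combination -this
  have b7 : a + b * σ a = 0 := by
    rw [b6, sub_self, zero_smul] at b5
    exact (smul_eq_zero.1 b5.symm).resolve_right (ρ.map_ne_zero_iff.2 hu0)
  obtain ⟨l, hl⟩ := exists_root hX.hh.inv hq h2 b6 (a := a) (by linear_combination σ b * b7 - σ a * b6)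
  refine key (u + (b * l) • ρ u) l (fun h7 => h6 ?_) (by simp [hu, b0, b0', hμ]) ?_
  · exact Submodule.mem_span_singleton.2 ⟨-(b * l), by
      rw [neg_smul, neg_eq_iff_add_eq_zero, add_comm, h7]⟩
  · rw [map_add, map_smul]
    linear_combination (norm := module) l • hab - hl • ρ u

end Cfsg.Agent.H79
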