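import Cfsg.Agent.H79.UFac
import Cfsg.Agent.H31.HermQ

/-!
# Invariant subgroups of an algebra under a unitary group acting through a matrix subalgebra
-/

set_option autoImplicit false

namespace Cfsg.Agent.H79

open Module H31
open H27 (Cm cm_one cm_zero)

variable {F W : Type*} [Field F] {σ : F →+* F} [AddCommGroup W] [Module F W]
  {h : W →ₛₗ[σ] W →ₗ[F] F}

/-- The fixed field has more than two elements. -/
def BigF (σ : F →+* F) : Prop := ∃ k : F, σ k = k ∧ k ≠ 0 ∧ k ≠ 1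

theorem skew_eq {c : F} (hc : c + σ c = 0) : σ c = -c := eq_neg_of_add_eq_zero_right hc

/-- The nilpotent parts of the transvections. -/
def uT (h : W →ₛₗ[σ] W →ₗ[F] F) : Set (End F W) := {n | ∃ x, h x x = 0 ∧ n = ur h x x}

/-- The self-adjoint operator of rank two attached to a pair of vectors. -/
def um (h : W →ₛₗ[σ] W →ₗ[F] F) (x y : W) : End F W := ur h x y + ur h y x

variable [FiniteDimensional F W]

theorem mem_span_of_perp (hh : IsHerm h) {u y : W} (e : ∀ w, h u w = 0 → h w y = 0) :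
    y ∈ F ∙ u := by
  rw [← hh.perp_perp (F ∙ u)]
  exact fun w hw => e w (mem_perp_span_singleton.1 hw)

theorem exists_su_map (hh : IsHerm h) (h3 : 3 ≤ finrank F W) {u v : W} (hu : u ≠ 0) (hv : v ≠ 0)
    (e : h u u = h v v) : ∃ g ∈ sisom h, g u = v := by
  obtain ⟨g, h1, h2⟩ := hh.exists_suOn_map hh.nondegOn_top Submodule.mem_top
    Submodule.mem_top hu hv e (Or.inl (by rwa [finrank_top]))
  exact ⟨g, h1.1, h2⟩

variable [Finite F]

theorem exists_iso_perp (hh : IsHerm h) (h4 : 4 ≤ finrank F W) (u v : W) :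
    ∃ w, w ≠ 0 ∧ h w w = 0 ∧ h u w = 0 ∧ h v w = 0 := by
  classical
  have h1 := hh.finrank_add_finrank_perp (Submodule.span F {u, v})
  have h2 := finrank_span_le_card (R := F) ({u, v} : Set W)
  have h3 : ({u, v} : Set W).toFinset.card ≤ 2 := by simpa using Finset.card_le_two
  obtain ⟨w, a1, a2, a3⟩ := H26.exists_isotropic_mem hh.toIsHermSymm
    (S := H31.hypPerp h u v) (by rw [H31.hypPerp]; omega)
  exact ⟨w, a2, a3, H31.mem_hypPerp.1 a1⟩

theorem exists_iso_perp_notMem (hh : IsHerm h) (h4 : 4 ≤ finrank F W) {u : W} (hu : u ≠ 0) :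
    ∃ w, w ∉ F ∙ u ∧ h w w = 0 ∧ h u w = 0 := by
  obtain ⟨v, hv⟩ := hh.exists_eq_one hu
  obtain ⟨w, a1, a2, a3, a4⟩ := exists_iso_perp hh h4 u v
  refine ⟨w, fun e => a1 ?_, a2, a3⟩
  obtain ⟨c, rfl⟩ := Submodule.mem_span_singleton.1 e
  simp [show c = 0 by simpa [hh.flip_one hv] using a4]

theorem exists_perp_norm (hh : IsHerm h) (h3 : 3 ≤ finrank F W) {u u' : W} (hu : h u u = 0)
    (hu' : h u' u' = 0) (huu' : h u u' = 1) : ∃ y, h y y = 1 ∧ h u y = 0 ∧ h u' y = 0 := by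
  have h1 := hh.finrank_hypPerp ⟨hu, hu', huu'⟩
  obtain ⟨y, a1, a2⟩ := hh.exists_norm_eq (hh.nondegOn_hypPerp ⟨hu, hu', huu'⟩)
    (fun e => by rw [e, finrank_bot] at h1; omega) (map_one σ)
  exact ⟨y, a2, H31.mem_hypPerp.1 a1⟩

omit [Finite F] [FiniteDimensional F W] in
theorem exists_iso_both (hh : IsHerm h) {u v : W} (hu : h u u = 0) (hu0 : u ≠ 0) (hv : h v v = 0)
    (hv0 : v ≠ 0) : ∃ w, h w w = 0 ∧ h u w ≠ 0 ∧ h v w ≠ 0 := by
  obtain ⟨u', a1, a2⟩ := hh.exists_hyperbolic' hu hu0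
  obtain ⟨v', a3, a4⟩ := hh.exists_hyperbolic' hv hv0
  by_cases h1 : h v u' = 0
  swap
  · exact ⟨u', a1, by simp [a2], h1⟩
  by_cases h2 : h u v' = 0
  swap
  · exact ⟨v', a3, h2, by simp [a4]⟩
  obtain ⟨c, hc0, hc⟩ := hh.inv.exists_skew'
  by_cases h3 : h u' v' = 0
  · exact ⟨u' + v', by simp [a1, a3, h3, hh.flip_zero h3], by simp [a2, h2], by simp [a4, h1]⟩
  refine ⟨u' + (c / h u' v') • v', ?_, by simp [a2, h2], by simp [a4, h1, hc0, h3]⟩
  have := hh.flip_ne_zero h3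
  simp only [map_add, map_smul, map_smulₛₗ, LinearMap.add_apply, LinearMap.smul_apply, a1, a3,
    map_div₀, hh.symm, smul_eq_mul, RingHom.id_apply]
  field_simp
  linear_combination (h v' u' * h u' v') * hc

omit [Finite F] [FiniteDimensional F W] in
theorem eq_zero_of_perp_iso [Finite F] [FiniteDimensional F W] (hh : IsHerm h)
    (h2 : 2 ≤ finrank F W) {w : W} (e : ∀ u, h u u = 0 → h u w = 0) : w = 0 := by
  refine hh.nondeg' w fun y => ?_
  obtain ⟨a, -, b, -, h1, h3, rfl⟩ := hh.exists_add_isotropic hh.nondegOn_top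
    (by rwa [finrank_top]) (Submodule.mem_top (x := y))
  rw [add_left, e a h1, e b h3, add_zero]

omit [FiniteDimensional F W] in
theorem smul_mem_uT (hh : IsHerm h) {k : F} (hk : σ k = k) {u : W} (hu : h u u = 0) :
    k • ur h u u ∈ uT h := by
  obtain ⟨l, rfl⟩ := hh.inv.exists_norm_eq hk
  exact ⟨l • u, isotropic_smul hu l, by simp [smul_smul, mul_comm]⟩

omit [FiniteDimensional F W] in
theorem um_mem (hh : IsHerm h) {u y : W} (hu : h u u = 0) (hy : h u y = 0) :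
    um h u y ∈ AddSubgroup.closure (uT h) := by
  by_cases h0 : u = 0
  · simp [um, h0]
  obtain ⟨u', a1, a2⟩ := hh.exists_hyperbolic' hu h0
  obtain ⟨c, hc0, hc⟩ := hh.inv.exists_skew'
  obtain ⟨y, rfl⟩ : ∃ y', y = -c • y' := ⟨(-c)⁻¹ • y, (smul_inv_smul₀ (neg_ne_zero.2 hc0) y).symm⟩
  replace hy : h u y = 0 := by simpa [hc0] using hy
  obtain ⟨ν, hν⟩ := hh.inv.exists_trace_eq (hh.norm_fixed (u' + y))
  have b1 : h (u' + y - ν • u) (u' + y - ν • u) = 0 := by
    simp only [map_sub, LinearMap.sub_apply, ← hν]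
    simp [hu, hy, a2, hh.flip_one a2, hh.flip_zero hy]
  have b2 : ∀ z, h z z = 0 → h u z = 1 →
      c • (ur h u z - ur h z u) - (c * c) • ur h u u ∈ AddSubgroup.closure (uT h) := fun z h1 h2 => by
    convert sub_mem (AddSubgroup.subset_closure (k := uT h) ⟨z + c • u, by
      simp [h1, h2, hh.flip_one h2, hu, hc], rfl⟩) (AddSubgroup.subset_closure ⟨z, h1, rfl⟩) using 1
    simp only [map_add, map_smul, map_smulₛₗ, LinearMap.add_apply, LinearMap.smul_apply,
      RingHom.id_apply, skew_eq hc]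
    module
  convert add_mem (sub_mem (b2 _ b1 (by simp [hu, hy, a2])) (b2 _ a1 a2))
    (AddSubgroup.subset_closure (smul_mem_uT hh (k := c * (σ ν - ν)) (by
      rw [map_mul, map_sub, hh.inv.invol, skew_eq hc]; ring) hu)) using 1
  simp only [um, map_add, map_sub, map_smul, map_smulₛₗ, LinearMap.add_apply, LinearMap.sub_apply,
    LinearMap.smul_apply, RingHom.id_apply, map_neg, skew_eq hc]
  module

variable {A : Type*} [Ring A] [Algebra F A] {φ : End F W →ₐ[F] A}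

/-- An additive subgroup invariant under the special unitary group and the fixed field. -/
structure UInv (h : W →ₛₗ[σ] W →ₗ[F] F) (φ : End F W →ₐ[F] A) (L : AddSubgroup A) : Prop where
  conj : ∀ g ∈ sisom h, ∀ D ∈ L, φ g.toLinearMap * D * φ (g⁻¹).toLinearMap ∈ L
  smul : ∀ k : F, σ k = k → ∀ D ∈ L, k • D ∈ L

variable {L : AddSubgroup A}

omit [Finite F] in
theorem UInv.delta (hL : UInv h φ L) (hh : IsHerm h) {u : W} (hu : h u u = 0) {c : F}
    (hc : c + σ c = 0) {D : A} (hD : D ∈ L) : c • (ue h φ u u * D - D * ue h φ u u) -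
      (c * c) • (ue h φ u u * D * ue h φ u u) ∈ L := by
  convert sub_mem (hL.conj _ (hh.tv_mem_sisom hu hc) D hD) hD using 1
  simp only [tv_inv, tv_coe, map_add, map_one, map_smul, ← ue_apply, add_mul, mul_add,
    smul_mul_assoc, mul_smul_comm, one_mul, mul_one]
  module

theorem UInv.reduce (hL : UInv h φ L) (hh : IsHerm h) (h3 : 3 ≤ finrank F W)
    (big : 4 ≤ finrank F W ∨ BigF σ) {D : A} (hD : D ∈ L) (hD' : ¬ Cm φ D) :
    ∃ a, a ≠ 0 ∧ Cm φ a ∧ ∀ m ∈ uT h, φ m * a ∈ L := by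
  suffices key : ∃ u a, u ≠ 0 ∧ h u u = 0 ∧ a ≠ 0 ∧ Cm φ a ∧ ue h φ u u * a ∈ L by
    obtain ⟨u, a, h0, hu, h1, h2, h4⟩ := key
    refine ⟨a, h1, h2, ?_⟩
    rintro _ ⟨v, hv, rfl⟩
    by_cases hv0 : v = 0
    · simp [hv0]
    obtain ⟨g, hg, rfl⟩ := exists_su_map hh h3 h0 hv0 (hu.trans hv.symm)
    rw [← ue_apply, ← ue_conj hg.1 h2]
    exact hL.conj g hg _ h4
  obtain ⟨u, hu, h1⟩ : ∃ u, h u u = 0 ∧ uco hh φ u u D ≠ 0 := by
    by_contra! H
    exact hD' (cm_of_uco_iso (by omega) H)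
  have h0 : u ≠ 0 := by rintro rfl; simp at h1
  obtain ⟨c, hc0, hc⟩ := hh.inv.exists_skew'
  rcases big with h4 | ⟨k, hk, hk0, hk1⟩
  · obtain ⟨v, hv, a1, a2, a3⟩ : ∃ v, v ∉ F ∙ u ∧ h v v = 0 ∧ h u v = 0 ∧ uco hh φ u v D ≠ 0 := by
      obtain ⟨v, hv, a1, a2⟩ := exists_iso_perp_notMem hh h4 h0
      by_cases a3 : uco hh φ u v D = 0
      · exact ⟨v + u, fun e => hv ((Submodule.add_mem_iff_left _
          (Submodule.mem_span_singleton_self u)).1 e), by simp [a1, a2, hu, hh.flip_zero a2],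
          by simp [a2, hu], by simpa [a3]⟩
      · exact ⟨v, hv, a1, a2, a3⟩
    have a4 := hh.flip_zero a2
    have b1 := hL.delta hh a1 hc (hL.delta hh hu hc hD)
    have b2 : -(c * c) • (ue h φ v u * uco hh φ v u D + ue h φ u v * uco hh φ u v D) ∈ L := by
      convert b1 using 1
      simp only [ue_mul_uco, mul_sub, sub_mul, mul_smul_comm, smul_mul_assoc, mul_assoc, ue_mul,
        ue_mul', a2, a4, zero_smul, mul_zero, smul_zero, zero_mul]
      module
    obtain ⟨l, hl⟩ : ∃ l : F, l • uco hh φ v u D + σ l • uco hh φ u v D ≠ 0 := by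
      by_contra! H
      exact a3 (eq_zero_of_sesq hh.inv H).2
    obtain ⟨y, c1, c2⟩ := H26.exists_perp_eq hh hv (-l)
    obtain ⟨ν, -, g, hg, c3⟩ := H26.exists_eich' hh hu c1
    refine ⟨u, -(c * c) • (l • uco hh φ v u D + σ l • uco hh φ u v D), h0, hu,
      smul_ne_zero (by simpa) hl, (((cm_uco _ _ _).smul _).add ((cm_uco _ _ _).smul _)).smul _, ?_⟩
    convert sub_mem (hL.conj g hg _ b2) b2 using 1
    rw [mul_smul_comm _ (φ _), smul_mul_assoc, mul_add (φ _), add_mul, ue_conj hg.1 (cm_uco _ _ _),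
      ue_conj hg.1 (cm_uco _ _ _), c3, c3]
    simp only [hu, a2, c2, hh.flip_zero c1, zero_smul, add_zero, mul_zero, sub_zero, neg_smul,
      sub_neg_eq_add, map_add, map_smul, map_smulₛₗ, LinearMap.add_apply, LinearMap.smul_apply,
      RingHom.id_apply, add_mul, mul_add, smul_mul_assoc, mul_smul_comm, mul_neg]
    module
  · refine ⟨u, ((k - k * k) * (c * c)) • uco hh φ u u D, h0, hu, smul_ne_zero (by
      rw [← mul_one_sub]
      exact mul_ne_zero (mul_ne_zero hk0 (sub_ne_zero.2 hk1.symm)) (mul_ne_zero hc0 hc0)) h1,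
      (cm_uco _ _ _).smul _, ?_⟩
    convert sub_mem (hL.delta hh hu (skew_mul_fixed hc hk) hD)
      (hL.smul k hk _ (hL.delta hh hu hc hD)) using 1
    rw [mul_smul_comm, ue_mul_uco]
    module

end Cfsg.Agent.H79
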