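import Cfsg.Agent.H79.UGrow
import Cfsg.Agent.H27.PowTop

/-!
# Overgroups of tensor induced unitary groups containing transvections
-/

set_option autoImplicit false

namespace Cfsg.Agent.H79

open Module Function H30 H31 H36
open H27 (Phi Phi_pt Phi_update Phi_linear multi_induction)
open H26 (hermP)

variable {F U V τ : Type*} [Field F] {σ : F →+* F} [AddCommGroup U] [Module F U] [AddCommGroup V]
  [Module F V] [Fintype τ] [DecidableEq τ] {f₀ : LinearMap.BilinForm F U}
  {B₀ : LinearMap.BilinForm F V} {S : TPow τ f₀ B₀} {h : U →ₛₗ[σ] U →ₗ[F] F}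
  {B : V →ₛₗ[σ] V →ₗ[F] F} {X : Subgroup (End F V)ˣ} {u : U}

/-- A group of units as a group of linear automorphisms. -/
def eqG (X : Subgroup (End F V)ˣ) : Subgroup (V ≃ₗ[F] V) :=
  X.comap (LinearMap.GeneralLinearGroup.generalLinearEquiv F V).symm.toMonoidHom

theorem mem_eqG {g : V ≃ₗ[F] V} : g ∈ eqG X ↔ InG X g.toLinearMap :=
  ⟨fun hg => ⟨_, hg, rfl⟩, fun hg => hg.mem rfl⟩

theorem exists_eqG {g : End F V} (hg : InG X g) : ∃ k ∈ eqG X, ∀ p, k p = g p := by
  obtain ⟨g, hg, rfl⟩ := hg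
  exact ⟨LinearMap.GeneralLinearGroup.generalLinearEquiv F V g,
    mem_eqG.2 ⟨g, hg, rfl⟩, fun _ => rfl⟩

variable [FiniteDimensional F U] [Finite F]

theorem mem_of_iso (hh : IsHerm h) (h2 : 2 ≤ finrank F U) (hu : h u u = 0) (h0 : u ≠ 0)
    (N : AddSubgroup U) (H : ∀ z, h z z = 0 → h u z ≠ 0 → z ∈ N) (y : U) : y ∈ N := by
  obtain ⟨u', a1, a2⟩ := hh.exists_hyperbolic' hu h0
  obtain ⟨c, hc0, hc⟩ := hh.inv.exists_skew'
  have key : ∀ z, h z z = 0 → z ∈ N := fun z hz => by
    by_cases h1 : h u z = 0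
    swap
    · exact H z hz h1
    obtain ⟨l, a3, a4⟩ : ∃ l, l ≠ 0 ∧ l * h z u' + σ (l * h z u') = 0 := by
      by_cases h3 : h z u' = 0
      · exact ⟨1, one_ne_zero, by simp [h3]⟩
      · exact ⟨c / h z u', div_ne_zero hc0 h3, by rwa [div_mul_cancel₀ _ h3]⟩
    simpa using N.sub_mem (H (z + l • u') (by simpa [hz, a1, hh.symm] using a4)
      (by simp [h1, a2, a3])) (H (l • u') (by simp [a1]) (by simp [a2, a3]))
  obtain ⟨a, -, b, -, h1, h3, rfl⟩ := hh.exists_add_isotropic hh.nondegOn_top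
    (by rwa [finrank_top]) (Submodule.mem_top (x := y))
  exact N.add_mem (key a h1) (key b h3)

variable [FiniteDimensional F V] [Nontrivial τ]

theorem UX.full (hX : UX S h B X) (H : TyU S h X Finset.univ) {u : τ → U} (h0 : ∀ i, u i ≠ 0)
    (hu : ∀ i, h (u i) (u i) = 0) : (hermP hX.hB).Full (eqG X) (S.pt u) := by
  obtain ⟨c, hc0, hc⟩ := hX.hh.inv.exists_skew'
  obtain ⟨s⟩ : Nonempty τ := inferInstance
  have he : B (S.pt u) (S.pt u) = 0 := hX.form_eq_zero s (hu s)
  have hn : ∀ (v : τ → U) j w, (∀ i, h (v i) (v i) = 0) → h (u j) w = 0 →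
      InG X (1 + c • Phi S (update (fun i => ur h (v i) (v i)) j (um h (u j) w))) := by
    intro v j w hv hw
    obtain ⟨i, hi⟩ := exists_ne j
    exact H.ext (Finset.mem_univ i) hc (by rw [update_of_ne hi]; exact ⟨_, hv i, rfl⟩)
      (fun l _ => forall_update_iff _ (fun _ x => x ∈ AddSubgroup.closure (uT h)) |>.2
        ⟨um_mem hX.hh (hu j) hw, fun i _ => AddSubgroup.subset_closure ⟨_, hv i, rfl⟩⟩ l) (by simp)
  let Y := H26.PForm.Ygrp (eqG X) ((H26.hermP_sing hX.hB).2 he)
  have s0 : ∀ j y, h (u j) y = 0 → S.pt (update u j y) ∈ Y := fun j y hy => by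
    obtain ⟨w, rfl⟩ : ∃ w, y = c • w := ⟨c⁻¹ • y, (smul_inv_smul₀ hc0 y).symm⟩
    obtain ⟨g, hg, e⟩ := exists_eqG (hn u j w hu (by simpa [hc0] using hy))
    obtain ⟨i, hi⟩ := exists_ne j
    refine ⟨0, H26.ei_of_eq he (hX.form_eq_zero j (by simpa using hy))
      (by rw [hX.form_eq_zero i (by simp [hi, hu]), map_zero, add_zero]) hg fun x => ?_⟩
    have a1 := hX.ur_pt u (update u j w)
    have a2 := hX.ur_pt (update u j w) u
    rw [show (fun i => ur h (u i) (update u j w i)) = update (fun i => ur h (u i) (u i)) j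
      (ur h (u j) w) from funext fun i => by by_cases hi : i = j <;> simp [hi]] at a1
    rw [show (fun i => ur h (update u j w i) (u i)) = update (fun i => ur h (u i) (u i)) j
      (ur h w (u j)) from funext fun i => by by_cases hi : i = j <;> simp [hi]] at a2
    rw [e, um, (Phi_linear S _ j).map_add, ← a1, ← a2, S.pt.map_update_smul]
    simp only [LinearMap.add_apply, LinearMap.smul_apply, End.one_apply, ur_apply, smul_left,
      skew_eq hc]
    module
  have K : ∀ j x, (∀ l : F, S.pt (update u j (l • x)) ∈ Y) → ∀ w, h (u j) w = 0 → ∀ v,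
      S.pt (update v j (um h (u j) w x)) ∈ Y := fun j x hx w hw v => by
    refine multi_induction (p := fun v => S.pt (update v j (um h (u j) w x)) ∈ Y)
      (G := fun i => {z | h z z = 0 ∧ h (u i) z ≠ 0}) (L := fun _ => Set.univ)
      (fun i v hv y _ => ?_) (fun v hv => ?_) v fun _ => trivial
    · by_cases hi : i = j
      · obtain ⟨z, a1, a2⟩ := hX.hh.exists_hyperbolic' (hu i) (h0 i)
        simpa [hi] using hv z ⟨a1, by simp [a2]⟩
      simp only [update_comm hi] at hv ⊢
      exact mem_of_iso hX.hh hX.two (hu i) (h0 i)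
        (Y.comap (S.pt.toLinearMap _ i).toAddMonoidHom) (fun z a1 a2 => hv z ⟨a1, a2⟩) y
    obtain ⟨g, hg, e⟩ := exists_eqG (hn v j w (fun i => (hv i).1) hw)
    have a1 : g (S.pt u) = S.pt u := by
      rw [e, LinearMap.add_apply, LinearMap.smul_apply, Phi_pt, End.one_apply, add_eq_left,
        S.pt.map_coord_zero j (by simp [um, hu, hX.hh.flip_zero hw]), smul_zero]
    have a2 : ∏ i ∈ Finset.univ.erase j, h (v i) (u i) ≠ 0 :=
      Finset.prod_ne_zero_iff.2 fun i _ => hX.hh.flip_ne_zero (hv i).2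
    obtain ⟨ν, a3⟩ := hx (c * ∏ i ∈ Finset.univ.erase j, h (v i) (u i))⁻¹
    have a4 := a3.conj hg (by
      rw [H26.hermP_isom]
      exact hX.iso _ (mem_eqG.1 hg))
    rw [a1] at a4
    convert Y.sub_mem ⟨ν, a4⟩ ⟨ν, a3⟩ using 1
    rw [e, LinearMap.add_apply, End.one_apply, add_sub_cancel_left, LinearMap.smul_apply,
      S.pt.map_update_smul, map_smul, Phi_pt, show (fun i => update (fun i => ur h (v i) (v i)) j
        (um h (u j) w) i (update u j x i)) = fun i => update (fun i => h (v i) (u i)) j 1 i •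
        update v j (um h (u j) w x) i from funext fun i => by by_cases hi : i = j <;> simp [hi],
      S.pt.map_smul_univ, Finset.prod_update_of_mem (Finset.mem_univ j), smul_smul, smul_smul,
      Finset.sdiff_singleton_eq_erase, one_mul, mul_right_comm, mul_inv_cancel₀ (mul_ne_zero hc0 a2),
      one_smul]
  have s1 : ∀ j (k : F) v, S.pt (update v j (k • u j)) ∈ Y := fun j k v => by
    obtain ⟨y, a1, a2⟩ := exists_perp_norm' hX.hh hX.three (hu j)
    simpa [um, a1, a2] using K j (k • y) (fun l => s0 j _ (by simp [a2])) y a2 v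
  choose u' hu' using fun i => hX.hh.exists_eq_one (h0 i)
  have s3 : ∀ j y v, h (u j) y = 0 → S.pt (update v j y) ∈ Y := fun j y v hy => by
    obtain ⟨i, hi⟩ := exists_ne j
    have := Y.sub_mem (K j (u' j) (fun l => by
      have := s1 i 1 (update u j (l • u' j))
      rwa [one_smul, ← update_of_ne hi (l • u' j) u, update_eq_self] at this) y hy v)
      (s1 j (h y (u' j)) v)
    rw [← S.pt.map_update_sub] at this
    simpa [um, hu'] using this
  refine H26.full_of_Y he (fun d hd hd' => mem_eqG.2 ?_) fun y hy => ?_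
  · rw [tv_coe, hX.ur_pt]
    exact H d hd' _ fun j => by simpa [tyU] using ⟨_, hu j, rfl⟩
  suffices key : ∀ p, p - B (S.pt u) p • S.pt u' ∈ Y by
    have := key y
    rwa [hy, zero_smul, sub_zero] at this
  refine H27.pt_add_induction (S := S) (by simp) (fun x y hx hy => ?_) fun v => ?_
  · convert Y.add_mem hx hy using 1
    rw [map_add]
    module
  refine multi_induction (p := fun v => S.pt v - B (S.pt u) (S.pt v) • S.pt u' ∈ Y)
    (G := fun i => {y | h (u i) y = 0 ∨ ∃ a : F, y = a • u' i}) (L := fun _ => Set.univ)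
    (fun i v hv y _ => ?_) (fun v hv => ?_) v fun _ => trivial
  · convert Y.add_mem (hv (y - h (u i) y • u' i) (Or.inl (by simp [hu'])))
      (hv _ (Or.inr ⟨h (u i) y, rfl⟩)) using 1
    rw [S.pt.map_update_sub, map_sub]
    module
  by_cases h1 : ∃ i, h (u i) (v i) = 0
  · obtain ⟨i, hi⟩ := h1
    simpa [hX.form_eq_zero i hi] using s3 i (v i) v hi
  choose a ha using fun i => (hv i).resolve_left fun e => h1 ⟨i, e⟩
  simp [funext ha, S.pt.map_smul_univ, hX.form, hu']

theorem UX.top (hX : UX S h B X) (H : TyU S h X Finset.univ) (h3 : finrank F V ≠ 3) :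
    sisom B ≤ eqG X := by
  obtain ⟨u, u', h0, a1, a2, a3⟩ := exists_hyp hX.hh hX.two
  exact H26.sisom_le_of_E_le (Or.inl h3) ((hX.full H (u := fun _ => u) (fun _ => h0)
    fun _ => a1).E_le (hX.full H (u := fun _ => u') (fun _ => by rintro rfl; simp at a3)
    fun _ => a2) (by simp [H26.hermP_f, hX.form, a3]))

end Cfsg.Agent.H79
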