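import Cfsg.Agent.H79.UBase
import Cfsg.Agent.H79.UGrp
import Cfsg.Agent.H27.PowTwo

/-!
# Overgroups of tensor induced unitary groups in characteristic two
-/

set_option autoImplicit false

namespace Cfsg.Agent.H79

open Module Function H30 H31
open H36 (InG)
open H27 (Cm cm_one cm_zero cm_fac inG_conj inG_inv inG_exists_inv Cls cls_self Nm rk nmG cenG
  nm_of_cm rk_add_le rk_mul_le_left)

variable {F U V τ : Type*} [Field F] {σ : F →+* F} [AddCommGroup U] [Module F U] [AddCommGroup V]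
  [Module F V] [Fintype τ] [DecidableEq τ] {f₀ : LinearMap.BilinForm F U}
  {B₀ : LinearMap.BilinForm F V} {S : TPow τ f₀ B₀} {h : U →ₛₗ[σ] U →ₗ[F] F}
  {B : V →ₛₗ[σ] V →ₗ[F] F} {X : Subgroup (End F V)ˣ} {s j : τ} {u v w y : U} {c d : F}
  {g g' A N : End F V}

theorem exists_fix_of_odd (h2 : (2 : F) = 0) {a b : End F V} (ha : a * a = 1) (hb : b * b = 1)
    {m : ℕ} (e : (b * a) ^ (2 * m + 1) = 1) {p : V} (hp : a p = p) :
    ∃ q, a (p + (a - 1) q) = p + (a - 1) q ∧ b (p + (a - 1) q) = p + (a - 1) q := by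
  have h0 : ∀ x : V, x + x = 0 := fun x => by rw [← two_smul F, h2, zero_smul]
  have haa : ∀ x, a (a x) = x := LinearMap.congr_fun ha
  have hbb : ∀ x, b (b x) = x := LinearMap.congr_fun hb
  have h1 : ∀ q, a (p + (a - 1) q) = p + (a - 1) q := fun q => by
    simp only [map_add, LinearMap.sub_apply, End.one_apply, map_sub, haa, hp]
    linear_combination (norm := module) h0 q - h0 (a q)
  have h3 : ∀ j, a (((b * a) ^ j) p) = ((a * b) ^ j) p := fun j => by
    rw [← End.mul_apply, ← mul_pow_mul, End.mul_apply, hp]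
  have h4 : ∀ j, ∃ q, b (p + (a - 1) q) - (p + (a - 1) q) =
      ((b * a) ^ (j + 1)) p - ((a * b) ^ j) p := fun j => by
    induction j with
    | zero => exact ⟨0, by simp [hp]⟩
    | succ j ih =>
      obtain ⟨q, hq⟩ := ih
      refine ⟨q + ((b * a) ^ (j + 1)) p, ?_⟩
      have a1 : b (((a * b) ^ (j + 1)) p) = ((b * a) ^ (j + 1 + 1)) p := by
        rw [← h3, pow_succ' _ (j + 1)]; rfl
      have a2 : b (((b * a) ^ (j + 1)) p) = ((a * b) ^ j) p := by
        rw [pow_succ', End.mul_apply, End.mul_apply, hbb, h3]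
      simp only [map_add, LinearMap.sub_apply, End.one_apply, map_sub, h3, a1, a2] at hq ⊢
      linear_combination (norm := module) hq + h0 (((b * a) ^ (j + 1)) p) - h0 (((a * b) ^ j) p)
  obtain ⟨q, hq⟩ := h4 m
  refine ⟨q, h1 q, sub_eq_zero.1 (hq.trans (sub_eq_zero.2 (LinearMap.congr_fun ?_ p)))⟩
  have h5 : a * b * (b * a) = 1 := by rw [mul_assoc, ← mul_assoc b, hb, one_mul, ha]
  have h6 : b * a * (a * b) = 1 := by rw [mul_assoc, ← mul_assoc a, ha, one_mul, hb]
  have h7 : (a * b) ^ m * (b * a) ^ m = 1 := by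
    rw [← (show Commute (a * b) (b * a) from h5.trans h6.symm).mul_pow, h5, one_pow]
  rw [← one_mul ((b * a) ^ (m + 1)), ← h7, mul_assoc, ← pow_add, show m + (m + 1) = 2 * m + 1 by ring,
    e, mul_one]

variable [FiniteDimensional F U]

theorem UF.nm_fac (hS : UF S h B) (h2 : g' * g = 1) (e : ∀ j, j ≠ s → Cm (S.fac j) g)
    (e' : ∀ j, j ≠ s → Cm (S.fac j) g') : Nm S g := by
  obtain ⟨a, rfl⟩ := hS.exists_fac_of_cm e
  obtain ⟨a', rfl⟩ := hS.exists_fac_of_cm e'
  refine ⟨1, fun j b => ?_⟩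
  by_cases hj : j = s
  · exact ⟨a * b * a', by rw [hj, map_mul, mul_assoc, Equiv.Perm.one_apply, h2, mul_one, map_mul]⟩
  · exact ⟨b, S.fac_comm (Ne.symm hj) a b⟩

theorem UF.comm_of_conj (hS : UF S h B) (h2 : (2 : F) = 0) (hu : h u u = 0) (hc : c ≠ 0)
    (hd0 : d ≠ 0) (hd : d + σ d = 0) {e : End F V} (he : e = 1 + d • ue h (S.fac s) v v)
    (H : e * (1 + c • ue h (S.fac s) u u) * e * (1 + c • ue h (S.fac s) u u) =
      (1 + c • ue h (S.fac s) u u) * (e * (1 + c • ue h (S.fac s) u u) * e)) (hee : e * e = 1) :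
    h u v = 0 := by
  have h1 : e * ue h (S.fac s) u u * e =
      ue h (S.fac s) (u + (d * h v u) • v) (u + (d * h v u) • v) := by
    have : σ d = d := by linear_combination hd - d * h2
    simp only [he, add_mul, mul_add, one_mul, mul_one, smul_mul_assoc, mul_smul_comm, ue_mul,
      map_add, map_smul, map_smulₛₗ, LinearMap.add_apply, LinearMap.smul_apply, map_mul, this,
      hS.hh.symm, RingHom.id_apply]
    module
  have h3 := hS.perp_of_comm (s := s) (y := u + (d * h v u) • v) hu (smul_right_injective _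
    (mul_ne_zero hc hc) (by
      simp only [← h1, mul_add, add_mul, mul_one, one_mul, hee, mul_smul_comm,
        smul_mul_assoc] at H ⊢
      linear_combination (norm := module) -H))
  by_contra h4
  simp [hu, hd0, h4, hS.hh.flip_ne_zero h4] at h3

theorem UF.comm_of_swap (hS : UF S h B) (h2 : (2 : F) = 0) {A' t : End F V} (hA : bUs S h s A)
    (hA' : bUs S h s A') (e : A * A' = A' * A) (hne : A ≠ A') (ht : t * t = 1)
    (H : t * ((1 + A) * (1 + A')) = (1 + A) * (1 + A') * t) :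
    A' * (t * A' * t) = t * A' * t * A' := by
  obtain ⟨u, c, hu0, hu, hc, -, rfl⟩ := hA
  obtain ⟨v, d, hv0, hv, hd, -, rfl⟩ := hA'
  have h1 := hS.perp_of_comm (s := s) (y := v) hu (smul_right_injective _ (mul_ne_zero hc hd) (by
    simpa [smul_smul, mul_comm] using e))
  have h3 : t * (c • ue h (S.fac s) u u + d • ue h (S.fac s) v v) =
      (c • ue h (S.fac s) u u + d • ue h (S.fac s) v v) * t := by
    simpa [mul_add, add_mul, ue_mul, h1, add_assoc, add_comm, add_left_comm] using H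
  by_cases h4 : v ∈ F ∙ u
  · obtain ⟨a, rfl⟩ := Submodule.mem_span_singleton.1 h4
    simp only [map_smul, map_smulₛₗ, LinearMap.smul_apply, smul_smul, ← add_smul, mul_smul_comm,
      smul_mul_assoc, RingHom.id_apply] at h3 hne ⊢
    rw [smul_right_injective _ (fun e => hne (by
      rw [show c = d * (σ a * a) by linear_combination e - d * (σ a * a) * h2])) h3, mul_assoc _ t t,
      ht, mul_one]
  obtain ⟨w, a1, a2⟩ := H26.exists_perp_eq hS.hh h4 1
  have h5 := congrArg (fun x => ue h (S.fac s) v w * (x * (ue h (S.fac s) v v * t))) h3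
  simp only [mul_add, add_mul, mul_assoc, smul_mul_assoc, mul_smul_comm, ue_mul', h1, hv, a2,
    hS.hh.flip_zero a1, zero_smul, smul_zero, mul_zero, zero_add, one_smul] at h5
  have h6 : ue h (S.fac s) v v * (t * (ue h (S.fac s) v v * t)) = 0 :=
    (smul_eq_zero.1 h5.symm).resolve_left hd
  have h7 := congrArg (fun x => t * x * t) h6
  simp only [mul_assoc, ht, mul_one, zero_mul, mul_zero] at h7
  simp only [mul_assoc, smul_mul_assoc, mul_smul_comm, h6, h7]

variable [Finite F]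

theorem UF.exists_rel (hS : UF S h B) (h2 : (2 : F) = 0) (hA : bUs S h s A) :
    ∃ l : List (End F V), Odd l.length ∧ (l.map (1 + ·)).prod = 1 ∧
      ∀ N ∈ l, bUs S h s N ∧ N * A = A * N := by
  obtain ⟨u, c, hu0, hu, hc0, hc, rfl⟩ := hA
  rcases hS.big with h4 | ⟨k, hk, hk0, hk1⟩
  · obtain ⟨v, a1, a2, a3⟩ := exists_iso_perp_notMem hS.hh h4 hu0
    obtain ⟨θ, hθ⟩ := hS.hh.inv.ne_id
    have a4 := hS.hh.flip_zero a3
    have a5 : ∀ r : F, bUs S h s (c • ue h (S.fac s) (v + r • u) (v + r • u)) := fun r =>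
      ⟨_, c, fun e => a1 (Submodule.mem_span_singleton.2 ⟨-r, by
        rw [neg_smul, neg_eq_iff_add_eq_zero, add_comm, e]⟩), by simp [hu, a2, a3, a4], hc0, hc, rfl⟩
    have a6 : θ + σ θ ≠ 0 := fun e => hθ (by linear_combination e - θ * h2)
    obtain ⟨r, hr⟩ := hS.hh.inv.exists_norm_eq (a := (θ + σ θ)⁻¹)
      (by rw [map_inv₀, hS.hh.inv.trace_fixed])
    replace hr : r * σ r * (θ + σ θ) = 1 := by rw [hr, inv_mul_cancel₀ a6]
    refine ⟨[c • ue h (S.fac s) u u, c • ue h (S.fac s) (v + (0 : F) • u) (v + (0 : F) • u),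
      c • ue h (S.fac s) (v + r • u) (v + r • u),
      c • ue h (S.fac s) (v + (r * θ) • u) (v + (r * θ) • u),
      c • ue h (S.fac s) (v + (r * (1 + θ)) • u) (v + (r * (1 + θ)) • u)], ⟨2, rfl⟩, ?_, ?_⟩
    · have z1 : ∀ r r' : F, ue h (S.fac s) (v + r • u) (v + r • u) *
          ue h (S.fac s) (v + r' • u) (v + r' • u) = 0 := fun r r' => by
        rw [ue_mul]; simp [hu, a2, a3, a4]
      have z2 : ∀ r : F, ue h (S.fac s) u u * ue h (S.fac s) (v + r • u) (v + r • u) = 0 :=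
        fun r => by rw [ue_mul]; simp [hu, a3]
      simp only [List.map_cons, List.map_nil, List.prod_cons, List.prod_nil, mul_add (_ : End F V),
        add_mul (_ : End F V), mul_one, one_mul, smul_mul_smul_comm, z1, z2, smul_zero, mul_zero,
        add_zero]
      simp only [map_add, map_smul, map_smulₛₗ, LinearMap.add_apply, LinearMap.smul_apply,
        RingHom.id_apply, map_mul, map_one, map_zero]
      linear_combination (norm := module) hr • c • ue h (S.fac s) u u + h2 • c •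
        ((1 + r * σ r * (1 + θ * σ θ)) • ue h (S.fac s) u u + (2 : F) • ue h (S.fac s) v v +
          (r * (1 + θ)) • ue h (S.fac s) u v + (σ r * (1 + σ θ)) • ue h (S.fac s) v u)
    · simp only [List.mem_cons, List.not_mem_nil, or_false, forall_eq_or_imp, forall_eq, a5,
        true_and]
      refine ⟨⟨⟨u, c, hu0, hu, hc0, hc, rfl⟩, trivial⟩, ?_⟩
      simp [ue_mul, add_mul, mul_add, hu, a3, a4]
  have a1 : ∀ r, σ r = r → r ≠ 0 → bUs S h s ((c * r) • ue h (S.fac s) u u) := fun r h1 h3 =>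
    ⟨u, _, hu0, hu, mul_ne_zero hc0 h3, skew_mul_fixed hc h1, rfl⟩
  refine ⟨[(c * 1) • ue h (S.fac s) u u, (c * k) • ue h (S.fac s) u u,
    (c * (1 + k)) • ue h (S.fac s) u u], ⟨1, rfl⟩, ?_, ?_⟩
  · simp only [List.map_cons, List.map_nil, List.prod_cons, List.prod_nil, mul_add, add_mul, mul_one,
      one_mul, smul_mul_smul_comm, ue_mul, hu, zero_smul, smul_zero, mul_zero]
    linear_combination (norm := module) h2 • (c * (1 + k)) • ue h (S.fac s) u u
  · simp only [List.mem_cons, List.not_mem_nil, or_false, forall_eq_or_imp, forall_eq,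
      a1 1 (map_one σ) one_ne_zero, a1 k hk hk0, a1 (1 + k) (by rw [map_add, map_one, hk])
        fun e => hk1 (by linear_combination e - h2), true_and]
    simp [ue_mul, hu]

variable [FiniteDimensional F V]

theorem UX.nm_two (hX : UX S h B X) (hM : UPM S h X) (h2 : (2 : F) = 0) (hg : InG X g) :
    Nm S g := by
  suffices key : ∀ I : Finset τ, cenG S X I ≤ nmG S by
    obtain ⟨g, hg, rfl⟩ := hg
    exact (key ∅ ⟨hg, by simp⟩).1
  intro I
  induction I using WellFoundedGT.induction with | _ I ih => ?_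
  by_cases hI : ∀ s, s ∈ I
  · exact fun g hg => ⟨nm_of_cm fun s => hg.2 s (hI s),
      nm_of_cm fun s => ((cenG S X I).inv_mem hg).2 s (hI s)⟩
  push Not at hI
  obtain ⟨s, hs⟩ := hI
  have : Finite V := Module.finite_of_finite F
  have : Finite (End F V) := Module.finite_of_finite F
  let ν : cenG S X I →* End F V := (Units.coeHom _).comp (cenG S X I).subtype
  have hν : Injective ν := fun a b h => Subtype.ext (Units.ext h)
  have hνX : ∀ g, InG X (ν g) := fun g => ⟨g, g.2.1, rfl⟩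
  have hνY : ∀ g, InG (cenG S X I) (ν g) := fun g => ⟨g, g.2, rfl⟩
  have e1 : ∀ g, ν g * ν g⁻¹ = 1 := fun g => by rw [← map_mul, mul_inv_cancel, map_one]
  have e2 : ∀ g, ν g⁻¹ * ν g = 1 := fun g => by rw [← map_mul, inv_mul_cancel, map_one]
  let H := (nmG S).subgroupOf (cenG S X I)
  let L := fun i => (cenG S ⊤ (Finset.univ.erase i)).subgroupOf (cenG S X I)
  let C := fun i => (cenG S ⊤ {i}).subgroupOf (cenG S X I)
  have hL : ∀ i g, g ∈ L i ↔ ∀ j, j ≠ i → Cm (S.fac j) (ν g) := fun i g =>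
    ⟨fun h j hj => h.2 j (by simpa), fun h => ⟨trivial, fun j hj => h j (by simpa using hj)⟩⟩
  have hC : ∀ i g, g ∈ C i ↔ Cm (S.fac i) (ν g) := fun i g =>
    ⟨fun h => h.2 i (by simp), fun h => ⟨trivial, fun j hj => Finset.mem_singleton.1 hj ▸ h⟩⟩
  have hLH : ∀ i, L i ≤ H := fun i g hg =>
    ⟨hX.nm_fac (e2 g) ((hL i _).1 hg) ((hL i _).1 (inv_mem hg)),
      hX.nm_fac (e1 g) ((hL i _).1 (inv_mem hg)) ((hL i _).1 hg)⟩
  have hfac : ∀ g i a, ν g - 1 = S.fac i a → g ∈ L i := fun g i a e => (hL i g).2 fun j hj => by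
    rw [eq_add_of_sub_eq' e]
    exact cm_one.add (cm_fac S hj a)
  let D := fun d => Cls (cenG S X I) (fun N => ∃ s ∉ I, bUs S h s N) (ν d - 1)
  have hT : ∀ d, D d → Cls X (bU S h) (ν d - 1) := fun d h =>
    h.mono (fun _ h => h.1) fun _ ⟨s, _, e⟩ => ⟨s, e⟩
  have hbase : ∀ s ∉ I, ∀ N, bUs S h s N → ∃ d, ν d = 1 + N ∧ D d ∧ d ∈ L s := by
    rintro s hs _ ⟨u, c, a1, a2, a3, a4, rfl⟩
    obtain ⟨d, hd, e⟩ := hX.tv s u c a2 a4
    exact ⟨⟨d, hd, fun i hi => e ▸ cm_one.add (Cm.smul (cm_fac S (by rintro rfl; exact hs hi) _) c)⟩,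
      e, cls_self ⟨s, hs, u, c, a1, a2, a3, a4, sub_eq_of_eq_add' e⟩,
      hfac _ s (c • ur h u u) (by rw [map_smul]; exact sub_eq_of_eq_add' e)⟩
  have hnI : ∀ d s, bUs S h s (ν d - 1) → s ∉ I := by
    rintro d s ⟨u, c, a1, a2, a3, -, e⟩ hs
    have := (Cm.sub (c := ν d) (d.2.2 s hs) cm_one).smul c⁻¹
    rw [e, inv_smul_smul₀ a3] at this
    exact hX.not_cm a2 a1 this
  have hR : ∀ d, Cls X (bU S h) (ν d - 1) → d ∈ H → ∃ s, bUs S h s (ν d - 1) := fun d h hd =>
    hX.cls_base hM h2 h (by rw [add_sub_cancel]; exact hd.1)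
  have hR' : ∀ d i, D d → d ∈ L i → bUs S h i (ν d - 1) := fun d i h hd => by
    obtain ⟨a, ha⟩ := hX.exists_fac_of_cm ((hL i d).1 hd)
    exact hX.bUs_of_fac (β := a - 1) (hX.cf hM (hT d h)) (by simp [ha])
  have hconj : ∀ d g, ν (g * d * g⁻¹) - 1 = ν g * (ν d - 1) * ν g⁻¹ := fun d g => by
    rw [mul_sub, sub_mul, mul_one, e1, map_mul, map_mul]
  have hD : ∀ d g, D d → D (g * d * g⁻¹) := fun d g hd => by
    change Cls _ _ _
    rw [hconj]
    exact hd.conj (hνY g) (e1 g) (e2 g)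
  have hinv : ∀ d, D d → d * d = 1 := fun d hd => hν (by
    simpa using sq_one_add h2 (hX.cf hM (hT d hd)).sq)
  have htr : ∀ g d i j, bUs S h i (ν d - 1) → bUs S h j (ν (g * d * g⁻¹) - 1) →
      ∀ a, ∃ a', ν g * S.fac i a = S.fac j a' * ν g := by
    rintro g d i j ⟨u, c, -, -, a1, -, a2⟩ ⟨y, c', b1, b2, b3, -, b4⟩
    refine hX.transport hM h2 (hνX g) (e1 g) (e2 g) b1 b2 (mul_ne_zero (inv_ne_zero a1) b3)
      (u := u) ?_
    rw [mul_smul, ← b4, hconj, a2, mul_smul_comm, smul_mul_assoc, inv_smul_smul₀ a1]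
  have hTv : ∀ g d i j, bUs S h i (ν d - 1) → bUs S h j (ν (g * d * g⁻¹) - 1) →
      TvU S h (ν g) := by
    intro g d i j hi hj l v hv0 hv
    by_cases hl : l ∈ I
    · exact ⟨l, ur h v v, (g.2.2 l hl _).symm⟩
    by_cases hli : l = i
    · exact ⟨j, hli ▸ htr g d i j hi hj _⟩
    obtain ⟨c, hc0, hc⟩ := hX.hh.inv.exists_skew'
    obtain ⟨e, a1, a2, a3⟩ := hbase l hl _ ⟨v, c, hv0, hv, hc0, hc, rfl⟩
    obtain ⟨r, w, c', -, -, -, -, b1⟩ := hR (g * e * g⁻¹) (hT _ (hD e g a2)) (by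
      refine ih (insert j I) (Finset.ssubset_insert (hnI _ j hj))
        ⟨(g * e * g⁻¹).2.1, fun r hr => ?_⟩
      rcases Finset.mem_insert.1 hr with rfl | hr
      swap
      · exact (g * e * g⁻¹).2.2 r hr
      intro b
      obtain ⟨b', hb⟩ := htr g⁻¹ _ r i hj (by simpa [mul_assoc] using hi) b
      change _ * ν (g * e * g⁻¹) = ν (g * e * g⁻¹) * _
      rw [map_mul, map_mul]
      linear_combination (norm := noncomm_ring) ν g * hb * ν g * ν e * ν g⁻¹ - ν g * ν e * hb -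
        e1 g * S.fac r b * ν g * ν e * ν g⁻¹ + ν g * S.fac i b' * e2 g * ν e * ν g⁻¹ +
        ν g * (hL l e).1 a3 i (Ne.symm hli) b' * ν g⁻¹)
    refine ⟨r, (c⁻¹ * c') • ur h w w, ?_⟩
    rw [map_smul, ← ue_apply, mul_smul, ← b1, hconj, a1, add_sub_cancel_left, smul_mul_assoc,
      mul_assoc, e2, mul_one, mul_smul_comm, inv_smul_smul₀ hc0]
  have hO : OT H D L C := by
    refine ⟨hinv, fun d hd e => (hX.cf hM (hT d hd)).ne (by simp [e]), hD, fun d g hd h1 h3 => ?_,
      fun d e hd he h1 h3 h4 => hν ?_, fun d hd h1 => ?_, hLH, fun i x hx y hy => hν ?_,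
      fun i j hij g hg => (hC i g).2 ((hL j g).1 hg i hij), fun i x hx hx' => ?_,
      fun i a a' t ha ha' h1 h3 h4 h5 h6 h7 => hν ?_, fun i a ha h1 => ?_⟩
    · obtain ⟨i, hi⟩ := hR d (hT d hd) h1
      obtain ⟨j, hj⟩ := hR _ (hT _ (hD d g hd)) h3
      have a4 := hTv g d i j hi hj
      have a5 := hTv g⁻¹ _ j i hj (by simpa [mul_assoc] using hi)
      exact ⟨hX.nm_of_tv (e1 g) (e2 g) a4 a5, hX.nm_of_tv (e2 g) (e1 g) a5 a4⟩
    · obtain ⟨i, u, c, -, a1, a2, -, a3⟩ := hR d (hT d hd) h1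
      obtain ⟨j, v, c', -, -, b2, b3, b4⟩ := hR e (hT e he) h3
      have a4 := congrArg ν h4
      have a5 := congrArg ν (hinv e he)
      simp only [map_mul, map_one, eq_add_of_sub_eq' a3] at a4 a5 ⊢
      have a6 : ue h (S.fac j) v v * ue h (S.fac i) u u =
          ue h (S.fac i) u u * ue h (S.fac j) v v := by
        by_cases hij : j = i
        · subst hij
          have := hX.comm_of_conj h2 a1 a2 b2 b3 (eq_add_of_sub_eq' b4) a4 a5
          simp [ue_mul, this, hX.hh.flip_zero this]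
        · exact S.fac_comm hij _ _
      rw [show ν e * (1 + c • ue h (S.fac i) u u) = (1 + c • ue h (S.fac i) u u) * ν e by
        simp [eq_add_of_sub_eq' b4, mul_add, add_mul, a6, smul_comm c c', add_assoc, add_left_comm],
        mul_assoc, a5, mul_one]
    · obtain ⟨i, u, c, -, -, -, -, a3⟩ := hR d (hT d hd) h1
      exact ⟨i, hfac d i (c • ur h u u) (by rw [map_smul]; exact a3)⟩
    · obtain ⟨a, ha⟩ := hX.exists_fac_of_cm ((hL i x).1 hx)
      rw [map_mul, map_mul, ha, (hC i y).1 hy]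
    · obtain ⟨c, hc⟩ := hX.exists_smul_of_cm (T := ν x) fun j => by
        by_cases hj : j = i
        exacts [hj ▸ (hC i x).1 hx', (hL i x).1 hx j hj]
      refine ⟨fun g => hν (by simp [hc]), fun e => hν ?_⟩
      have := hX.ntV
      have h3 := congrArg ν e
      rw [map_mul, map_one, hc, smul_mul_smul_comm, mul_one, ← sub_eq_zero, ← one_smul F 1,
        smul_smul, ← sub_smul, smul_eq_zero_iff_left one_ne_zero] at h3
      rw [hc, map_one, show c = 1 from sub_eq_zero.1 (pow_eq_zero_iff two_ne_zero |>.1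
        (by linear_combination h3 + (1 - c) * h2)), one_smul]
    · have a1 := congrArg ν h4
      have a2 := congrArg ν h6
      have a3 := congrArg ν h7
      simp only [map_mul, map_one] at a1 a2 a3 ⊢
      have := hX.comm_of_swap h2 (hR' a i ha h1) (hR' a' i ha' h3)
        (by linear_combination (norm := noncomm_ring) a1) (fun e => h5 (hν (sub_left_injective e)))
        a2 (by simpa using a3)
      linear_combination (norm := noncomm_ring) this + ν a' * a2 - a2 * ν a'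
    · obtain ⟨l, a1, a2, a3⟩ := hX.exists_rel h2 (hR' a i ha h1)
      choose! φ hφ using hbase i (hnI a i (hR' a i ha h1))
      refine ⟨l.map φ, by simpa, hν ?_, fun x hx => ?_⟩
      · rw [map_list_prod, List.map_map, map_one, ← a2]
        exact congrArg _ (List.map_congr_left fun N hN => (hφ N (a3 N hN).1).1)
      · obtain ⟨N, hN, rfl⟩ := List.mem_map.1 hx
        obtain ⟨b1, b2, b3⟩ := hφ N (a3 N hN).1
        refine ⟨b2, b3, hν ?_⟩
        rw [map_mul, map_mul, b1]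
        linear_combination (norm := noncomm_ring) (a3 N hN).2
  obtain ⟨c, hc0, hc⟩ := hX.hh.inv.exists_skew'
  obtain ⟨u₀, -, hu₀, hu₀', -⟩ := exists_hyp hX.hh hX.two
  suffices key : ∀ b, D b → b ∈ H by
    obtain ⟨a, -, a2, a3⟩ := hbase s hs _ ⟨u₀, c, hu₀, hu₀', hc0, hc, rfl⟩
    exact fun g hg => hO.fix a ⟨g, hg⟩ a2 (hLH s a3) (key _ (hD a _ a2))
  intro b hb
  by_contra hbH
  have hsw : ∀ u c, u ≠ 0 → h u u = 0 → c ≠ 0 → c + σ c = 0 → ∃ a t m, ν a = 1 + c • ue h (S.fac s) u u ∧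
      D a ∧ a ∈ H ∧ (b * a) ^ (2 * m + 1) = 1 ∧ D t ∧ t * a * t = b ∧ t * b * t = a ∧
      ∀ p, ν a p = p → ν b p = p → ν t p = p := fun u c h1 h3 h4 h5 => by
    obtain ⟨a, a1, a2, a3⟩ := hbase s hs _ ⟨u, c, h1, h3, h4, h5, rfl⟩
    obtain ⟨m, hm⟩ := hO.odd a2 (hLH s a3) hb hbH
    obtain ⟨t, b1, b2, b3, b4⟩ := hO.swap a2 hb hm
    exact ⟨a, t, m, a1, a2, hLH s a3, hm, b1, b2, b3, fun p =>
      b4 ((MulAction.stabilizer (End F V)ˣ p).subgroupOf _)⟩
  have hsw' : ∀ {a a' t t' : cenG S X I}, D t → D t' → t * a * t = b → t' * b * t' = a' →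
      ν (t' * t) * (ν a - 1) = (ν a' - 1) * ν (t' * t) := fun {a a' t t'} h1 h3 h4 h5 => by
    rw [mul_sub, sub_mul, mul_one, one_mul, ← map_mul, ← map_mul, ← h5, ← h4]
    simp only [mul_assoc, ← mul_assoc t' t', hinv t' h3, one_mul, hinv t h1, mul_one]
  by_cases hq : BigF σ
  · obtain ⟨k, hk, hk0, hk1⟩ := hq
    have key : ∀ u, u ≠ 0 → h u u = 0 → ∃ w, w ≠ 0 ∧ h u w = 0 ∧
        ∀ x, ue h (S.fac s) x w * (ν b - 1) = 0 := fun u hu0 hu => by
      obtain ⟨a, t, m, a1, a2, -, a3, a4, a5, -, a6⟩ := hsw u c hu0 hu hc0 hc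
      obtain ⟨a', t', -, b1, -, -, -, b4, -, b5, b6⟩ :=
        hsw u _ hu0 hu (mul_ne_zero hc0 hk0) (skew_mul_fixed hc hk)
      have c1 := hsw' a4 b4 a5 b5
      rw [a1, b1, add_sub_cancel_left, add_sub_cancel_left, mul_smul_comm, mul_smul,
        smul_mul_assoc, smul_mul_assoc, smul_right_inj hc0] at c1
      have c2 : ∀ p, ue h (S.fac s) u u p = 0 → ∃ q r, p = r + ue h (S.fac s) u u q ∧
          ν b r = r ∧ ν (t' * t) r = r := fun p hp => by
        obtain ⟨q, d1, d2⟩ := exists_fix_of_odd h2 (a := ν a) (b := ν b)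
          (by rw [← map_mul, hinv a a2, map_one]) (by rw [← map_mul, hinv b hb, map_one])
          (by rw [← map_mul, ← map_pow, a3, map_one]) (p := p) (by simp [a1, hp])
        refine ⟨-(c • q), _, by simp [a1], d2, ?_⟩
        rw [map_mul, End.mul_apply, a6 _ d1 d2, b6 _ (by simp [a1, b1, hp, ue_ue, hu]) d2]
      obtain ⟨r, c3, c4⟩ := hX.exists_scalar hM hu0 hu (hνX (t' * t)) hk0 c1 fun p hp => by
        obtain ⟨q, r, rfl, -, d2⟩ := c2 p hp
        refine ⟨k • ν (t' * t) q - q, ?_⟩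
        rw [map_add, d2, ← End.mul_apply, c1]
        simp
      have c5 : r ≠ 1 := by
        rintro rfl
        rw [one_smul] at c3
        rw [c3, (hX.fix_iff (hνX _)).1 c3, eq_comm, ← sub_eq_zero, ← one_smul F (ue h _ u u),
          smul_smul, ← sub_smul] at c1
        exact smul_ne_zero (by simpa [sub_eq_zero]) (hX.ue_ne_zero s hu0 hu0) c1
      obtain ⟨w, d1, d2, d3⟩ := c4 c5
      refine ⟨w, d1, d2, fun x => ?_⟩
      rw [mul_sub, mul_one, sub_eq_zero, ← hX.fix_iff (hνX b)]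
      refine LinearMap.ext fun p => ?_
      have d4 := LinearMap.congr_fun ((hX.fix_iff (hνX _)).2 (d3 x)) p
      obtain ⟨q, r', d5, d6, d7⟩ := c2 (ue h (S.fac s) w x p) (by simp [ue_ue, d2])
      rw [End.mul_apply, d5, map_add, d7, ← End.mul_apply, c3, add_right_inj, LinearMap.smul_apply,
        ← sub_eq_zero, ← one_smul F (ue h (S.fac s) u u q), smul_smul, ← sub_smul,
        smul_eq_zero_iff_right (by simpa [sub_eq_zero])] at d4
      rw [End.mul_apply, d5, d4, add_zero, d6]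
    obtain ⟨w, a1, -, a2⟩ := key u₀ hu₀ hu₀'
    obtain ⟨u, a3, a4⟩ : ∃ u, h u u = 0 ∧ h u w ≠ 0 := by
      by_contra! H
      exact a1 (eq_zero_of_perp_iso hX.hh hX.two H)
    obtain ⟨v, b1, b2, b3⟩ := key u (by rintro rfl; simp at a4) a3
    obtain ⟨γ, hγ⟩ := hX.fac_of_ker₂ hM (by simpa using hνX b) b1 (fun e => by
      obtain ⟨a, rfl⟩ := Submodule.mem_span_singleton.1 e
      simp [b2] at a4) b3 a2
    exact hbH (hLH s (hfac b s γ hγ))
  obtain ⟨v, hv, hv', huv⟩ := exists_iso_perp_notMem hX.hh (hX.big.resolve_right hq) hu₀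
  have hv0 : v ≠ 0 := by rintro rfl; simp at hv
  obtain ⟨a, t, -, a1, -, a2, -, a4, a5, -⟩ := hsw u₀ c hu₀ hu₀' hc0 hc
  obtain ⟨a', t', -, b1, -, b2, -, b4, b3, b5, -⟩ := hsw v c hv0 hv' hc0 hc
  have c1 := hsw' a4 b4 a5 b5
  rw [a1, b1, add_sub_cancel_left, add_sub_cancel_left, mul_smul_comm, smul_mul_assoc,
    smul_right_inj hc0] at c1
  obtain ⟨w, d1, d2, d3⟩ := hX.exists_comm hq h2 (hνX (t' * t)) (hX.transport hM h2 (hνX _) (e1 _)
    (e2 _) hv0 hv' one_ne_zero (by rw [c1, mul_assoc, e1, mul_one, one_smul])) (by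
      have d1 := hX.cls_rk (hT t a4)
      have d2 := hX.cls_rk (hT t' b4)
      have d3 := Nat.mul_le_mul_left (finrank F U) ((rk_add_le ((ν t' - 1) * ν t) (ν t - 1)).trans
        (add_le_add_left (rk_mul_le_left _ _) _))
      rw [sub_mul, one_mul, sub_add_sub_cancel, ← map_mul, mul_add] at d3
      omega) hu₀ hu₀' (by rw [mul_assoc, c1, ue_mul', huv, zero_smul])
  obtain ⟨z, f1, f2, f3⟩ := hbase s hs _ ⟨w, c, d1, d2, hc0, hc, rfl⟩
  rw [hO.inj f2 (hLH s f3) a4 (fun e => hbH (a5 ▸ mul_mem (mul_mem e a2) e)) b4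
    (fun e => hbH (b3 ▸ mul_mem (mul_mem e b2) e)) (hν (by
      rw [map_mul, map_mul ν _ z, f1, add_mul, mul_add, mul_smul_comm, d3]; simp)), hinv t a4,
    map_one, one_mul, mul_one] at c1
  obtain ⟨y, g1, g2⟩ := H26.exists_perp_eq hX.hh hv 1
  have := congrArg (ue h (S.fac s) v y * ·) c1
  simp only [ue_mul, hX.hh.flip_zero g1, g2, zero_smul, one_smul] at this
  exact hX.ue_ne_zero s hv0 hv0 this.symm

end Cfsg.Agent.H79
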